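import Cfsg.Statements.S0671
import Mathlib
import Cfsg.Agent.H1.PermMod

set_option autoImplicit false
open Cfsg

namespace Cfsg.Agent.S0671

/-- If the heart of the permutation module in characteristic `p` of a transitive action of degree `p ^ f` has no trivial composition factor, the action is doubly transitive. The hypothesis is phrased without composition series: no invariant subspaces `W < W'` between the constants and the sum-zero functions with trivial action on the quotient. -/
theorem result {G : Type*} [Group G] [Finite G] {K : Type*} [Field K] {p f : ℕ} [Fact p.Prime] [CharP K p] {Ω : Type*} [Fintype Ω] [MulAction G Ω] [MulAction.IsPretransitive G Ω] (hf : 1 ≤ f) (hcard : Fintype.card Ω = p ^ f) (h : ∀ W W' : Subrepresentation (Cfsg.permRep K G Ω), (Cfsg.permConstants K G Ω).toSubmodule ≤ W.toSubmodule → W.toSubmodule < W'.toSubmodule → W'.toSubmodule ≤ (Cfsg.permSumZero K G Ω).toSubmodule → ∃ g : G, ∃ v ∈ W'.toSubmodule, Cfsg.permRep K G Ω g v - v ∉ W.toSubmodule) : MulAction.IsMultiplyPretransitive G Ω 2 := by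
  classical
  rw [MulAction.is_two_pretransitive_iff]
  intro a b c d hab hcd
  -- the orbital of `(a, b)`
  let R : Ω → Ω → Prop := fun x y => ∃ g : G, g • a = x ∧ g • b = y
  have hR : ∀ (g : G) x y, R (g • x) (g • y) ↔ R x y := by
    intro g x y
    constructor
    · rintro ⟨k, h1, h2⟩
      exact ⟨g⁻¹ * k, by simp [mul_smul, h1], by simp [mul_smul, h2]⟩
    · rintro ⟨k, h1, h2⟩
      exact ⟨g * k, by simp [mul_smul, h1], by simp [mul_smul, h2]⟩
  let m : Ω → Ω → K := fun x y => if R x y then 1 else 0
  have hm : ∀ (g : G) x y, m (g • x) (g • y) = m x y := by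
    intro g x y
    simp only [m, hR]
  have hk : ∀ x, ∑ y, m x y = ∑ y, m a y := by
    intro x
    obtain ⟨g, rfl⟩ := MulAction.exists_smul_eq G a x
    rw [← H1.sum_smul_eq g]
    simp only [hm]
  let φ : (Ω → K) →ₗ[K] (Ω → K) :=
    { toFun := fun v x => ∑ y, m x y * v y - (∑ y, m a y) * v x
      map_add' := by
        intro u v; funext x
        simp only [Pi.add_apply, mul_add, Finset.sum_add_distrib]; ring
      map_smul' := by
        intro r v; funext x
        simp only [Pi.smul_apply, smul_eq_mul, RingHom.id_apply, mul_sub, Finset.mul_sum]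
        congr 1
        · exact Finset.sum_congr rfl fun y _ => by ring
        · ring }
  have hφ : ∀ v x, φ v x = ∑ y, m x y * v y - (∑ y, m a y) * v x := fun _ _ => rfl
  have hφg : ∀ (g : G) v, φ (permRep K G Ω g v) = permRep K G Ω g (φ v) := by
    intro g v
    funext x
    rw [H1.permRep_apply, hφ, hφ, ← H1.sum_smul_eq g]
    simp only [H1.permRep_apply, inv_smul_smul]
    congr 1
    refine Finset.sum_congr rfl fun y _ => ?_
    rw [← hm g (g⁻¹ • x), smul_inv_smul]
  have hφs : ∀ x y, x ≠ y → φ (Pi.single y 1) x = m x y := by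
    intro x y hxy
    rw [hφ]
    simp [Pi.single_apply, hxy]
  have hconst : ∀ (g : G), ∀ v ∈ (permConstants K G Ω).toSubmodule, permRep K G Ω g v = v := by
    intro g v hv
    obtain ⟨c, hc⟩ := (H1.mem_permConstants v).1 hv
    funext x
    rw [H1.permRep_apply, hc, hc]
  let W : Subrepresentation (permRep K G Ω) :=
    ⟨LinearMap.ker φ, fun g v hv => by
      rw [LinearMap.mem_ker] at hv ⊢
      rw [hφg, hv, map_zero]⟩
  let W' : Subrepresentation (permRep K G Ω) :=
    ⟨(permConstants K G Ω).toSubmodule.comap φ, fun g v hv => by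
      rw [Submodule.mem_comap] at hv ⊢
      rw [hφg]
      exact (permConstants K G Ω).apply_mem_toSubmodule g hv⟩
  have h1 : (permConstants K G Ω).toSubmodule ≤ W.toSubmodule := by
    rw [H1.permConstants_le_iff]
    change φ _ = 0
    funext x
    rw [hφ]
    simp [hk x]
  have h2 : W.toSubmodule < W'.toSubmodule := by
    have hr : LinearMap.range φ ≠ ⊥ := by
      intro hr
      have : φ (Pi.single b 1) = 0 := by
        rw [← Submodule.mem_bot K, ← hr]
        exact LinearMap.mem_range_self _ _
      have h3 := congrFun this a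
      rw [hφs a b hab] at h3
      have h4 : R a b := ⟨1, by simp, by simp⟩
      simp [m, h4] at h3
    obtain ⟨v, hv⟩ := H1.one_mem_of_ne_bot (G := G) hcard (LinearMap.range φ) (by
      rintro g _ ⟨v, rfl⟩
      exact ⟨_, hφg g v⟩) hr
    refine lt_of_le_of_ne ?_ ?_
    · intro w hw
      change φ w ∈ (permConstants K G Ω).toSubmodule
      rw [show φ w = 0 from hw]
      exact Submodule.zero_mem _
    · intro heq
      have hv' : v ∈ W'.toSubmodule := by
        change φ v ∈ (permConstants K G Ω).toSubmodule
        rw [hv, H1.mem_permConstants]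
        exact ⟨1, fun _ => rfl⟩
      rw [← heq] at hv'
      have h5 : φ v = 0 := hv'
      rw [hv] at h5
      exact one_ne_zero (congrFun h5 a)
  have h3 : W'.toSubmodule = ⊤ := by
    by_contra hne
    have := H1.sum_eq_zero_of_ne_top (G := G) hcard W'.toSubmodule
      (fun g v hv => W'.apply_mem_toSubmodule g hv) hne
    obtain ⟨g, v, hv, hgv⟩ := h W W' h1 h2 this
    apply hgv
    change φ _ = 0
    rw [map_sub, hφg, hconst g _ hv, sub_self]
  have h4 : φ (Pi.single d 1) ∈ (permConstants K G Ω).toSubmodule := by
    have : Pi.single d 1 ∈ W'.toSubmodule := by rw [h3]; trivial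
    exact this
  obtain ⟨r, hr⟩ := (H1.mem_permConstants _).1 h4
  obtain ⟨g, hg⟩ := MulAction.exists_smul_eq G b d
  have h5 : g • a ≠ d := by
    rw [← hg]
    exact fun h => hab (MulAction.injective g h)
  have h6 : m c d = m (g • a) d := by
    rw [← hφs c d hcd, ← hφs _ d h5, hr, hr]
  have h7 : R (g • a) d := ⟨g, rfl, hg⟩
  by_contra hc
  have h8 : ¬ R c d := hc
  simp [m, h7, h8] at h6

end Cfsg.Agent.S0671
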