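import Cfsg.Statements.S0672
import Mathlib
import Cfsg.Agent.H1.PermMod

set_option autoImplicit false
open Cfsg

namespace Cfsg.Agent.S0672

/-- Let a finite group act faithfully and doubly transitively with point stabilisers of even order, and let `K` have characteristic `p` dividing the degree. If the heart of the permutation module admits no non-zero equivariant map to the permutation module on unordered pairs (phrased: every intertwining map from the sum-zero functions vanishing on the constants is zero), the action is triply transitive. -/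
theorem result {G : Type*} [Group G] [Finite G] {K : Type*} [Field K] {p : ℕ} [Fact p.Prime] [CharP K p] {Ω : Type*} [Fintype Ω] [DecidableEq Ω] [MulAction G Ω] [FaithfulSMul G Ω] (h2 : MulAction.IsMultiplyPretransitive G Ω 2) (hp : p ∣ Fintype.card Ω) (heven : ∀ a : Ω, Even (Nat.card (MulAction.stabilizer G a))) (h : ∀ f : Representation.IntertwiningMap (Cfsg.permSumZero K G Ω).toRepresentation (Cfsg.permRep K G (Set.powersetCard Ω 2)), (∀ v : (Cfsg.permSumZero K G Ω).toSubmodule, (v : Ω → K) ∈ (Cfsg.permConstants K G Ω).toSubmodule → f v = 0) → f = 0) : MulAction.IsMultiplyPretransitive G Ω 3 := by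
  classical
  rw [MulAction.isMultiplyPretransitive_iff]
  intro X Y
  have hX01 : X 0 ≠ X 1 := X.injective.ne (by decide)
  have hX02 : X 0 ≠ X 2 := X.injective.ne (by decide)
  have hX12 : X 1 ≠ X 2 := X.injective.ne (by decide)
  have hY01 : Y 0 ≠ Y 1 := Y.injective.ne (by decide)
  have hY02 : Y 0 ≠ Y 2 := Y.injective.ne (by decide)
  have hY12 : Y 1 ≠ Y 2 := Y.injective.ne (by decide)
  have h2' : ∀ {a b c d : Ω}, a ≠ b → c ≠ d → ∃ g : G, g • a = c ∧ g • b = d :=
    MulAction.is_two_pretransitive_iff.1 h2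
  -- a general construction of intertwining maps
  have key : ∀ m : Ω → Set.powersetCard Ω 2 → K, (∀ (g : G) x T, m (g • x) (g • T) = m x T) →
      (∀ T, ∑ x, m x T = 0) → ∀ x y T, m x T = m y T := by
    intro m hm hm0 x y T
    let φ : (Ω → K) →ₗ[K] (Set.powersetCard Ω 2 → K) :=
      { toFun := fun v T => ∑ x, m x T * v x
        map_add' := by
          intro u v; funext T
          simp only [Pi.add_apply, mul_add, Finset.sum_add_distrib]
        map_smul' := by
          intro r v; funext T
          simp only [Pi.smul_apply, smul_eq_mul, RingHom.id_apply, Finset.mul_sum]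
          exact Finset.sum_congr rfl fun y _ => by ring }
    have hφ : ∀ v T, φ v T = ∑ x, m x T * v x := fun _ _ => rfl
    let F : Representation.IntertwiningMap (Cfsg.permSumZero K G Ω).toRepresentation
        (Cfsg.permRep K G (Set.powersetCard Ω 2)) :=
      { toLinearMap := φ ∘ₗ (Cfsg.permSumZero K G Ω).toSubmodule.subtype
        isIntertwining' := by
          intro g
          ext v T
          change φ (permRep K G Ω g v) T = φ v (g⁻¹ • T)
          rw [hφ, hφ, ← H1.sum_smul_eq g]
          simp only [H1.permRep_apply, inv_smul_smul]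
          refine Finset.sum_congr rfl fun y _ => ?_
          rw [← hm g y, smul_inv_smul] }
    have hF : F = 0 := by
      apply h
      intro v hv
      obtain ⟨c, hc⟩ := (H1.mem_permConstants _).1 hv
      funext T
      change φ v T = 0
      rw [hφ]
      simp only [hc, ← Finset.sum_mul, hm0, zero_mul]
    have hmem : (Pi.single x 1 - Pi.single y 1 : Ω → K) ∈ (Cfsg.permSumZero K G Ω).toSubmodule := by
      rw [H1.mem_permSumZero]
      simp [Finset.sum_sub_distrib]
    have h3 : F ⟨_, hmem⟩ T = 0 := by rw [hF]; rfl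
    have h4 : φ (Pi.single x 1 - Pi.single y 1) T = 0 := h3
    rw [map_sub, Pi.sub_apply, hφ, hφ] at h4
    simpa [Pi.single_apply, sub_eq_zero] using h4
  have hpair : ∀ {y z : Ω}, y ≠ z → ({y, z} : Finset Ω) ∈ Set.powersetCard Ω 2 :=
    fun hyz => Finset.card_pair hyz
  have hmem : ∀ (g : G) x (T : Set.powersetCard Ω 2), g • x ∈ (g • T : Set.powersetCard Ω 2).1 ↔ x ∈ T.1 := by
    intro g x T
    rw [Set.powersetCard.coe_smul, Finset.smul_mem_smul_finset_iff]
  let m0 : Ω → Set.powersetCard Ω 2 → K := fun x T => if x ∈ T.1 then 1 else 0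
  have hm0 : ∀ (g : G) x T, m0 (g • x) (g • T) = m0 x T := by
    intro g x T
    simp only [m0, hmem]
  have hm0s : ∀ T, ∑ x, m0 x T = 2 := by
    intro T
    have : T.1.card = 2 := T.2
    simp [m0, this]
  have htwo : (2 : K) ≠ 0 := by
    intro h20
    have := key m0 hm0 (fun T => by rw [hm0s, h20]) (X 0) (X 1) ⟨_, hpair hX12⟩
    simp [m0, hX01, hX02] at this
  let T0 : Set.powersetCard Ω 2 := ⟨_, hpair hX12⟩
  let R : Ω → Set.powersetCard Ω 2 → Prop := fun x T => ∃ g : G, g • X 0 = x ∧ g • T0 = T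
  have hR : ∀ (g : G) x y, R (g • x) (g • y) ↔ R x y := by
    intro g x y
    constructor
    · rintro ⟨k, h1, h2⟩
      exact ⟨g⁻¹ * k, by simp [mul_smul, h1], by simp [mul_smul, h2]⟩
    · rintro ⟨k, h1, h2⟩
      exact ⟨g * k, by simp [mul_smul, h1], by simp [mul_smul, h2]⟩
  let m1 : Ω → Set.powersetCard Ω 2 → K := fun x T => if R x T then 1 else 0
  have hm1 : ∀ (g : G) x T, m1 (g • x) (g • T) = m1 x T := by
    intro g x T
    simp only [m1, hR]
  have htr : ∀ T : Set.powersetCard Ω 2, ∃ g : G, g • T0 = T :=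
    fun T => (Set.powersetCard.isPretransitive_of_isMultiplyPretransitive G h2).exists_smul_eq T0 T
  have hk : ∀ T, ∑ x, m1 x T = ∑ x, m1 x T0 := by
    intro T
    obtain ⟨g, rfl⟩ := htr T
    rw [← H1.sum_smul_eq g]
    simp only [hm1]
  have hmain := key (fun x T => 2 * m1 x T - (∑ x, m1 x T0) * m0 x T)
    (fun g x T => by simp only [hm0, hm1])
    (fun T => by
      simp only [Finset.sum_sub_distrib, ← Finset.mul_sum, hk T, hm0s]; ring)
  -- an involution in the stabiliser
  obtain ⟨t, ht⟩ := exists_prime_orderOf_dvd_card' (G := MulAction.stabilizer G (X 0)) 2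
    (even_iff_two_dvd.1 (heven (X 0)))
  have ht1 : (t : G) ≠ 1 := by
    intro h1
    have : t = 1 := Subtype.ext h1
    rw [this, orderOf_one] at ht
    exact absurd ht (by norm_num)
  have ht2 : (t : G) * t = 1 := by
    have := pow_orderOf_eq_one t
    rw [ht, pow_two] at this
    exact congrArg Subtype.val this
  obtain ⟨y, hy⟩ : ∃ y : Ω, (t : G) • y ≠ y := by
    by_contra hn
    push Not at hn
    exact ht1 (FaithfulSMul.eq_of_smul_eq_smul (α := Ω) fun x => by rw [hn, one_smul])
  have htx : (t : G) • X 0 = X 0 := t.2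
  have hty : (t : G) • (t : G) • y = y := by rw [← mul_smul, ht2, one_smul]
  have hxy : X 0 ≠ y := by
    rintro rfl
    exact hy htx
  have hxty : X 0 ≠ (t : G) • y := by
    intro h1
    apply hxy
    rw [← hty, ← h1, htx]
  -- transitivity on (point, pair) configurations
  have hRall : ∀ x y z : Ω, x ≠ y → x ≠ z → y ≠ z →
      ∃ k : G, k • X 0 = x ∧ ((k • X 1 = y ∧ k • X 2 = z) ∨ (k • X 1 = z ∧ k • X 2 = y)) := by
    intro x y z hxy hxz hyz
    let T : Set.powersetCard Ω 2 := ⟨_, hpair hyz⟩
    obtain ⟨g, hg1, hg2⟩ := h2' hX12 hyz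
    have hgT : g • T0 = T := by
      apply Subtype.ext
      rw [Set.powersetCard.coe_smul]
      simp [T0, T, Finset.smul_finset_insert, hg1, hg2]
    have hR1 : R x T := by
      have h5 := hmain (g • X 0) x T
      have h6 : R (g • X 0) T := ⟨g, rfl, hgT⟩
      have h7 : m0 (g • X 0) T = 0 := by
        rw [← hgT, hm0]
        simp [m0, T0, hX01, hX02]
      have h8 : m0 x T = 0 := by
        simp [m0, T, hxy, hxz]
      by_contra hn
      simp only [h7, h8] at h5
      simp [m1, h6, hn, htwo] at h5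
    obtain ⟨k, hk1, hk2⟩ := hR1
    refine ⟨k, hk1, ?_⟩
    have h9 := congrArg Subtype.val hk2
    rw [Set.powersetCard.coe_smul] at h9
    simp only [T0, T, Finset.smul_finset_insert, Finset.smul_finset_singleton] at h9
    have h10 : ({k • X 1, k • X 2} : Set Ω) = {y, z} := by
      simpa only [Finset.coe_pair] using congrArg (fun s : Finset Ω => (s : Set Ω)) h9
    exact Set.pair_eq_pair_iff.1 h10
  have hswap : ∃ s : G, s • X 0 = X 0 ∧ s • X 1 = X 2 ∧ s • X 2 = X 1 := by
    obtain ⟨k, hk1, hk2⟩ := hRall (X 0) y ((t : G) • y) hxy hxty (Ne.symm hy)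
    refine ⟨k⁻¹ * t * k, ?_, ?_, ?_⟩
    · rw [mul_smul, mul_smul, hk1, htx, inv_smul_eq_iff, hk1]
    · rcases hk2 with ⟨h1, h2⟩ | ⟨h1, h2⟩
      · rw [mul_smul, mul_smul, h1, inv_smul_eq_iff, h2]
      · rw [mul_smul, mul_smul, h1, inv_smul_eq_iff, h2, hty]
    · rcases hk2 with ⟨h1, h2⟩ | ⟨h1, h2⟩
      · rw [mul_smul, mul_smul, h2, inv_smul_eq_iff, h1, hty]
      · rw [mul_smul, mul_smul, h2, inv_smul_eq_iff, h1]
  obtain ⟨s, hs0, hs1, hs2⟩ := hswap
  obtain ⟨k, hk1, hk2⟩ := hRall (Y 0) (Y 1) (Y 2) hY01 hY02 hY12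
  rcases hk2 with ⟨h1, h2⟩ | ⟨h1, h2⟩
  · refine ⟨k, ?_⟩
    ext i
    fin_cases i
    · exact hk1
    · exact h1
    · exact h2
  · refine ⟨k * s, ?_⟩
    ext i
    fin_cases i
    · change (k * s) • X 0 = Y 0
      rw [mul_smul, hs0, hk1]
    · change (k * s) • X 1 = Y 1
      rw [mul_smul, hs1, h2]
    · change (k * s) • X 2 = Y 2
      rw [mul_smul, hs2, h1]

end Cfsg.Agent.S0672
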