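import Cfsg.Statements.S0681
import Cfsg.Agent.H2.Sharp

set_option autoImplicit false
open Cfsg

namespace Cfsg.Agent.S0681

theorem nf_zero_mul {F : Type*} [Cfsg.NearField F] (c : F) : (0 : F) * c = 0 := by
  have := NearField.right_distrib (0 : F) 0 c
  rw [add_zero] at this
  exact left_eq_add.1 this

theorem nf_neg_mul {F : Type*} [Cfsg.NearField F] (a c : F) : (-a) * c = -(a * c) := by
  have := NearField.right_distrib (-a) a c
  rw [neg_add_cancel, nf_zero_mul] at this
  exact eq_neg_of_add_eq_zero_left this.symm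

theorem nf_mul_ne_zero {F : Type*} [Cfsg.NearField F] {a c : F} (ha : a ≠ 0) (hc : c ≠ 0) :
    a * c ≠ 0 := by
  intro h
  obtain ⟨d, hd, -⟩ := NearField.exists_inv c hc
  apply ha
  rw [← mul_one a, ← hd, ← mul_assoc, h, nf_zero_mul]

theorem nf_mul_left_cancel {F : Type*} [Cfsg.NearField F] {a x y : F} (ha : a ≠ 0)
    (h : a * x = a * y) : x = y := by
  obtain ⟨d, -, hd⟩ := NearField.exists_inv a ha
  rw [← one_mul x, ← hd, mul_assoc, h, ← mul_assoc, hd, one_mul]

/-- the affine permutation -/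
noncomputable def aff {F : Type*} [Cfsg.NearField F] (a b : F) (ha : a ≠ 0) : Equiv.Perm F where
  toFun x := x * a + b
  invFun y := (y + -b) * (NearField.exists_inv a ha).choose
  left_inv x := by
    simp only [add_neg_cancel_right, mul_assoc, (NearField.exists_inv a ha).choose_spec.1, mul_one]
  right_inv y := by
    simp only [mul_assoc, (NearField.exists_inv a ha).choose_spec.2, mul_one, neg_add_cancel_right]

/-- the affine group -/
def affGroup (F : Type*) [Cfsg.NearField F] : Subgroup (Equiv.Perm F) where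
  carrier := {σ | ∃ a b : F, a ≠ 0 ∧ ∀ x : F, σ x = x * a + b}
  one_mem' := ⟨1, 0, NearField.zero_ne_one.symm, fun x => by simp⟩
  mul_mem' := by
    rintro σ τ ⟨a, b, ha, hσ⟩ ⟨c, d, hc, hτ⟩
    refine ⟨c * a, d * a + b, nf_mul_ne_zero hc ha, fun x => ?_⟩
    simp only [Equiv.Perm.coe_mul, Function.comp_apply, hσ, hτ, NearField.right_distrib, mul_assoc,
      add_assoc]
  inv_mem' := by
    rintro σ ⟨a, b, ha, hσ⟩
    obtain ⟨d, hd, hd'⟩ := NearField.exists_inv a ha
    refine ⟨d, (-b) * d, ?_, fun x => ?_⟩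
    · rintro rfl
      rw [NearField.mul_zero] at hd
      exact NearField.zero_ne_one hd
    · apply σ.injective
      rw [Equiv.Perm.inv_def, Equiv.apply_symm_apply, hσ, ← NearField.right_distrib, mul_assoc, hd',
        mul_one, neg_add_cancel_right]

/-- The affine maps `x ↦ x * a + b`, `a ≠ 0`, of a near-field form a sharply doubly transitive permutation group. -/
theorem result {F : Type*} [Cfsg.NearField F] : ∃ H : Subgroup (Equiv.Perm F), (∀ σ : Equiv.Perm F, σ ∈ H ↔ ∃ a b : F, a ≠ 0 ∧ ∀ x : F, σ x = x * a + b) ∧ MulAction.IsMultiplyPretransitive H F 2 ∧ ∀ x : Fin 2 ↪ F, MulAction.stabilizer H x = ⊥ := by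
  refine ⟨affGroup F, fun σ => Iff.rfl, ?_, ?_⟩
  · rw [H2.two_trans_iff]
    intro x y z w hxy hzw
    have h1 : y + -x ≠ 0 := fun h => hxy (by rw [← sub_eq_add_neg, sub_eq_zero] at h; exact h.symm)
    have h2 : w + -z ≠ 0 := fun h => hzw (by rw [← sub_eq_add_neg, sub_eq_zero] at h; exact h.symm)
    obtain ⟨d, hd, hd'⟩ := NearField.exists_inv _ h1
    have hd0 : d ≠ 0 := by
      rintro rfl
      rw [NearField.mul_zero] at hd
      exact NearField.zero_ne_one hd
    have ha : d * (w + -z) ≠ 0 := nf_mul_ne_zero hd0 h2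
    refine ⟨⟨aff (d * (w + -z)) (-(x * (d * (w + -z))) + z) ha, _, _, ha, fun _ => rfl⟩, ?_, ?_⟩
    · show x * _ + _ = z
      rw [add_neg_cancel_left]
    · show y * _ + _ = w
      rw [← add_assoc, ← nf_neg_mul, ← NearField.right_distrib, ← mul_assoc, hd, one_mul,
        neg_add_cancel_right]
  · refine (H2.emb2_stab_iff (G := affGroup F) (Ω := F)).2 ?_
    rintro ⟨σ, a, b, ha, hσ⟩ x y hxy hx hy
    have hx' : x * a + b = x := by rw [← hσ]; exact hx
    have hy' : y * a + b = y := by rw [← hσ]; exact hy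
    have h1 : y + -x ≠ 0 := fun h => hxy (by rw [← sub_eq_add_neg, sub_eq_zero] at h; exact h.symm)
    have hb : b = -(x * a) + x := by rw [eq_neg_add_iff_add_eq]; exact hx'
    have h3 : (y + -x) * a = (y + -x) * 1 := by
      rw [mul_one, NearField.right_distrib, nf_neg_mul]
      rw [hb, ← add_assoc] at hy'
      exact eq_add_neg_of_add_eq hy'
    have ha1 : a = 1 := nf_mul_left_cancel h1 h3
    subst ha1
    have hb0 : b = 0 := by rw [hb]; simp
    apply Subtype.ext
    ext t
    simp [hσ, hb0]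

end Cfsg.Agent.S0681
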