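import Cfsg.Statements.S0682
import Cfsg.Agent.H2.Sharp
import Cfsg.Agent.S0681

set_option autoImplicit false
open Cfsg

namespace Cfsg.Agent.S0682

/-- A finite near-field has prime-power order; its additive group is commutative of prime exponent. -/
theorem result {F : Type*} [Cfsg.NearField F] [Finite F] : ∃ p j : ℕ, p.Prime ∧ 1 ≤ j ∧ Nat.card F = p ^ j ∧ (∀ x y : F, x + y = y + x) ∧ ∀ x : F, p • x = 0 := by
  obtain ⟨H, hH, h2, hs⟩ := S0681.result (F := F)
  haveI : Nontrivial F := ⟨⟨0, 1, NearField.zero_ne_one⟩⟩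
  obtain ⟨p, j, hp, hj, hn, h⟩ := H2.sharp2_kernel (G := H) (Ω := F) (H2.two_trans_iff.1 h2)
    (H2.emb2_stab_iff.1 hs)
  haveI := Fact.mk hp
  obtain ⟨P⟩ : Nonempty (Sylow p H) := inferInstance
  obtain ⟨h1, h2, h3, h4, h5⟩ := h inferInstance P
  let t : F → H := fun b => ⟨S0681.aff 1 b NearField.zero_ne_one.symm,
    (hH _).2 ⟨1, b, NearField.zero_ne_one.symm, fun _ => rfl⟩⟩
  have ht : ∀ b x : F, t b • x = x + b := by
    intro b x
    show x * 1 + b = _
    rw [mul_one]
  have htP : ∀ b, t b ∈ (P : Subgroup H) := by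
    intro b
    rw [h5]
    by_cases hb : b = 0
    · left
      apply Subtype.ext
      ext x
      have := ht b x
      rw [hb, add_zero] at this
      rw [hb]
      exact this
    · right
      intro x hx
      rw [ht] at hx
      exact hb (add_eq_left.1 hx)
  refine ⟨p, j, hp, hj, hn, fun x y => ?_, fun x => ?_⟩
  · have := congrArg (fun g : H => g • (0 : F)) (h2 _ (htP x) _ (htP y))
    simp only [mul_smul, ht, zero_add] at this
    exact this.symm
  · have hk : ∀ k : ℕ, (t x ^ k) • (0 : F) = k • x := by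
      intro k
      induction k with
      | zero => simp
      | succ k ih => rw [pow_succ', mul_smul, ih, ht, succ_nsmul]
    rw [← hk, h3 _ (htP x), one_smul]

end Cfsg.Agent.S0682
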