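import Cfsg.Statements.S0683
import Cfsg.Agent.H2.Sharp

set_option autoImplicit false
open Cfsg

namespace Cfsg.Agent.S0683

/-- A finite sharply doubly transitive permutation group is the affine group of a near-field: the permuted set carries a near-field structure for which the group consists exactly of the maps `x ↦ x * a + b` with `a ≠ 0`. -/
theorem result {α : Type*} [Fintype α] [DecidableEq α] (H : Subgroup (Equiv.Perm α)) [MulAction.IsMultiplyPretransitive H α 2] (hsharp : ∀ x : Fin 2 ↪ α, MulAction.stabilizer H x = ⊥) (h2 : 2 ≤ Fintype.card α) : ∃ _ : Cfsg.NearField α, ∀ σ : Equiv.Perm α, σ ∈ H ↔ ∃ a b : α, a ≠ 0 ∧ ∀ x : α, σ x = x * a + b := by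
  haveI : Nontrivial α := Fintype.one_lt_card_iff_nontrivial.1 h2
  have h2t := (H2.two_trans_iff (G := H) (Ω := α)).1 inferInstance
  have hs := (H2.emb2_stab_iff (G := H) (Ω := α)).1 hsharp
  obtain ⟨p, j, hp, hj, hn, h⟩ := H2.sharp2_kernel (G := H) (Ω := α) h2t hs
  haveI := Fact.mk hp
  obtain ⟨P⟩ : Nonempty (Sylow p H) := inferInstance
  obtain ⟨hN, -, -, h4, h5⟩ := h inferInstance P
  obtain ⟨o, e, hoe⟩ := exists_pair_ne α
  have huniq : ∀ g k : H, g • o = k • o → g • e = k • e → g = k := by
    intro g k h1 h2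
    have := hs (k⁻¹ * g) o e hoe (by rw [mul_smul, h1, inv_smul_smul]) (by rw [mul_smul, h2, inv_smul_smul])
    exact (inv_mul_eq_one.1 this).symm
  choose T hT hTu using fun b => h4 o b
  have hTu' : ∀ (b : α) (u : H), u ∈ (P : Subgroup H) → u • o = b → u = T b := by
    intro b u hu hub
    exact congrArg Subtype.val (hTu b ⟨u, hu⟩ hub)
  have hM0 : ∀ a : α, ∃ g : H, a ≠ o → g • o = o ∧ g • e = a := by
    intro a
    by_cases ha : a = o
    · exact ⟨1, fun h => absurd ha h⟩
    · obtain ⟨g, hg⟩ := h2t o e o a hoe (Ne.symm ha)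
      exact ⟨g, fun _ => hg⟩
  choose M hM using hM0
  have hMu : ∀ (a : α) (g : H), a ≠ o → g • o = o → g • e = a → g = M a := by
    intro a g ha h1 h2
    exact huniq _ _ (by rw [h1, (hM a ha).1]) (by rw [h2, (hM a ha).2])
  have hMne : ∀ a x : α, a ≠ o → x ≠ o → M a • x ≠ o := by
    intro a x ha hx h
    apply hx
    exact (smul_left_cancel_iff (M a)).1 (h.trans (hM a ha).1.symm)
  have hT1 : (T o : H) = 1 := (hTu' o 1 (Subgroup.one_mem _) (one_smul _ _)).symm
  have hTT : ∀ y z : α, (T ((T z : H) • y) : H) = T z * T y := by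
    intro y z
    symm
    apply hTu' _ _ (Subgroup.mul_mem _ (T z).2 (T y).2)
    rw [mul_smul, hT]
  have hM1 : M e = 1 := (hMu e 1 hoe.symm (one_smul _ _) (one_smul _ _)).symm
  letI : Add α := ⟨fun x b => (T b : H) • x⟩
  letI : Zero α := ⟨o⟩
  letI : Neg α := ⟨fun b => (T b : H)⁻¹ • o⟩
  letI : Mul α := ⟨fun x a => if a = o then o else M a • x⟩
  letI : One α := ⟨e⟩
  have add_def : ∀ x b : α, x + b = (T b : H) • x := fun _ _ => rfl
  have mul_def : ∀ x a : α, x * a = if a = o then o else M a • x := fun _ _ => rfl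
  letI A : AddGroup α := AddGroup.ofLeftAxioms
    (fun x y z => by rw [add_def, add_def, add_def, add_def, hTT, mul_smul])
    (fun x => hT x)
    (fun x => by
      show (T x : H) • ((T x : H)⁻¹ • o) = o
      rw [smul_inv_smul])
  letI B : Monoid α :=
    { mul_assoc := fun x a b => by
        simp only [mul_def]
        by_cases hb : b = o
        · simp [hb]
        by_cases ha : a = o
        · simp [ha, hb, (hM b hb).1]
        have hab := hMne b a hb ha
        simp only [ha, hb, hab, if_false]
        rw [← hMu (M b • a) (M b * M a) hab (by rw [mul_smul, (hM a ha).1, (hM b hb).1])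
          (by rw [mul_smul, (hM a ha).2]), mul_smul]
      one_mul := fun a => by
        rw [mul_def]
        by_cases ha : a = o
        · simp [ha]
        · rw [if_neg ha]; exact (hM a ha).2
      mul_one := fun a => by
        rw [mul_def]
        show (if e = o then o else M e • a) = a
        rw [if_neg hoe.symm, hM1, one_smul] }
  refine ⟨{ toAddGroup := A, toMonoid := B, right_distrib := ?_, mul_zero := ?_, zero_ne_one := hoe,
            exists_inv := ?_ }, ?_⟩
  · intro a b c
    show (if c = o then o else M c • ((T b : H) • a)) =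
      (T (if c = o then o else M c • b) : H) • (if c = o then o else M c • a)
    by_cases hc : c = o
    · simp [hc, hT1]
    simp only [hc, if_false]
    rw [← hTu' (M c • b) (M c * T b * (M c)⁻¹) (hN.conj_mem _ (T b).2 _)
      (by rw [mul_smul, mul_smul, inv_smul_eq_iff.2 (hM c hc).1.symm, hT])]
    simp [mul_smul]
  · intro a
    show (if o = o then o else M o • a) = o
    simp
  · intro a ha
    have ha' : a ≠ o := ha
    have hb : (M a)⁻¹ • e ≠ o := by
      intro h
      rw [inv_smul_eq_iff, (hM a ha').1] at h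
      exact hoe h.symm
    refine ⟨(M a)⁻¹ • e, ?_, ?_⟩
    · show (if (M a)⁻¹ • e = o then o else M ((M a)⁻¹ • e) • a) = e
      rw [if_neg hb, ← hMu _ (M a)⁻¹ hb (inv_smul_eq_iff.2 (hM a ha').1.symm) rfl,
        inv_smul_eq_iff, (hM a ha').2]
    · show (if a = o then o else M a • (M a)⁻¹ • e) = e
      rw [if_neg ha', smul_inv_smul]
  · intro σ
    constructor
    · intro hσ
      let g : H := ⟨σ, hσ⟩
      let k : H := (T (g • o) : H)⁻¹ * g
      have hk : k • o = o := by rw [mul_smul, inv_smul_eq_iff, hT]
      have hke : k • e ≠ o := fun h => hoe ((smul_left_cancel_iff k).1 (hk.trans h.symm))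
      refine ⟨k • e, g • o, hke, fun x => ?_⟩
      show g • x = (T (g • o) : H) • (if k • e = o then o else M (k • e) • x)
      rw [if_neg hke, ← hMu _ k hke hk rfl, ← mul_smul]
      simp [k]
    · rintro ⟨a, b, ha, hσ⟩
      have ha' : a ≠ o := ha
      have : σ = ((T b : H) * M a : H) := by
        ext x
        rw [hσ]
        show (T b : H) • (if a = o then o else M a • x) = ((T b : H) * M a : H) • x
        rw [if_neg ha', mul_smul]
      rw [this]
      exact Subtype.property _

end Cfsg.Agent.S0683
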