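import Cfsg.Statements.S0684
import Cfsg.Agent.H2.NearField

set_option autoImplicit false
open Cfsg

namespace Cfsg.Agent.S0684

/-- Point stabiliser of a sharply doubly transitive group not of semilinear type: a maximal normal abelian subgroup `A` of a linear group `H` that is regular on non-zero vectors and has no irreducible cyclic normal subgroup is cyclic and reducible, and the order of `A` divides `p ^ k - 1` for `k` the dimension of a minimal `A`-invariant subspace. -/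
theorem result {p : ℕ} [Fact p.Prime] {V : Type*} [AddCommGroup V] [Module (ZMod p) V] [Finite V] (H : Subgroup (V ≃ₗ[ZMod p] V)) (hreg : ∀ v w : V, v ≠ 0 → w ≠ 0 → ∃! h : H, (h : V ≃ₗ[ZMod p] V) v = w) (hI : ∀ A : Subgroup H, A.Normal → IsCyclic A → ∃ W : Submodule (ZMod p) V, W ≠ ⊥ ∧ W ≠ ⊤ ∧ ∀ a ∈ A, ∀ v ∈ W, ((a : H) : V ≃ₗ[ZMod p] V) v ∈ W) (A : Subgroup H) (hAn : A.Normal) (hAc : IsMulCommutative A) (hAmax : ∀ B : Subgroup H, B.Normal → IsMulCommutative B → A ≤ B → B = A) : IsCyclic A ∧ ∃ W : Submodule (ZMod p) V, W ≠ ⊥ ∧ W ≠ ⊤ ∧ (∀ a ∈ A, ∀ v ∈ W, ((a : H) : V ≃ₗ[ZMod p] V) v ∈ W) ∧ (∀ W' : Submodule (ZMod p) V, W' ≤ W → (∀ a ∈ A, ∀ v ∈ W', ((a : H) : V ≃ₗ[ZMod p] V) v ∈ W') → W' = ⊥ ∨ W' = W) ∧ Nat.card A ∣ p ^ Module.finrank (ZMod p) W - 1 := by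
  haveI : Nontrivial V := by
    obtain ⟨W, hW, -⟩ := hI ⊥ inferInstance inferInstance
    exact (Submodule.nontrivial_iff (ZMod p)).1 ⟨W, ⊥, hW⟩
  have hreg' : ∀ v w : V, v ≠ 0 → w ≠ 0 → ∃! h : H, h • v = w := hreg
  have hcyc := H2.isCyclic_of_comm_normal hreg' A ((H2.isMulCommutative_iff' A).1 hAc)
  refine ⟨hcyc, ?_⟩
  haveI := H2.finite_of_reg hreg'
  obtain ⟨W₀, hb, ht, hW₀⟩ := hI A hAn hcyc
  obtain ⟨W, hle, hW⟩ := H2.exists_minInv (N := A) (W := W₀.toAddSubgroup)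
    (fun h => hb (Submodule.toAddSubgroup_injective h)) hW₀
  refine ⟨AddSubgroup.toZModSubmodule p W, ?_, ?_, hW.2.1, ?_, ?_⟩
  · intro h
    exact hW.1 ((AddSubgroup.toZModSubmodule p).injective (h.trans (map_bot _).symm))
  · intro h
    apply ht
    rw [eq_top_iff]
    intro x _
    have : x ∈ AddSubgroup.toZModSubmodule p W := by rw [h]; trivial
    exact hle this
  · intro W' hle' hW'
    rcases hW.2.2 W'.toAddSubgroup hle' hW' with h | h
    · left; exact Submodule.toAddSubgroup_injective h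
    · right; exact Submodule.toAddSubgroup_injective h
  · have := H2.card_dvd_of_fpf (A := A) (fun g _ => H2.fpf_of_reg hreg' g) hW.2.1
    have e := Module.natCard_eq_pow_finrank (K := ZMod p) (V := AddSubgroup.toZModSubmodule p W)
    rw [Nat.card_zmod] at e
    rw [← e]
    exact this

end Cfsg.Agent.S0684
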