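import Cfsg.Statements.S0685
import Cfsg.Agent.H2.NearField

set_option autoImplicit false
open Cfsg

namespace Cfsg.Agent.S0685

/-- In a linear group over the prime field that is regular on non-zero vectors and has no irreducible cyclic normal subgroup, a maximal normal abelian subgroup is properly contained in its centraliser, which is non-abelian. -/
theorem result {p : ℕ} [Fact p.Prime] {V : Type*} [AddCommGroup V] [Module (ZMod p) V] [Finite V] (H : Subgroup (V ≃ₗ[ZMod p] V)) (hreg : ∀ v w : V, v ≠ 0 → w ≠ 0 → ∃! h : H, (h : V ≃ₗ[ZMod p] V) v = w) (hI : ∀ A : Subgroup H, A.Normal → IsCyclic A → ∃ W : Submodule (ZMod p) V, W ≠ ⊥ ∧ W ≠ ⊤ ∧ ∀ a ∈ A, ∀ v ∈ W, ((a : H) : V ≃ₗ[ZMod p] V) v ∈ W) (A : Subgroup H) (hAn : A.Normal) (hAc : IsMulCommutative A) (hAmax : ∀ B : Subgroup H, B.Normal → IsMulCommutative B → A ≤ B → B = A) : A < Subgroup.centralizer (A : Set H) ∧ ¬ IsMulCommutative (Subgroup.centralizer (A : Set H)) := by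
  haveI : Nontrivial V := by
    obtain ⟨W, hW, -⟩ := hI ⊥ inferInstance inferInstance
    exact (Submodule.nontrivial_iff (ZMod p)).1 ⟨W, ⊥, hW⟩
  have hreg' : ∀ v w : V, v ≠ 0 → w ≠ 0 → ∃! h : H, h • v = w := hreg
  have hc := (H2.isMulCommutative_iff' A).1 hAc
  have hcyc := H2.isCyclic_of_comm_normal hreg' A hc
  have hlt := H2.lt_centralizer_of_reducible hreg' A hc (by
    intro h
    obtain ⟨W₀, hb, ht, hW₀⟩ := hI A hAn hcyc
    rcases (H2.irred_iff_submodule (p := p) A).1 h W₀ hW₀ with h | h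
    · exact hb h
    · exact ht h)
  exact ⟨hlt, fun h => hlt.ne' (hAmax _ inferInstance h hlt.le)⟩

end Cfsg.Agent.S0685
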