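import Cfsg.Statements.S0687
import Cfsg.Agent.H2.NearField

set_option autoImplicit false
open Cfsg

namespace Cfsg.Agent.S0687

/-- In a linear group over the prime field that is regular on non-zero vectors and has no irreducible cyclic normal subgroup, a normal subgroup `N` minimal among the non-abelian normal subgroups centralising a maximal normal abelian subgroup `A` is irreducible on `V`, and its centraliser is `A`. -/
theorem result {p : ℕ} [Fact p.Prime] {V : Type*} [AddCommGroup V] [Module (ZMod p) V] [Finite V] (H : Subgroup (V ≃ₗ[ZMod p] V)) (hreg : ∀ v w : V, v ≠ 0 → w ≠ 0 → ∃! h : H, (h : V ≃ₗ[ZMod p] V) v = w) (hI : ∀ A : Subgroup H, A.Normal → IsCyclic A → ∃ W : Submodule (ZMod p) V, W ≠ ⊥ ∧ W ≠ ⊤ ∧ ∀ a ∈ A, ∀ v ∈ W, ((a : H) : V ≃ₗ[ZMod p] V) v ∈ W) (A : Subgroup H) (hAn : A.Normal) (hAc : IsMulCommutative A) (hAmax : ∀ B : Subgroup H, B.Normal → IsMulCommutative B → A ≤ B → B = A) (N : Subgroup H) (hNn : N.Normal) (hNle : N ≤ Subgroup.centralizer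 (A : Set H)) (hNna : ¬ IsMulCommutative N) (hNmin : ∀ M : Subgroup H, M.Normal → M ≤ N → ¬ IsMulCommutative M → M = N) : (∀ W : Submodule (ZMod p) V, (∀ n ∈ N, ∀ v ∈ W, ((n : H) : V ≃ₗ[ZMod p] V) v ∈ W) → W = ⊥ ∨ W = ⊤) ∧ Subgroup.centralizer (N : Set H) = A := by
  haveI : Nontrivial V := by
    obtain ⟨W, hW, -⟩ := hI ⊥ inferInstance inferInstance
    exact (Submodule.nontrivial_iff (ZMod p)).1 ⟨W, ⊥, hW⟩
  have hreg' : ∀ v w : V, v ≠ 0 → w ≠ 0 → ∃! h : H, h • v = w := hreg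
  have hf := H2.rho_injective (H2.fpf_of_reg hreg')
  have hirr := H2.irred_of_noncomm (N := N) hf (H2.tr_of_reg hreg')
    (fun h => hNna ((H2.isMulCommutative_iff' N).2 h))
  refine ⟨(H2.irred_iff_submodule (p := p) N).1 hirr, ?_⟩
  exact hAmax _ inferInstance
    ((H2.isMulCommutative_iff' _).2 (H2.centralizer_comm_of_irred hf hirr))
    (Subgroup.le_centralizer_iff.1 hNle)

end Cfsg.Agent.S0687
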