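import Cfsg.Statements.S0688
import Cfsg.Agent.H2.NF3

set_option autoImplicit false
open Cfsg

namespace Cfsg.Agent.S0688

/-- Degrees of the soluble exceptional sharply doubly transitive groups: if a solvable linear group over the prime field is regular on the non-zero vectors of `V` and has no irreducible cyclic normal subgroup, then `V` has 25, 49, 121 or 529 elements. -/
theorem result {p : ℕ} [Fact p.Prime] {V : Type*} [AddCommGroup V] [Module (ZMod p) V] [Finite V] (H : Subgroup (V ≃ₗ[ZMod p] V)) (hreg : ∀ v w : V, v ≠ 0 → w ≠ 0 → ∃! h : H, (h : V ≃ₗ[ZMod p] V) v = w) (hI : ∀ A : Subgroup H, A.Normal → IsCyclic A → ∃ W : Submodule (ZMod p) V, W ≠ ⊥ ∧ W ≠ ⊤ ∧ ∀ a ∈ A, ∀ v ∈ W, ((a : H) : V ≃ₗ[ZMod p] V) v ∈ W) (hsolv : Group.IsSolvable H) : Nat.card V = 25 ∨ Nat.card V = 49 ∨ Nat.card V = 121 ∨ Nat.card V = 529 := by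
  haveI : Nontrivial V := by
    obtain ⟨W, hW, -⟩ := hI ⊥ inferInstance inferInstance
    exact (Submodule.nontrivial_iff (ZMod p)).1 ⟨W, ⊥, hW⟩
  have hreg' : ∀ v w : V, v ≠ 0 → w ≠ 0 → ∃! h : H, h • v = w := hreg
  haveI := H2.finite_of_reg hreg'
  have hH := H2.card_of_reg hreg'
  rcases H2.nearfield_cases hreg' with ⟨A, h1, h2, h3⟩ | ⟨ψ, h1, h2⟩ | ⟨N, h1, h2, h3⟩
  · obtain ⟨W₀, hb, ht, hW₀⟩ := hI A h1 h2
    rcases (H2.irred_iff_submodule (p := p) A).1 h3 W₀ hW₀ with h | h
    · exact absurd h hb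
    · exact absurd h ht
  · obtain ⟨-, q, k, hV, hq, hidx⟩ := H2.card_sq_Q8 hreg' ψ h1
    have h24 := H2.index_centralizer_Q8 ψ h1
    rw [hidx] at h24
    have h8 : Nat.card ψ.range = 8 := by
      rw [← Nat.card_congr (MonoidHom.ofInjective h1).toEquiv, Nat.card_eq_fintype_card]; decide
    have h8' := Subgroup.card_subgroup_dvd_card ψ.range
    have h4 : q + 1 ∣ 24 := Dvd.dvd.trans (Dvd.intro _ rfl) h24
    have h5 := Nat.le_of_dvd (by norm_num) h4
    have hV1 : 1 < Nat.card V := Finite.one_lt_card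
    rw [h8] at h8'
    have h3 : q ≠ 3 := by
      rintro rfl
      have htop : ψ.range = ⊤ := Subgroup.eq_top_of_card_eq _ (by omega)
      have ho : orderOf (ψ (QuaternionGroup.a 1)) = 4 := by
        rw [orderOf_injective ψ h1, QuaternionGroup.orderOf_a_one]
      have hc : Nat.card (Subgroup.zpowers (ψ (QuaternionGroup.a 1))) = 4 := by
        rw [Nat.card_zpowers, ho]
      obtain ⟨W, hb, ht, hW⟩ := hI (Subgroup.zpowers (ψ (QuaternionGroup.a 1)))
        (Subgroup.normal_of_index_eq_two (by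
          have := (Subgroup.zpowers (ψ (QuaternionGroup.a 1))).card_mul_index
          rw [hc] at this
          omega)) inferInstance
      have e1 := H2.card_dvd_of_fpf (W := W.toAddSubgroup) (fun g _ => H2.fpf_of_reg hreg' g) hW
      have e2 := AddSubgroup.card_addSubgroup_dvd_card W.toAddSubgroup
      have e3 : Nat.card W.toAddSubgroup ≠ 1 := fun h =>
        hb (Submodule.toAddSubgroup_injective (AddSubgroup.card_eq_one.1 h))
      have e4 : Nat.card W.toAddSubgroup ≠ Nat.card V := fun h =>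
        ht (Submodule.toAddSubgroup_injective (AddSubgroup.eq_top_of_card_eq _ h))
      rw [hc] at e1
      rw [hV] at e2 e4
      have e5 := Nat.le_of_dvd (by norm_num) e2
      generalize Nat.card W.toAddSubgroup = w at *
      interval_cases w <;> omega
    rw [hV] at hH hV1 ⊢
    have h6 : q ≤ 23 := by omega
    interval_cases q <;> omega
  · haveI : Nontrivial N := (Subgroup.nontrivial_iff_ne_bot N).2 h2
    obtain ⟨x, hx⟩ := exists_ne (1 : N)
    exact absurd (H2.hom_trivial_of_perfect h3 (MonoidHom.id N) x) hx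

end Cfsg.Agent.S0688
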