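import Cfsg.Statements.S0689
import Cfsg.Agent.H2.NF3

set_option autoImplicit false
open Cfsg

namespace Cfsg.Agent.S0689

/-- The insoluble sharply doubly transitive groups: a non-solvable linear group over the prime field that is regular on the non-zero vectors of `V` occurs only for `|V| = 11², 29², 59²`, and is `SL(2,5) × C_m` with `m = 1, 7, 29` respectively. -/
theorem result {p : ℕ} [Fact p.Prime] {V : Type*} [AddCommGroup V] [Module (ZMod p) V] [Finite V] (H : Subgroup (V ≃ₗ[ZMod p] V)) (hreg : ∀ v w : V, v ≠ 0 → w ≠ 0 → ∃! h : H, (h : V ≃ₗ[ZMod p] V) v = w) (hsolv : ¬ Group.IsSolvable H) : (Nat.card V = 121 ∧ Nonempty (H ≃* Matrix.SpecialLinearGroup (Fin 2) (ZMod 5))) ∨ (Nat.card V = 841 ∧ Nonempty (H ≃* Matrix.SpecialLinearGroup (Fin 2) (ZMod 5) × Multiplicative (ZMod 7))) ∨ (Nat.card V = 3481 ∧ Nonempty (H ≃* Matrix.SpecialLinearGroup (Fin 2) (ZMod 5) × Multiplicative (ZMod 29))) := by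
  have hreg' : ∀ v w : V, v ≠ 0 → w ≠ 0 → ∃! h : H, h • v = w := hreg
  haveI : Nontrivial V := by
    by_contra h
    rw [not_nontrivial_iff_subsingleton] at h
    haveI : Subsingleton H := ⟨fun a b => Subtype.ext (LinearEquiv.ext fun v => Subsingleton.elim _ _)⟩
    exact hsolv inferInstance
  haveI := H2.finite_of_reg hreg'
  obtain ⟨N, h1, h2⟩ := H2.exists_perfect_of_not_solvable hsolv
  have hH := H2.card_of_reg hreg'
  obtain ⟨φ, hφ, -, h⟩ := H2.sl25_case hreg' N h1 h2 (by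
    intro h
    have e := Module.natCard_eq_pow_finrank (K := ZMod p) (V := V)
    rw [Nat.card_zmod, h] at e
    have hp : p.Prime := Fact.out
    have h7 := (Nat.prime_dvd_prime_iff_eq (by norm_num : Nat.Prime 7) hp).1
      ((by norm_num : Nat.Prime 7).dvd_of_dvd_pow (e ▸ (by norm_num : 7 ∣ 119 ^ 2)))
    have h17 := (Nat.prime_dvd_prime_iff_eq (by norm_num : Nat.Prime 17) hp).1
      ((by norm_num : Nat.Prime 17).dvd_of_dvd_pow (e ▸ (by norm_num : 17 ∣ 119 ^ 2)))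
    omega)
  rcases h with ⟨hV, hC⟩ | ⟨hV, hC⟩ | ⟨hV, hC⟩
  · refine Or.inl ⟨hV, ⟨(MulEquiv.ofBijective φ (hφ.bijective_of_nat_card_le ?_)).symm⟩⟩
    rw [H2.SL.card_SL25]; omega
  · haveI : Fact (Nat.Prime 7) := ⟨by norm_num⟩
    exact Or.inr (Or.inl ⟨hV, H2.sl25_prod φ hφ (by norm_num) (by rw [hC]; norm_num) (by omega)⟩)
  · haveI : Fact (Nat.Prime 29) := ⟨by norm_num⟩
    exact Or.inr (Or.inr ⟨hV, H2.sl25_prod φ hφ (by norm_num) (by rw [hC]; norm_num) (by omega)⟩)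

end Cfsg.Agent.S0689
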