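import Cfsg.Statements.S0691
import Cfsg.Agent.H2.RegCert

set_option autoImplicit false
open Cfsg

namespace Cfsg.Agent.S0691

def tabB : ℕ := 0x30c30c11041040c1041042082082100000000
def tabD : ℕ := 0x20440c00811030020440c0081103004083040
def tabE : ℕ := 0x40420c10831030820c40c21030c20c2043000
def look (T : ℕ) (a c : ZMod 5) : ℕ := (T >>> (6 * (a.val + 5 * c.val))) % 64
def fb (a c : ZMod 5) : ZMod 5 := (look tabB a c : ZMod 5)
def fd (a c : ZMod 5) : ZMod 5 := (look tabD a c : ZMod 5)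
def dep (a c : ZMod 5) : ℕ := look tabE a c

theorem stepA : ∀ a c : ZMod 5, ¬ (a = 0 ∧ c = 0) →
    fb ((2 : ZMod 5) * a + (0 : ZMod 5) * c) ((0 : ZMod 5) * a + (3 : ZMod 5) * c) = (2 : ZMod 5) * fb a c + (0 : ZMod 5) * fd a c ∧
    fd ((2 : ZMod 5) * a + (0 : ZMod 5) * c) ((0 : ZMod 5) * a + (3 : ZMod 5) * c) = (0 : ZMod 5) * fb a c + (3 : ZMod 5) * fd a c := by
  decide +kernel

theorem stepB : ∀ a c : ZMod 5, ¬ (a = 0 ∧ c = 0) →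
    fb ((0 : ZMod 5) * a + (4 : ZMod 5) * c) ((1 : ZMod 5) * a + (0 : ZMod 5) * c) = (0 : ZMod 5) * fb a c + (4 : ZMod 5) * fd a c ∧
    fd ((0 : ZMod 5) * a + (4 : ZMod 5) * c) ((1 : ZMod 5) * a + (0 : ZMod 5) * c) = (1 : ZMod 5) * fb a c + (0 : ZMod 5) * fd a c := by
  decide +kernel

theorem stepC : ∀ a c : ZMod 5, ¬ (a = 0 ∧ c = 0) →
    fb ((1 : ZMod 5) * a + (2 : ZMod 5) * c) ((1 : ZMod 5) * a + (3 : ZMod 5) * c) = (1 : ZMod 5) * fb a c + (2 : ZMod 5) * fd a c ∧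
    fd ((1 : ZMod 5) * a + (2 : ZMod 5) * c) ((1 : ZMod 5) * a + (3 : ZMod 5) * c) = (1 : ZMod 5) * fb a c + (3 : ZMod 5) * fd a c := by
  decide +kernel

theorem tr : ∀ a c : ZMod 5, ¬ (a = 0 ∧ c = 0) → (a = 1 ∧ c = 0) ∨
    dep ((2 : ZMod 5) * a + (0 : ZMod 5) * c) ((0 : ZMod 5) * a + (3 : ZMod 5) * c) < dep a c ∨
    dep ((0 : ZMod 5) * a + (4 : ZMod 5) * c) ((1 : ZMod 5) * a + (0 : ZMod 5) * c) < dep a c ∨
    dep ((1 : ZMod 5) * a + (2 : ZMod 5) * c) ((1 : ZMod 5) * a + (3 : ZMod 5) * c) < dep a c := by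
  decide +kernel

/-- An exceptional sharply doubly transitive group of degree 5^2: the listed matrices generate a subgroup of GL(2,5) of order 24 acting regularly on the non-zero vectors. -/
theorem result (A : Matrix.GeneralLinearGroup (Fin 2) (ZMod 5)) (B : Matrix.GeneralLinearGroup (Fin 2) (ZMod 5)) (C : Matrix.GeneralLinearGroup (Fin 2) (ZMod 5)) (hA : (A : Matrix (Fin 2) (Fin 2) (ZMod 5)) = !![2, 0; 0, -2]) (hB : (B : Matrix (Fin 2) (Fin 2) (ZMod 5)) = !![0, -1; 1, 0]) (hC : (C : Matrix (Fin 2) (Fin 2) (ZMod 5)) = !![1, 2; 1, -2]) : Nat.card (Subgroup.closure ({A, B, C} : Set (Matrix.GeneralLinearGroup (Fin 2) (ZMod 5)))) = 24 ∧ ∀ v w : Fin 2 → ZMod 5, v ≠ 0 → w ≠ 0 → ∃! h : Subgroup.closure ({A, B, C} : Set (Matrix.GeneralLinearGroup (Fin 2) (ZMod 5))), Matrix.mulVec ((h : Matrix.GeneralLinearGroup (Fin 2) (ZMod 5)) : Matrix (Fin 2) (Fin 2) (ZMod 5))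 v = w := by
  have eA : A 0 0 = 2 ∧ A 0 1 = 0 ∧ A 1 0 = 0 ∧ A 1 1 = 3 := by
    rw [hA]; decide
  have eB : B 0 0 = 0 ∧ B 0 1 = 4 ∧ B 1 0 = 1 ∧ B 1 1 = 0 := by
    rw [hB]; decide
  have eC : C 0 0 = 1 ∧ C 0 1 = 2 ∧ C 1 0 = 1 ∧ C 1 1 = 3 := by
    rw [hC]; decide
  have e0 : fb 1 0 = 0 ∧ fd 1 0 = 1 := by decide +kernel
  haveI : Fact (Nat.Prime 5) := ⟨by norm_num⟩
  have := H2.reg_of_cert (F := ZMod 5) ({A, B, C} : Set (Matrix.GeneralLinearGroup (Fin 2) (ZMod 5))) fb fd e0 ?_ dep ?_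
  · rw [Nat.card_zmod] at this
    exact this
  · rintro g (rfl | rfl | rfl)
    · rw [eA.1, eA.2.1, eA.2.2.1, eA.2.2.2]; exact stepA
    · rw [eB.1, eB.2.1, eB.2.2.1, eB.2.2.2]; exact stepB
    · rw [eC.1, eC.2.1, eC.2.2.1, eC.2.2.2]; exact stepC
  · intro a c h
    rcases tr a c h with h | h | h | h
    · exact Or.inl h
    · exact Or.inr ⟨A, by simp, by rw [eA.1, eA.2.1, eA.2.2.1, eA.2.2.2]; exact h⟩
    · exact Or.inr ⟨B, by simp, by rw [eB.1, eB.2.1, eB.2.2.1, eB.2.2.2]; exact h⟩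
    · exact Or.inr ⟨C, by simp, by rw [eC.1, eC.2.1, eC.2.2.1, eC.2.2.2]; exact h⟩


end Cfsg.Agent.S0691
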