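import Cfsg.Statements.S0692
import Cfsg.Agent.H2.RegCert

set_option autoImplicit false
open Cfsg

namespace Cfsg.Agent.S0692

def tabB : ℕ := 0xa1c700924600a08104924628a2052081842082052091c92441ca2871c01c80030c51422460ca1851491861412050891860880031001040411080821020c60c30c71c30c60c10450822852410050820041012801012841c1287000
def tabD : ℕ := 0x90c22061471012800430801852882471001840c508a2091c11430840491c818028204300818714a2440811841430082891c01431022872481811020c124620714028408304614024828704a1c41850c920200a147202243106040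
def tabE : ℕ := 0x710120a24b1c518118a3041c808b2432082ca20828524b1072c318c28530b0c720a24b1851091c62461c814b18720c1c810914930730b10528a0892c330628c28a2452c910624628820610724c1c81830850c214824714a287000
def look (T : ℕ) (a c : ZMod 11) : ℕ := (T >>> (6 * (a.val + 11 * c.val))) % 64
def fb (a c : ZMod 11) : ZMod 11 := (look tabB a c : ZMod 11)
def fd (a c : ZMod 11) : ZMod 11 := (look tabD a c : ZMod 11)
def dep (a c : ZMod 11) : ℕ := look tabE a c

theorem stepA : ∀ a c : ZMod 11, ¬ (a = 0 ∧ c = 0) →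
    fb ((0 : ZMod 11) * a + (10 : ZMod 11) * c) ((1 : ZMod 11) * a + (0 : ZMod 11) * c) = (0 : ZMod 11) * fb a c + (10 : ZMod 11) * fd a c ∧
    fd ((0 : ZMod 11) * a + (10 : ZMod 11) * c) ((1 : ZMod 11) * a + (0 : ZMod 11) * c) = (1 : ZMod 11) * fb a c + (0 : ZMod 11) * fd a c := by
  decide +kernel

theorem stepB : ∀ a c : ZMod 11, ¬ (a = 0 ∧ c = 0) →
    fb ((2 : ZMod 11) * a + (4 : ZMod 11) * c) ((1 : ZMod 11) * a + (8 : ZMod 11) * c) = (2 : ZMod 11) * fb a c + (4 : ZMod 11) * fd a c ∧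
    fd ((2 : ZMod 11) * a + (4 : ZMod 11) * c) ((1 : ZMod 11) * a + (8 : ZMod 11) * c) = (1 : ZMod 11) * fb a c + (8 : ZMod 11) * fd a c := by
  decide +kernel

theorem tr : ∀ a c : ZMod 11, ¬ (a = 0 ∧ c = 0) → (a = 1 ∧ c = 0) ∨
    dep ((0 : ZMod 11) * a + (10 : ZMod 11) * c) ((1 : ZMod 11) * a + (0 : ZMod 11) * c) < dep a c ∨
    dep ((2 : ZMod 11) * a + (4 : ZMod 11) * c) ((1 : ZMod 11) * a + (8 : ZMod 11) * c) < dep a c := by
  decide +kernel

/-- An exceptional sharply doubly transitive group of degree 11^2: the listed matrices generate a subgroup of GL(2,11) of order 120 acting regularly on the non-zero vectors. -/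
theorem result (A : Matrix.GeneralLinearGroup (Fin 2) (ZMod 11)) (B : Matrix.GeneralLinearGroup (Fin 2) (ZMod 11)) (hA : (A : Matrix (Fin 2) (Fin 2) (ZMod 11)) = !![0, -1; 1, 0]) (hB : (B : Matrix (Fin 2) (Fin 2) (ZMod 11)) = !![2, 4; 1, -3]) : Nat.card (Subgroup.closure ({A, B} : Set (Matrix.GeneralLinearGroup (Fin 2) (ZMod 11)))) = 120 ∧ ∀ v w : Fin 2 → ZMod 11, v ≠ 0 → w ≠ 0 → ∃! h : Subgroup.closure ({A, B} : Set (Matrix.GeneralLinearGroup (Fin 2) (ZMod 11))), Matrix.mulVec ((h : Matrix.GeneralLinearGroup (Fin 2) (ZMod 11)) : Matrix (Fin 2) (Fin 2) (ZMod 11)) v = w := by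
  have eA : A 0 0 = 0 ∧ A 0 1 = 10 ∧ A 1 0 = 1 ∧ A 1 1 = 0 := by
    rw [hA]; decide
  have eB : B 0 0 = 2 ∧ B 0 1 = 4 ∧ B 1 0 = 1 ∧ B 1 1 = 8 := by
    rw [hB]; decide
  have e0 : fb 1 0 = 0 ∧ fd 1 0 = 1 := by decide +kernel
  haveI : Fact (Nat.Prime 11) := ⟨by norm_num⟩
  have := H2.reg_of_cert (F := ZMod 11) ({A, B} : Set (Matrix.GeneralLinearGroup (Fin 2) (ZMod 11))) fb fd e0 ?_ dep ?_
  · rw [Nat.card_zmod] at this
    exact this
  · rintro g (rfl | rfl)
    · rw [eA.1, eA.2.1, eA.2.2.1, eA.2.2.2]; exact stepA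
    · rw [eB.1, eB.2.1, eB.2.2.1, eB.2.2.2]; exact stepB
  · intro a c h
    rcases tr a c h with h | h | h
    · exact Or.inl h
    · exact Or.inr ⟨A, by simp, by rw [eA.1, eA.2.1, eA.2.2.1, eA.2.2.2]; exact h⟩
    · exact Or.inr ⟨B, by simp, by rw [eB.1, eB.2.1, eB.2.2.1, eB.2.2.2]; exact h⟩


end Cfsg.Agent.S0692
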