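import Cfsg.Statements.S0694
import Mathlib


set_option autoImplicit false
open Cfsg

namespace Cfsg.Agent.S0694

theorem geom_eq {q : ℕ} (hq : 1 ≤ q) (i : ℕ) :
    q ^ i - 1 = (∑ j ∈ Finset.range i, q ^ j) * (q - 1) := by
  simpa using (geom_sum_mul_of_one_le hq i).symm

theorem modEq_iff {q : ℕ} (hq : 2 ≤ q) (n i : ℕ) :
    q ^ i ≡ 1 [MOD n * (q - 1)] ↔ n ∣ ∑ j ∈ Finset.range i, q ^ j := by
  rw [Nat.ModEq.comm, Nat.modEq_iff_dvd' (Nat.one_le_pow _ _ (by omega)), geom_eq (by omega),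
    Nat.mul_dvd_mul_iff_right (by omega)]

theorem val_eq {q r i : ℕ} (hq : 2 ≤ q) (hr : r.Prime) (h : r ∣ q - 1) (h4 : r = 2 → 4 ∣ q - 1)
    (hi : i ≠ 0) : (∑ j ∈ Finset.range i, q ^ j).factorization r = i.factorization r := by
  haveI := Fact.mk hr
  have hq' : ¬ r ∣ q := fun h' => hr.one_lt.ne' (Nat.dvd_one.1 (by
    have := Nat.dvd_sub h' h
    rwa [show q - (q - 1) = 1 by omega] at this))
  have h0 : q ^ i - 1 ≠ 0 := Nat.sub_ne_zero_of_lt (Nat.one_lt_pow hi hq)
  have h1 : padicValNat r (q ^ i - 1) = padicValNat r (q - 1) + padicValNat r i := by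
    by_cases h2 : r = 2
    · subst h2
      have := Int.two_pow_sub_pow' (x := q) (y := 1) i (by
        have := Int.natCast_dvd_natCast.2 (h4 rfl)
        rwa [Nat.cast_sub (by omega)] at this) (by exact_mod_cast hq')
      rw [← Nat.cast_inj (R := ℕ∞), Nat.cast_add, padicValNat_eq_emultiplicity h0,
        padicValNat_eq_emultiplicity (by omega), padicValNat_eq_emultiplicity hi]
      simp only [← Int.natCast_emultiplicity]
      rw [Nat.cast_sub (by omega), Nat.cast_sub (by omega)]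
      simpa using this
    · simpa using padicValNat.pow_sub_pow (hr.odd_of_ne_two h2) (x := q) (y := 1) hq h hq' hi
  rw [geom_eq (by omega)] at h0 h1
  rw [padicValNat.mul (left_ne_zero_of_mul h0) (right_ne_zero_of_mul h0)] at h1
  rw [Nat.factorization_def _ hr, Nat.factorization_def _ hr]
  omega

/-- The Dickson pair condition: for a prime power `q` and `n > 1`, (every prime factor of `n` divides `q - 1`, and `4 ∣ n → 4 ∣ q - 1`) holds exactly when `q ^ n ≡ 1` modulo `n * (q - 1)` but `q ^ i` is not, for `0 < i < n`. -/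
theorem result (q n : ℕ) (hq : IsPrimePow q) (hn : 1 < n) : ((∀ r : ℕ, r.Prime → r ∣ n → r ∣ q - 1) ∧ (4 ∣ n → 4 ∣ q - 1)) ↔ (q ^ n ≡ 1 [MOD n * (q - 1)] ∧ ∀ i : ℕ, 0 < i → i < n → ¬ q ^ i ≡ 1 [MOD n * (q - 1)]) := by
  have hq2 := hq.two_le
  simp only [modEq_iff hq2]
  have hS : ∀ i, ∑ j ∈ Finset.range (i + 1), q ^ j = q * ∑ j ∈ Finset.range i, q ^ j + 1 :=
    fun i => geom_sum_succ
  constructor
  · rintro ⟨h1, h2⟩
    have key : ∀ i, i ≠ 0 → (n ∣ ∑ j ∈ Finset.range i, q ^ j ↔ n ∣ i) := by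
      intro i hi
      have h0 : ∑ j ∈ Finset.range i, q ^ j ≠ 0 := by
        obtain ⟨i, rfl⟩ := Nat.exists_eq_add_one.2 (Nat.pos_of_ne_zero hi)
        rw [hS]; omega
      rw [← Nat.factorization_prime_le_iff_dvd (by omega) h0,
        ← Nat.factorization_prime_le_iff_dvd (by omega) hi]
      refine forall_congr' fun r => forall_congr' fun hr => ?_
      by_cases hrn : r ∣ n
      swap
      · simp [Nat.factorization_eq_zero_of_not_dvd hrn]
      by_cases h4 : r = 2 → 4 ∣ q - 1
      · rw [val_eq hq2 hr (h1 r hr hrn) h4 hi]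
      · push Not at h4
        obtain ⟨rfl, h4⟩ := h4
        have h5 : n.factorization 2 = 1 := by
          have := (hr.dvd_iff_one_le_factorization (by omega : n ≠ 0)).1 hrn
          have := (hr.pow_dvd_iff_le_factorization (k := 2) (by omega : n ≠ 0)).not.1
            (fun h => h4 (h2 h))
          omega
        rw [h5, ← hr.dvd_iff_one_le_factorization h0, ← hr.dvd_iff_one_le_factorization hi]
        have h6 := h1 2 hr hrn
        obtain ⟨k, rfl⟩ : ∃ k, q = 2 * k + 1 := ⟨(q - 1) / 2, by omega⟩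
        clear hi h0
        induction i with
        | zero => simp
        | succ i ih => rw [hS, add_mul, mul_assoc]; omega
    exact ⟨(key n (by omega)).2 dvd_rfl, fun i hi hin h => absurd (Nat.le_of_dvd hi
      ((key i hi.ne').1 h)) (by omega)⟩
  · rintro ⟨h1, h2⟩
    haveI : NeZero n := ⟨by omega⟩
    have hc : Nat.Coprime n q := by
      obtain ⟨m, rfl⟩ : ∃ m, n = m + 1 := ⟨n - 1, by omega⟩
      rw [hS] at h1
      exact Nat.Coprime.coprime_dvd_left h1 (by simp)
    have hb : Function.Bijective (fun i : Fin n => ((∑ j ∈ Finset.range i, q ^ j : ℕ) : ZMod n)) := by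
      refine Function.Injective.bijective_of_nat_card_le ?_ (by simp)
      have aux : ∀ i k : Fin n, i < k → ((∑ j ∈ Finset.range i, q ^ j : ℕ) : ZMod n) ≠
          ((∑ j ∈ Finset.range k, q ^ j : ℕ) : ZMod n) := by
        intro i k hik e
        obtain ⟨d, hd⟩ := Nat.exists_eq_add_of_le (Fin.le_def.1 hik.le)
        rw [hd, Finset.sum_range_add, Nat.cast_add, left_eq_add, ZMod.natCast_eq_zero_iff] at e
        simp only [pow_add, ← Finset.mul_sum] at e
        have := Fin.lt_def.1 hik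
        exact h2 d (by omega) (by omega) ((hc.pow_right _).dvd_of_dvd_mul_left e)
      intro i k e
      by_contra h
      rcases lt_or_gt_of_ne h with h | h
      · exact aux i k h e
      · exact aux k i h e.symm
    have hall : ∀ r, r ∣ n → ∀ x : ℕ, ∃ i, ∑ j ∈ Finset.range i, q ^ j ≡ x [MOD r] := by
      intro r hr x
      obtain ⟨i, hi⟩ := hb.2 x
      exact ⟨i, ((ZMod.natCast_eq_natCast_iff _ _ _).1 hi).of_dvd hr⟩
    have h3 : ∀ r : ℕ, r.Prime → r ∣ n → r ∣ q - 1 := by
      intro r hr hrn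
      by_contra h
      haveI := Fact.mk hr
      obtain ⟨i, hi⟩ := hall r hrn (-((q - 1 : ℕ) : ZMod r)⁻¹).val
      rw [← ZMod.natCast_eq_natCast_iff, ZMod.natCast_zmod_val] at hi
      have h4 := congrArg (Nat.cast : ℕ → ZMod r) (geom_eq (by omega : 1 ≤ q) i)
      rw [Nat.cast_mul, hi, neg_mul, inv_mul_cancel₀ (by rwa [Ne, ZMod.natCast_eq_zero_iff]),
        Nat.cast_sub (Nat.one_le_pow _ _ (by omega)), Nat.cast_one, sub_eq_neg_self,
        ZMod.natCast_eq_zero_iff] at h4
      exact hr.one_lt.ne' (Nat.eq_one_of_dvd_coprimes hc hrn (hr.dvd_of_dvd_pow h4))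
    refine ⟨h3, fun h4 => ?_⟩
    by_contra h5
    have h6 := h3 2 Nat.prime_two (dvd_trans (by norm_num) h4)
    obtain ⟨k, rfl⟩ : ∃ k, q = 4 * k + 3 := ⟨(q - 3) / 4, by omega⟩
    obtain ⟨i, hi⟩ := hall 4 h4 2
    have h7 : ∀ i, (∑ j ∈ Finset.range i, (4 * k + 3) ^ j) % 4 ≤ 1 := by
      intro i
      induction i with
      | zero => simp
      | succ i ih =>
        rw [hS, add_mul, mul_assoc]
        rcases Nat.le_one_iff_eq_zero_or_eq_one.1 ih with h | h <;> omega
    have := h7 i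
    unfold Nat.ModEq at hi
    omega

end Cfsg.Agent.S0694
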