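import Cfsg.Statements.S0699
import Cfsg.Agent.H3.JordanNormal
import Cfsg.Agent.H3.Orbits

set_option autoImplicit false
open Cfsg

namespace Cfsg.Agent.S0699

open MulAction

/-- Wagner's Theorem: a non-trivial normal subgroup of a triply transitive permutation group of odd degree at least 5 is triply transitive. -/
theorem result {α : Type*} [Fintype α] [DecidableEq α] (G : Subgroup (Equiv.Perm α)) (hodd : Odd (Fintype.card α)) (h5 : 5 ≤ Fintype.card α) (hG : MulAction.IsMultiplyPretransitive G α 3) (N : Subgroup G) [N.Normal] (hN : N ≠ ⊥) : MulAction.IsMultiplyPretransitive N α 3 := by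
  rw [← Nat.card_eq_fintype_card] at h5 hodd
  have hN2 : IsMultiplyPretransitive N α 2 := by
    rcases H3.jordan_normal G (by norm_num) (by omega) hG N hN with h | ⟨-, -, -, m, hm⟩
    · exact h
    · exfalso
      rw [hm] at hodd h5
      rcases m with _ | m
      · omega
      · rw [pow_succ] at hodd
        exact (Nat.not_odd_iff_even.2 (even_two.mul_left _)) hodd
  have hNn : N.Normal := inferInstance
  have : Nontrivial α := Finite.one_lt_card_iff_nontrivial.1 (by omega)
  obtain ⟨a, b, hab⟩ := exists_pair_ne α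
  have hcompl : ∀ a b : α, a ≠ b → ¬ 2 ∣ (({a, b} : Set α)ᶜ).ncard := by
    intro a b hab h
    have := Set.ncard_add_ncard_compl ({a, b} : Set α)
    rw [Set.ncard_pair hab] at this
    obtain ⟨j, hj⟩ := hodd
    omega
  obtain ⟨t, c, ht, hta, htb, htc, hc⟩ : ∃ (t : G) (c : α), t ∈ N ∧ t • a = b ∧ t • b = a ∧ t • c = c ∧
      c ∈ ({a, b} : Set α)ᶜ := by
    obtain ⟨⟨t, ht⟩, hta, htb⟩ := is_two_pretransitive_iff.1 hN2 hab hab.symm
    change t • a = b at hta
    change t • b = a at htb
    obtain ⟨m, hm, e, he⟩ := H3.exists_pow_isPGroup Nat.prime_two t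
    have hm' : Odd m := Nat.coprime_two_right.1 hm
    have h1 : t ^ m • a = b := by rw [H3.odd_pow_smul_of_sq hm' (by rw [hta, htb]), hta]
    have h2 : t ^ m • b = a := by rw [H3.odd_pow_smul_of_sq hm' (by rw [htb, hta]), htb]
    obtain ⟨c, hc, hc'⟩ := H3.pgroup_exists_fixed Nat.prime_two (H3.isPGroup_zpowers he)
      (Set.toFinite (({a, b} : Set α)ᶜ)) (H3.zpowers_maps (Set.toFinite _) (by
        intro x hx
        simp only [Set.mem_compl_iff, Set.mem_insert_iff, Set.mem_singleton_iff, not_or] at hx ⊢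
        exact ⟨fun h => hx.2 (smul_left_cancel _ (h.trans h2.symm)),
          fun h => hx.1 (smul_left_cancel _ (h.trans h1.symm))⟩)) (hcompl a b hab)
    exact ⟨t ^ m, c, N.pow_mem ht m, h1, h2, hc' _ (Subgroup.mem_zpowers _), hc⟩
  simp only [Set.mem_compl_iff, Set.mem_insert_iff, Set.mem_singleton_iff, not_or] at hc
  have hgen : ∀ s : Finset α, s.card = 2 + 1 → H3.FullOn N s := by
    intro s hs
    apply H3.fullOn_of_swaps
    intro x hx y hy hxy
    obtain ⟨z, hz⟩ : ∃ z, (s.erase x).erase y = {z} := by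
      rw [← Finset.card_eq_one, Finset.card_erase_of_mem (by simp [hy, hxy.symm]),
        Finset.card_erase_of_mem hx, hs]
    have hz' : z ∈ (s.erase x).erase y := by rw [hz]; simp
    simp only [Finset.mem_erase] at hz'
    obtain ⟨g, hg⟩ := H3.ktrans_iff.1 hG ![a, b, c] ![x, y, z] (by
      intro i j; fin_cases i <;> fin_cases j <;> simp [hab, hab.symm, hc.1, hc.2, Ne.symm hc.1, Ne.symm hc.2])
      (by intro i j; fin_cases i <;> fin_cases j <;>
            simp [hxy, hxy.symm, hz'.1, hz'.2.1, Ne.symm hz'.1, Ne.symm hz'.2.1])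
    have ga : g • a = x := hg 0
    have gb : g • b = y := hg 1
    have gc : g • c = z := hg 2
    refine ⟨⟨g * t * g⁻¹, hNn.conj_mem t ht g⟩, fun w hw => ?_⟩
    change (g * t * g⁻¹) • w = _
    rw [mul_smul, mul_smul]
    by_cases hwx : w = x
    · rw [hwx, Equiv.swap_apply_left, ← ga, inv_smul_smul, hta, gb]
    by_cases hwy : w = y
    · rw [hwy, Equiv.swap_apply_right, ← gb, inv_smul_smul, htb, ga]
    have : w ∈ (s.erase x).erase y := by simp [hwx, hwy, hw]
    rw [hz, Finset.mem_singleton] at this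
    rw [Equiv.swap_apply_of_ne_of_ne hwx hwy, this, ← gc, inv_smul_smul, htc]
  refine H3.ktrans_succ hN2 {a, b} (Finset.card_pair hab) fun x y hx hy => ?_
  by_contra hcon
  let K : Subgroup G := N ⊓ fixingSubgroup G ({a, b} : Set α)
  have horb : ∀ x : α, orbit (fixingSubgroup N (({a, b} : Finset α) : Set α)) x = orbit K x := by
    intro x
    ext y
    constructor
    · rintro ⟨⟨⟨n, hn⟩, hn'⟩, rfl⟩
      refine ⟨⟨n, hn, ?_⟩, rfl⟩
      rw [Finset.coe_pair] at hn'
      exact hn'
    · rintro ⟨⟨n, hn, hn'⟩, rfl⟩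
      refine ⟨⟨⟨n, hn⟩, ?_⟩, rfl⟩
      rw [Finset.coe_pair]
      exact hn'
  have hyx : y ∉ orbit (fixingSubgroup N (({a, b} : Finset α) : Set α)) x := by
    rintro ⟨⟨n, hn⟩, rfl⟩
    exact hcon ⟨n, (mem_fixingSubgroup_iff N).1 hn, rfl⟩
  obtain ⟨i, hi⟩ := H3.generous_orbits (G := N) (by omega) hgen Nat.prime_two le_rfl {a, b}
    (Finset.card_pair hab) ![x, y] (by intro i; fin_cases i <;> assumption) (by
      intro i j hij
      fin_cases i <;> fin_cases j
      · exact absurd rfl hij
      · exact hyx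
      · exact fun h => hyx (mem_orbit_symm.1 h)
      · exact absurd rfl hij)
  have hi' : ![x, y] i ∉ ({a, b} : Finset α) := by fin_cases i <;> assumption
  rw [horb] at hi
  apply hcompl a b hab
  apply H3.ncard_orbit_dvd K (Set.toFinite _)
  · rintro k ⟨-, hk⟩ w hw hkw
    apply hw
    have := (mem_fixingSubgroup_iff G).1 hk _ hkw
    rw [smul_left_cancel_iff] at this
    rw [← this]; exact hkw
  · intro w hw
    obtain ⟨g, hg, hgw⟩ := H3.exists_fix_move hG (by omega) {a, b} (by rw [Finset.card_pair hab])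
      hi' (b := w) (by simpa using hw)
    have hg' : g ∈ fixingSubgroup G ({a, b} : Set α) := by
      rw [mem_fixingSubgroup_iff]
      intro z hz
      exact hg z (by simpa using hz)
    rw [← hgw, H3.ncard_orbit_smul K g]
    · exact hi
    · rintro k ⟨hk, hk'⟩
      exact ⟨hNn.conj_mem k hk g, Subgroup.mul_mem _ (Subgroup.mul_mem _ hg' hk')
        (Subgroup.inv_mem _ hg')⟩
    · rintro k ⟨hk, hk'⟩
      exact ⟨hNn.conj_mem' k hk g, Subgroup.mul_mem _ (Subgroup.mul_mem _ (Subgroup.inv_mem _ hg') hk')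
        hg'⟩

end Cfsg.Agent.S0699
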