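import Cfsg.Statements.S0700
import Cfsg.Agent.H3.Burnside2

set_option autoImplicit false
open Cfsg

namespace Cfsg.Agent.S0700



/-- Burnside's Theorem on doubly transitive groups: a minimal normal subgroup of a finite doubly transitive permutation group is elementary abelian and regular, or simple and primitive. -/
theorem result {α : Type*} [Fintype α] [DecidableEq α] (G : Subgroup (Equiv.Perm α)) (hG : MulAction.IsMultiplyPretransitive G α 2) (N : Subgroup G) [N.Normal] (hN : N ≠ ⊥) (hmin : ∀ M : Subgroup G, M.Normal → M ≤ N → M = ⊥ ∨ M = N) : (IsMulCommutative N ∧ (∃ p : ℕ, p.Prime ∧ ∀ n ∈ N, n ^ p = 1) ∧ ∀ a : α, MulAction.stabilizer N a = ⊥) ∨ (IsSimpleGroup N ∧ MulAction.IsPreprimitive N α) := by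
  have hf : ∀ g : G, (∀ x : α, g • x = x) → g = 1 := fun g hg => by ext x; exact hg x
  by_cases h : ∀ a : α, MulAction.stabilizer N a = ⊥
  · left
    obtain ⟨n, -, a, -⟩ := H3.exists_ne_of_ne_bot hN
    obtain ⟨h1, h2⟩ := H3.elementary_of_regular_minimal_normal hG N hN
      (H3.normal_trans_of_ne_bot (MulAction.isPreprimitive_of_is_two_pretransitive hG) N hN) hmin (h a)
    exact ⟨h1, h2, h⟩
  · right
    push Not at h
    obtain ⟨a, ha⟩ := h
    exact ⟨H3.simple_of_minimal_normal hG hf N hmin ha, H3.prim_of_minimal_normal hG hf N hmin ha⟩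

end Cfsg.Agent.S0700
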