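import Cfsg.Statements.S0701
import Cfsg.Agent.H3.Basic

set_option autoImplicit false
open Cfsg

namespace Cfsg.Agent.S0701



/-- The centraliser in the full symmetric group of a transitive permutation group `G` is semiregular, and it is transitive if and only if `G` is regular. -/
theorem result {α : Type*} (G : Subgroup (Equiv.Perm α)) [MulAction.IsPretransitive G α] : (∀ c ∈ Subgroup.centralizer (G : Set (Equiv.Perm α)), ∀ a : α, c a = a → c = 1) ∧ (MulAction.IsPretransitive (Subgroup.centralizer (G : Set (Equiv.Perm α))) α ↔ ∀ a : α, MulAction.stabilizer G a = ⊥) := by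
  have h1 : ∀ c ∈ Subgroup.centralizer (G : Set (Equiv.Perm α)), ∀ a : α, c a = a → c = 1 := by
    intro c hc a ha
    ext x
    obtain ⟨⟨g, hg⟩, rfl⟩ := MulAction.exists_smul_eq G a x
    have := DFunLike.congr_fun (Subgroup.mem_centralizer_iff.1 hc g hg) a
    simp only [Equiv.Perm.coe_mul, Function.comp_apply, ha] at this
    simpa [Subgroup.mk_smul, Equiv.Perm.smul_def] using this.symm
  refine ⟨h1, fun ht a => ?_, fun hreg => ⟨fun a b => ?_⟩⟩
  · rw [eq_bot_iff]
    rintro ⟨g, hg⟩ hga
    have hga' : g a = a := hga
    rw [Subgroup.mem_bot]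
    ext x
    obtain ⟨⟨c, hc⟩, rfl⟩ := ht.exists_smul_eq a x
    have := DFunLike.congr_fun (Subgroup.mem_centralizer_iff.1 hc g hg) a
    simp only [Equiv.Perm.coe_mul, Function.comp_apply, hga'] at this
    simpa [Subgroup.mk_smul, Equiv.Perm.smul_def] using this
  · have bij : ∀ a : α, Function.Bijective (fun g : G => g • a) := by
      intro a
      refine ⟨fun g h hgh => ?_, fun x => MulAction.exists_smul_eq G a x⟩
      have : h⁻¹ * g ∈ MulAction.stabilizer G a := by
        rw [MulAction.mem_stabilizer_iff, mul_smul]
        simp only at hgh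
        rw [hgh, inv_smul_smul]
      rw [hreg a, Subgroup.mem_bot, inv_mul_eq_one] at this
      exact this.symm
    let ea := Equiv.ofBijective _ (bij a)
    let eb := Equiv.ofBijective _ (bij b)
    have hc : ∀ g : G, (ea.symm.trans eb) (g • a) = g • b := by
      intro g
      change eb (ea.symm (ea g)) = _
      rw [Equiv.symm_apply_apply]; rfl
    refine ⟨⟨ea.symm.trans eb, Subgroup.mem_centralizer_iff.2 fun g hg => ?_⟩, ?_⟩
    · ext x
      obtain ⟨h, rfl⟩ := MulAction.exists_smul_eq G a x
      have e1 := hc (⟨g, hg⟩ * h)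
      rw [mul_smul, mul_smul] at e1
      simp only [Equiv.Perm.coe_mul, Function.comp_apply]
      rw [hc h]
      exact e1.symm
    · have := hc 1
      rw [one_smul, one_smul] at this
      exact this

end Cfsg.Agent.S0701
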