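import Cfsg.Statements.S0702
import Cfsg.Agent.H3.Central
import Cfsg.Agent.H3.Gleason

set_option autoImplicit false
open Cfsg

namespace Cfsg.Agent.S0702

open MulAction in
theorem aux {α : Type*} (G : Subgroup (Equiv.Perm α)) [IsPretransitive G α] (a : α) :
    ∃ φ : Subgroup.normalizer ((stabilizer G a : Subgroup G) : Set G) →*
      Subgroup.centralizer (G : Set (Equiv.Perm α)),
      ∀ n (g : G), (φ n : Equiv.Perm α) (g • a) = g • (n : G)⁻¹ • a := by
  choose t ht using fun x => exists_smul_eq G a x
  let N := Subgroup.normalizer ((stabilizer G a : Subgroup G) : Set G)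
  have key : ∀ n : N, ∀ g : G, t (g • a) • (n : G)⁻¹ • a = g • (n : G)⁻¹ • a := by
    intro n g
    have h1 : g⁻¹ * t (g • a) ∈ stabilizer G a := by
      rw [mem_stabilizer_iff, mul_smul, ht, inv_smul_smul]
    have h2 := (Subgroup.mem_normalizer_iff.1 n.2 _).1 h1
    rw [mem_stabilizer_iff, mul_smul, mul_smul, mul_smul, ← eq_inv_smul_iff, inv_smul_eq_iff] at h2
    exact h2
  let c : N → Equiv.Perm α := fun n =>
    { toFun := fun x => t x • (n : G)⁻¹ • a
      invFun := fun x => t x • (n : G) • a
      left_inv := fun x => by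
        have := key n⁻¹ (t x * (n : G)⁻¹)
        simp only [mul_smul, InvMemClass.coe_inv, inv_inv, inv_smul_smul] at this
        simp only [this, ht]
      right_inv := fun x => by
        have := key n (t x * (n : G))
        simp only [mul_smul, smul_inv_smul] at this
        simp only [this, ht] }
  have hc : ∀ n (g : G), c n (g • a) = g • (n : G)⁻¹ • a := key
  have hcc : ∀ n, c n ∈ Subgroup.centralizer (G : Set (Equiv.Perm α)) := by
    intro n
    rw [Subgroup.mem_centralizer_iff]
    intro g hg
    ext x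
    obtain ⟨h, rfl⟩ := exists_smul_eq G a x
    have := hc n (⟨g, hg⟩ * h)
    rw [mul_smul, mul_smul] at this
    simp only [Equiv.Perm.coe_mul, Function.comp_apply]
    rw [hc]
    exact this.symm
  refine ⟨MonoidHom.mk' (fun n => ⟨c n, hcc n⟩) fun n m => ?_, hc⟩
  ext x
  obtain ⟨h, rfl⟩ := exists_smul_eq G a x
  simp only [Subgroup.coe_mul, Equiv.Perm.coe_mul, Function.comp_apply]
  rw [hc, hc, ← mul_smul h ((m : G)⁻¹), hc, Subgroup.coe_mul, mul_inv_rev, mul_smul, mul_smul]

/-- For a transitive permutation group `G` on a finite set, the centraliser of `G` in the symmetric group is isomorphic to `N_G(G_ω)/G_ω`, and its orbit of `ω` is the set of fixed points of `G_ω`. -/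
theorem result {α : Type*} [Finite α] (G : Subgroup (Equiv.Perm α)) [MulAction.IsPretransitive G α] (a : α) : Nonempty (Subgroup.centralizer (G : Set (Equiv.Perm α)) ≃* Subgroup.normalizer ((MulAction.stabilizer G a : Subgroup G) : Set G) ⧸ (MulAction.stabilizer G a).subgroupOf (Subgroup.normalizer ((MulAction.stabilizer G a : Subgroup G) : Set G))) ∧ MulAction.orbit (Subgroup.centralizer (G : Set (Equiv.Perm α))) a = MulAction.fixedPoints (MulAction.stabilizer G a) α := by
  obtain ⟨φ, hφ⟩ := aux G a
  have hφa : ∀ n, (φ n : Equiv.Perm α) a = (n : G)⁻¹ • a := fun n => by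
    simpa using hφ n 1
  have hnorm : ∀ g : G, g • a ∈ MulAction.fixedPoints (MulAction.stabilizer G a) α →
      g⁻¹ ∈ Subgroup.normalizer ((MulAction.stabilizer G a : Subgroup G) : Set G) := by
    intro g hg
    apply H3.mem_normalizer_of_conj_mem
    intro x hx
    have : x • g • a = g • a := hg ⟨x, hx⟩
    rw [MulAction.mem_stabilizer_iff, inv_inv, mul_smul, mul_smul, this, inv_smul_smul]
  have hfix : ∀ c : Subgroup.centralizer (G : Set (Equiv.Perm α)),
      c • a ∈ MulAction.fixedPoints (MulAction.stabilizer G a) α := by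
    rintro ⟨c, hc⟩ ⟨g, hg⟩
    have h1 := DFunLike.congr_fun (Subgroup.mem_centralizer_iff.1 hc g g.2) a
    have h2 : (g : Equiv.Perm α) a = a := hg
    simp only [Equiv.Perm.coe_mul, Function.comp_apply, h2] at h1
    exact h1
  constructor
  · have hsurj : Function.Surjective φ := by
      intro c
      obtain ⟨g, hg⟩ := MulAction.exists_smul_eq G a (c • a)
      refine ⟨⟨g⁻¹, hnorm g (hg ▸ hfix c)⟩, ?_⟩
      ext x
      obtain ⟨h, rfl⟩ := MulAction.exists_smul_eq G a x
      rw [hφ, inv_inv, hg]
      exact DFunLike.congr_fun (Subgroup.mem_centralizer_iff.1 c.2 h h.2) a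
    have hker : φ.ker = (MulAction.stabilizer G a).subgroupOf
        (Subgroup.normalizer ((MulAction.stabilizer G a : Subgroup G) : Set G)) := by
      ext n
      rw [MonoidHom.mem_ker, Subgroup.mem_subgroupOf, MulAction.mem_stabilizer_iff]
      constructor
      · intro h
        have := hφa n
        rw [h, eq_inv_smul_iff] at this
        exact this
      · intro h
        ext x
        obtain ⟨g, rfl⟩ := MulAction.exists_smul_eq G a x
        rw [hφ, inv_smul_eq_iff.2 h.symm]
        rfl
    exact ⟨(QuotientGroup.quotientKerEquivOfSurjective φ hsurj).symm.trans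
      (QuotientGroup.quotientMulEquivOfEq hker)⟩
  · ext b
    constructor
    · rintro ⟨c, rfl⟩; exact hfix c
    · intro hb
      obtain ⟨g, rfl⟩ := MulAction.exists_smul_eq G a b
      refine ⟨φ ⟨g⁻¹, hnorm g hb⟩, ?_⟩
      change (φ ⟨g⁻¹, hnorm g hb⟩ : Equiv.Perm α) a = _
      rw [hφa, inv_inv]

end Cfsg.Agent.S0702
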