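import Cfsg.Statements.S0703
import Cfsg.Agent.H3.Central

set_option autoImplicit false
open Cfsg

namespace Cfsg.Agent.S0703



/-- An abelian transitive minimal normal subgroup `M` of a permutation group on a finite set is self-centralising in the symmetric group, regular, elementary abelian, and is the unique minimal normal subgroup. -/
theorem result {α : Type*} [Finite α] (G : Subgroup (Equiv.Perm α)) (M : Subgroup G) [M.Normal] (hM : M ≠ ⊥) (hmin : ∀ L : Subgroup G, L.Normal → L ≤ M → L = ⊥ ∨ L = M) (hab : IsMulCommutative M) (htrans : MulAction.IsPretransitive M α) : Subgroup.centralizer ((M.map G.subtype : Subgroup (Equiv.Perm α)) : Set (Equiv.Perm α)) = M.map G.subtype ∧ (∀ a : α, MulAction.stabilizer M a = ⊥) ∧ (∃ p : ℕ, p.Prime ∧ ∀ m ∈ M, m ^ p = 1) ∧ ∀ L : Subgroup G, L.Normal → L ≠ ⊥ → (∀ L' : Subgroup G, L'.Normal → L' ≤ L → L' = ⊥ ∨ L' = L) → L = M := by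
  obtain ⟨n, -, a, -⟩ := H3.exists_ne_of_ne_bot hM
  have hab' : ∀ x ∈ M, ∀ y ∈ M, x * y = y * x := fun x hx y hy =>
    congrArg Subtype.val (hab.is_comm.comm (⟨x, hx⟩ : M) ⟨y, hy⟩)
  have hc := H3.centralizer_eq_of_trans a htrans htrans hab'
  refine ⟨hc, fun b => ?_, H3.exists_prime_exp_of_minimal_normal hM hmin hab', ?_⟩
  · rw [H3.stabilizer_eq_bot_iff]
    intro m hm hmb
    ext x
    exact H3.fix_all_of_commute htrans (fun y hy => hab' y hy m hm) hmb x
  · intro L hL hLb hLmin
    by_contra hne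
    have hcomm := H3.commute_of_minimal_normal hM hLb hmin hLmin (Ne.symm hne)
    have hle : L ≤ M := by
      intro l hl
      have : (l : Equiv.Perm α) ∈ M.map G.subtype := by
        rw [← hc, Subgroup.mem_centralizer_iff]
        rintro _ ⟨m, hm, rfl⟩
        exact congrArg Subtype.val (hcomm m hm l hl)
      obtain ⟨m, hm, hml⟩ := this
      rwa [← Subtype.ext hml]
    exact (hmin L hL hle).elim hLb hne

end Cfsg.Agent.S0703
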