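import Cfsg.Statements.S0704
import Cfsg.Agent.H3.Central

set_option autoImplicit false
open Cfsg

namespace Cfsg.Agent.S0704



/-- Two distinct transitive minimal normal subgroups `M`, `N` of a permutation group are regular, non-abelian, isomorphic, each other's centraliser in the symmetric group, and the only minimal normal subgroups. -/
theorem result {α : Type*} (G : Subgroup (Equiv.Perm α)) (M N : Subgroup G) [M.Normal] [N.Normal] (hM : M ≠ ⊥) (hN : N ≠ ⊥) (hMmin : ∀ L : Subgroup G, L.Normal → L ≤ M → L = ⊥ ∨ L = M) (hNmin : ∀ L : Subgroup G, L.Normal → L ≤ N → L = ⊥ ∨ L = N) (hMN : M ≠ N) (hMt : MulAction.IsPretransitive M α) (hNt : MulAction.IsPretransitive N α) : (∀ a : α, MulAction.stabilizer M a = ⊥) ∧ (∀ a : α, MulAction.stabilizer N a = ⊥) ∧ ¬ IsMulCommutative M ∧ Nonempty (M ≃* N) ∧ Subgroup.centralizer ((M.map G.subtype : Subgroup (Equiv.Perm α)) : Set (Equiv.Perm α)) = N.map G.subtype ∧ Subgroup.centralizer ((N.map G.subtype : Subgroup (Equiv.Perm α)) : Set (Equiv.Perm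 α)) = M.map G.subtype ∧ ∀ L : Subgroup G, L.Normal → L ≠ ⊥ → (∀ L' : Subgroup G, L'.Normal → L' ≤ L → L' = ⊥ ∨ L' = L) → L = M ∨ L = N := by
  obtain ⟨n, -, a, -⟩ := H3.exists_ne_of_ne_bot hM
  have hc := H3.commute_of_minimal_normal hM hN hMmin hNmin hMN
  have hc' : ∀ n ∈ N, ∀ m ∈ M, n * m = m * n := fun n hn m hm => (hc m hm n hn).symm
  have hcM := H3.centralizer_eq_of_trans a hMt hNt hc
  have hcN := H3.centralizer_eq_of_trans a hNt hMt hc'
  have hMreg : ∀ a : α, MulAction.stabilizer M a = ⊥ := fun b => by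
    rw [H3.stabilizer_eq_bot_iff]
    intro m hm hmb
    ext x
    exact H3.fix_all_of_commute hNt (fun y hy => hc' y hy m hm) hmb x
  have hNreg : ∀ a : α, MulAction.stabilizer N a = ⊥ := fun b => by
    rw [H3.stabilizer_eq_bot_iff]
    intro m hm hmb
    ext x
    exact H3.fix_all_of_commute hMt (fun y hy => hc y hy m hm) hmb x
  have hle : ∀ L : Subgroup G, (∀ m ∈ M, ∀ l ∈ L, m * l = l * m) → L ≤ N := by
    intro L hcomm l hl
    have : (l : Equiv.Perm α) ∈ N.map G.subtype := by
      rw [← hcM, Subgroup.mem_centralizer_iff]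
      rintro _ ⟨m, hm, rfl⟩
      exact congrArg Subtype.val (hcomm m hm l hl)
    obtain ⟨m, hm, hml⟩ := this
    rwa [← Subtype.ext hml]
  refine ⟨hMreg, hNreg, fun hab => ?_, ?_, hcM, hcN, fun L hL hLb hLmin => ?_⟩
  · have := hle M (fun x hx y hy =>
      congrArg Subtype.val (hab.is_comm.comm (⟨x, hx⟩ : M) ⟨y, hy⟩))
    exact (hNmin M inferInstance this).elim hM hMN
  · let eM := Equiv.ofBijective _ (H3.bijective_smul_of_regular hMt (hMreg a))
    let eN := Equiv.ofBijective _ (H3.bijective_smul_of_regular hNt (hNreg a))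
    let e : M ≃ N := (eM.trans eN.symm).trans (Equiv.inv N)
    have he : ∀ m : M, (e m)⁻¹ • a = m • a := by
      intro m
      change eN (eN.symm (eM m))⁻¹⁻¹ = eM m
      rw [inv_inv, Equiv.apply_symm_apply]
    refine ⟨MulEquiv.mk e fun x y => ?_⟩
    apply inv_injective
    apply eN.injective
    change (e (x * y))⁻¹ • a = (e x * e y)⁻¹ • a
    rw [he, mul_inv_rev, mul_smul, mul_smul, he x, ← he y]
    change (x : G) • (((e y)⁻¹ : N) : G) • a = (((e y)⁻¹ : N) : G) • (x : G) • a
    rw [← mul_smul, ← mul_smul, hc x x.2 _ ((e y)⁻¹).2]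
  · by_cases hne : L = M
    · exact Or.inl hne
    · right
      have := hle L (H3.commute_of_minimal_normal hM hLb hMmin hLmin (Ne.symm hne))
      exact (hNmin L hL this).resolve_left hLb

end Cfsg.Agent.S0704
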