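import Cfsg.Statements.S0707
import Cfsg.Agent.H3.Basic

set_option autoImplicit false
open Cfsg

namespace Cfsg.Agent.S0707



/-- In a primitive permutation group, distinct points have distinct stabilisers unless the group is regular of prime degree. -/
theorem result {α : Type*} (G : Subgroup (Equiv.Perm α)) [MulAction.IsPreprimitive G α] (h : ¬ (Nat.card α).Prime ∨ ∃ a : α, MulAction.stabilizer G a ≠ ⊥) {a b : α} (hab : a ≠ b) : MulAction.stabilizer G a ≠ MulAction.stabilizer G b := by
  intro heq
  have hG : MulAction.IsPreprimitive G α := inferInstance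
  have hall := H3.prim_rel hG (fun x y => MulAction.stabilizer G x = MulAction.stabilizer G y)
    ⟨fun _ => rfl, fun h => h.symm, fun h h' => h.trans h'⟩
    (fun g x y hxy => by
      rw [MulAction.stabilizer_smul_eq_stabilizer_map_conj,
        MulAction.stabilizer_smul_eq_stabilizer_map_conj, hxy]) hab heq
  have hbot : ∀ x : α, MulAction.stabilizer G x = ⊥ := by
    intro x
    rw [eq_bot_iff]
    intro g hg
    rw [Subgroup.mem_bot]
    ext y
    rw [hall x y] at hg
    exact hg
  rcases h with h | ⟨x, hx⟩
  · apply h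
    have : Nontrivial α := ⟨⟨a, b, hab⟩⟩
    have hco := MulAction.IsPreprimitive.isCoatom_stabilizer_of_isPreprimitive G a
    rw [hbot a] at hco
    have hnt : Nontrivial G := by
      rw [← Subgroup.nontrivial_iff]
      exact ⟨⟨⊥, ⊤, hco.1⟩⟩
    obtain ⟨g, hg⟩ := exists_ne (1 : G)
    have htop : Subgroup.zpowers g = ⊤ :=
      hco.2 _ (bot_lt_iff_ne_bot.2 (Subgroup.zpowers_ne_bot.2 hg))
    have hcyc : IsCyclic G := ⟨⟨g, (Subgroup.eq_top_iff' _).1 htop⟩⟩
    have hs : IsSimpleGroup G := ⟨fun H _ => by
      by_cases hH : H = ⊥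
      · exact Or.inl hH
      · exact Or.inr (hco.2 _ (bot_lt_iff_ne_bot.2 hH))⟩
    have hc : IsMulCommutative G := inferInstance
    have hp := Group.is_simple_iff_prime_card.1 hs
    have := MulAction.index_stabilizer_of_transitive G a
    rw [hbot a, Subgroup.index_bot] at this
    rwa [← this]
  · exact hx (hbot x)

end Cfsg.Agent.S0707
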