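import Cfsg.Statements.S0708
import Cfsg.Agent.H3.Klein

set_option autoImplicit false
open Cfsg

namespace Cfsg.Agent.S0708



/-- Tits' argument: a sharply 4-transitive group (no finiteness assumed) has finite degree at most 11, and at most 6 when the degree is even. -/
theorem result {G : Type*} [Group G] {Ω : Type*} [MulAction G Ω] (h4 : MulAction.IsMultiplyPretransitive G Ω 4) (hsharp : ∀ x : Fin 4 ↪ Ω, MulAction.stabilizer G x = ⊥) (hne : Nonempty (Fin 4 ↪ Ω)) : Finite Ω ∧ Nat.card Ω ≤ 11 ∧ (Even (Nat.card Ω) → Nat.card Ω ≤ 6) := by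
  classical
  open Cfsg.Agent.H3 MulAction Function in
  obtain ⟨p⟩ := hne
  have sh : ∀ (g : G) (x y z w : Ω), Function.Injective ![x, y, z, w] → g • x = x → g • y = y →
      g • z = z → g • w = w → g = 1 := by
    intro g x y z w hi h1 h2 h3 h4
    have : g ∈ MulAction.stabilizer G (⟨![x, y, z, w], hi⟩ : Fin 4 ↪ Ω) := by
      rw [MulAction.mem_stabilizer_iff]
      ext i
      fin_cases i
      exacts [h1, h2, h3, h4]
    rwa [hsharp, Subgroup.mem_bot] at this
  have un : ∀ (g h : G) (x y z w : Ω), Function.Injective ![x, y, z, w] → g • x = h • x →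
      g • y = h • y → g • z = h • z → g • w = h • w → g = h := by
    intro g h x y z w hi h1 h2 h3 h4
    have := sh (h⁻¹ * g) x y z w hi (by rw [mul_smul, h1, inv_smul_smul])
      (by rw [mul_smul, h2, inv_smul_smul]) (by rw [mul_smul, h3, inv_smul_smul])
      (by rw [mul_smul, h4, inv_smul_smul])
    rw [inv_mul_eq_one] at this
    exact this.symm
  have hp : ∀ i j : Fin 4, i ≠ j → p i ≠ p j := fun i j h h' => h (p.injective h')
  have h01 := hp 0 1 (by decide)
  have h02 := hp 0 2 (by decide)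
  have h03 := hp 0 3 (by decide)
  have h12 := hp 1 2 (by decide)
  have h13 := hp 1 3 (by decide)
  have h23 := hp 2 3 (by decide)
  have hI := H3.inj4 h01 h02 h03 h12 h13 h23
  obtain ⟨a, a0, a1, a2, a3⟩ := H3.four_trans h4 hI (H3.inj4 h01 h03 h02 h13 h12 h23.symm)
  obtain ⟨b, b0, b1, b2, b3⟩ := H3.four_trans h4 hI (H3.inj4 h01.symm h12 h13 h02 h03 h23)
  have ha : a * a = 1 := sh _ _ _ _ _ hI (by simp [mul_smul, *]) (by simp [mul_smul, *])
    (by simp [mul_smul, *]) (by simp [mul_smul, *])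
  have hb : b * b = 1 := sh _ _ _ _ _ hI (by simp [mul_smul, *]) (by simp [mul_smul, *])
    (by simp [mul_smul, *]) (by simp [mul_smul, *])
  have hab : a * b = b * a := un _ _ _ _ _ _ hI (by simp [mul_smul, *]) (by simp [mul_smul, *])
    (by simp [mul_smul, *]) (by simp [mul_smul, *])
  have ha1 : a ≠ 1 := by rintro rfl; exact h23 (by simpa using a2)
  have hb1 : b ≠ 1 := by rintro rfl; exact h01 (by simpa using b0)
  have aa : ∀ x : Ω, a • a • x = x := fun x => by rw [← mul_smul, ha, one_smul]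
  have bb : ∀ x : Ω, b • b • x = x := fun x => by rw [← mul_smul, hb, one_smul]
  have ba : ∀ x : Ω, b • a • x = a • b • x := fun x => by rw [← mul_smul, ← hab, mul_smul]
  have fa : ∀ x : Ω, a • x = x → x = p 0 ∨ x = p 1 ∨ b • x = x := by
    intro x hx
    by_contra hc
    push Not at hc
    obtain ⟨c0, c1, c2⟩ := hc
    refine ha1 (sh a (p 0) (p 1) x (b • x) (H3.inj4 h01 c0.symm ?_ c1.symm ?_ c2.symm) a0 a1 hx
      (by rw [← ba, hx]))
    · intro h; apply c1; rw [← bb x, ← h, b0]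
    · intro h; apply c0; rw [← bb x, ← h, b1]
  have fb : ∀ x : Ω, b • x = x → x = p 2 ∨ x = p 3 ∨ a • x = x := by
    intro x hx
    by_contra hc
    push Not at hc
    obtain ⟨c0, c1, c2⟩ := hc
    refine hb1 (sh b (p 2) (p 3) x (a • x) (H3.inj4 h23 c0.symm ?_ c1.symm ?_ c2.symm) b2 b3 hx
      (by rw [ba, hx]))
    · intro h; apply c1; rw [← aa x, ← h, a2]
    · intro h; apply c0; rw [← aa x, ← h, a3]
  have H1 : ∀ z : G, z * a = a * z → z * b = b * z → z = 1 ∨ z = a ∨ z = b ∨ z = a * b := by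
    intro z hza hzb
    have za : ∀ x : Ω, a • z • x = z • a • x := fun x => by rw [← mul_smul, ← hza, mul_smul]
    have zb : ∀ x : Ω, b • z • x = z • b • x := fun x => by rw [← mul_smul, ← hzb, mul_smul]
    have e0 : z • p 0 = p 0 ∧ z • p 1 = p 1 ∨ z • p 0 = p 1 ∧ z • p 1 = p 0 := by
      rcases fa (z • p 0) (by rw [za, a0]) with h | h | h
      · left; exact ⟨h, by rw [← b0, ← zb, h]⟩
      · right; exact ⟨h, by rw [← b0, ← zb, h, b1]⟩
      · rw [zb, b0] at h; exact absurd (smul_left_cancel _ h) h01.symm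
    have e2 : z • p 2 = p 2 ∧ z • p 3 = p 3 ∨ z • p 2 = p 3 ∧ z • p 3 = p 2 := by
      rcases fb (z • p 2) (by rw [zb, b2]) with h | h | h
      · left; exact ⟨h, by rw [← a2, ← za, h]⟩
      · right; exact ⟨h, by rw [← a2, ← za, h, a3]⟩
      · rw [za, a2] at h; exact absurd (smul_left_cancel _ h) h23.symm
    rcases e0 with ⟨e0, e1⟩ | ⟨e0, e1⟩ <;> rcases e2 with ⟨e2, e3⟩ | ⟨e2, e3⟩
    · exact Or.inl (sh _ _ _ _ _ hI e0 e1 e2 e3)
    · exact Or.inr (Or.inl (un _ _ _ _ _ _ hI (by simp [*]) (by simp [*]) (by simp [*]) (by simp [*])))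
    · exact Or.inr (Or.inr (Or.inl
        (un _ _ _ _ _ _ hI (by simp [*]) (by simp [*]) (by simp [*]) (by simp [*]))))
    · exact Or.inr (Or.inr (Or.inr (un _ _ _ _ _ _ hI (by simp [mul_smul, *]) (by simp [mul_smul, *])
        (by simp [mul_smul, *]) (by simp [mul_smul, *]))))
  have H2 : ∀ x : Ω, a • x ≠ x → b • x ≠ x → a • b • x ≠ x → ∃ t : G, t * t = 1 ∧ t * a = a * t ∧
      t * b = a * b * t ∧ t • b • x = b • x ∧ t • a • b • x = a • b • x ∧ t • x = a • x := by
    intro x x1 x2 x3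
    have n1 : a • x ≠ b • x := fun h => x3 (by rw [← h, aa])
    have n2 : a • x ≠ a • b • x := fun h => x2 (smul_left_cancel _ h).symm
    have n3 : b • x ≠ a • b • x := fun h => x1 (by rw [← ba] at h; exact (smul_left_cancel _ h).symm)
    have hJ := H3.inj4 x1.symm x2.symm x3.symm n1 n2 n3
    obtain ⟨t, t0, t1, t2, t3⟩ := H3.four_trans h4 hJ (H3.inj4 x1 n1 n2 x2.symm x3.symm n3)
    refine ⟨t, sh _ _ _ _ _ hJ ?_ ?_ ?_ ?_, un _ _ _ _ _ _ hJ ?_ ?_ ?_ ?_,
      un _ _ _ _ _ _ hJ ?_ ?_ ?_ ?_, t2, t3, t0⟩ <;> simp only [mul_smul, t0, t1, t2, t3, aa, bb, ba]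
  have hab1 : a * b ≠ 1 := fun h => h01 (by
    have := congrArg (· • p 0) h
    simp only [mul_smul, b0, a1, one_smul] at this
    exact this.symm)
  have hF : ∃ F : Finset Ω, F.card ≤ 3 ∧ ∀ x, a • b • x = x → x ∈ F := by
    by_contra hc
    push Not at hc
    obtain ⟨x, hx, -⟩ := hc ∅ (by simp)
    obtain ⟨y, hy, hy'⟩ := hc {x} (by simp)
    obtain ⟨z, hz, hz'⟩ := hc {x, y} (Finset.card_le_two.trans (by norm_num))
    obtain ⟨w, hw, hw'⟩ := hc {x, y, z} Finset.card_le_three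
    simp only [Finset.mem_insert, Finset.mem_singleton, not_or] at hy' hz' hw'
    exact hab1 (sh _ x y z w (H3.inj4 (Ne.symm hy') (Ne.symm hz'.1) (Ne.symm hw'.1) (Ne.symm hz'.2)
      (Ne.symm hw'.2.1) (Ne.symm hw'.2.2)) (by rw [mul_smul, hx]) (by rw [mul_smul, hy])
      (by rw [mul_smul, hz]) (by rw [mul_smul, hw]))
  obtain ⟨F, hF3, hF⟩ := hF
  have hR : ∃ R : Finset Ω, R.card ≤ 4 ∧ ∀ y, a • y ≠ y → b • y ≠ y → a • b • y ≠ y → y ∈ R := by
    by_cases hx : ∃ x : Ω, a • x ≠ x ∧ b • x ≠ x ∧ a • b • x ≠ x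
    · obtain ⟨x, x1, x2, x3⟩ := hx
      refine ⟨{x, a • x, b • x, a • b • x}, Finset.card_le_four, fun y y1 y2 y3 => ?_⟩
      simpa using H3.klein_same_orbit ha hb hab ha1 hb1 H1 H2
        (fun t _ x y z w hi => sh t x y z w hi) x1 x2 x3 y1 y2 y3
    · exact ⟨∅, by simp, fun y y1 y2 y3 => absurd ⟨y, y1, y2, y3⟩ hx⟩
  obtain ⟨R, hR4, hR⟩ := hR
  have hall : ∀ y : Ω, y ∈ ({p 0, p 1, p 2, p 3} : Finset Ω) ∪ F ∪ R := by
    intro y
    simp only [Finset.mem_union, Finset.mem_insert, Finset.mem_singleton]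
    by_cases y1 : a • y = y
    · rcases fa y y1 with h | h | h
      · tauto
      · tauto
      · exact Or.inl (Or.inr (hF y (by rw [h, y1])))
    by_cases y2 : b • y = y
    · rcases fb y y2 with h | h | h <;> tauto
    by_cases y3 : a • b • y = y
    · exact Or.inl (Or.inr (hF y y3))
    · exact Or.inr (hR y y1 y2 y3)
  let _ : Fintype Ω := ⟨_, hall⟩
  have hcard : Nat.card Ω ≤ 11 := by
    rw [Nat.card_eq_fintype_card]
    change (({p 0, p 1, p 2, p 3} : Finset Ω) ∪ F ∪ R).card ≤ 11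
    have := Finset.card_union_le (({p 0, p 1, p 2, p 3} : Finset Ω) ∪ F) R
    have := Finset.card_union_le ({p 0, p 1, p 2, p 3} : Finset Ω) F
    have := Finset.card_le_four (a := p 0) (b := p 1) (c := p 2) (d := p 3)
    omega
  refine ⟨inferInstance, hcard, fun he => ?_⟩
  by_contra hc
  obtain ⟨g, s, hs, hg, y, hy⟩ := H3.exists_nontrivial_fix_five h4
    (by obtain ⟨m, hm⟩ := he; omega)
  obtain ⟨t, hts, ht⟩ := Finset.exists_subset_card_eq (s := s) (n := 4) (by omega)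
  obtain ⟨x1, x2, x3, x4, n1, n2, n3, n4, n5, n6, rfl⟩ := Finset.card_eq_four.1 ht
  have := sh g x1 x2 x3 x4 (H3.inj4 n1 n2 n3 n4 n5 n6) (hg _ (hts (by simp))) (hg _ (hts (by simp)))
    (hg _ (hts (by simp))) (hg _ (hts (by simp)))
  exact hy (by rw [this, one_smul])

end Cfsg.Agent.S0708
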