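import Cfsg.Statements.S0709
import Cfsg.Agent.H3.Basic

set_option autoImplicit false
open Cfsg

namespace Cfsg.Agent.S0709

open Function

theorem witt_step {P : Type*} [Group P] {A B : Subgroup P} {u s : P} (hAB : A ≤ B) (hu : u ∈ B)
    (hB : ∀ b ∈ B, b ∈ A ∨ ∃ x ∈ A, ∃ y ∈ A, b = x * u * y) (hs2 : s ^ 2 ∈ A)
    (hn : ∀ a ∈ A, s * a * s⁻¹ ∈ A) (h3 : (u * s) ^ 3 ∈ A) :
    ∀ g ∈ B ⊔ Subgroup.zpowers s, g ∈ B ∨ ∃ x ∈ B, ∃ y ∈ B, g = x * s * y := by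
  have hn' : ∀ a ∈ A, s⁻¹ * a * s ∈ A := by
    intro a ha
    have := hn _ (A.mul_mem (A.mul_mem (A.inv_mem hs2) ha) hs2)
    rwa [show s * ((s ^ 2)⁻¹ * a * s ^ 2) * s⁻¹ = s⁻¹ * a * s by rw [pow_two]; group] at this
  have key : ∀ b ∈ B, s * b * s ∈ B ∨ ∃ x ∈ B, ∃ y ∈ B, s * b * s = x * s * y := by
    intro b hb
    rcases hB b hb with h | ⟨x, hx, y, hy, rfl⟩
    · left
      have := A.mul_mem (hn b h) hs2
      rw [show s * b * s⁻¹ * s ^ 2 = s * b * s by rw [pow_two]; group] at this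
      exact hAB this
    · right
      refine ⟨(s * x * s⁻¹) * u⁻¹ * (u * s) ^ 3 * (s ^ 2)⁻¹,
        B.mul_mem (B.mul_mem (B.mul_mem (hAB (hn x hx)) (B.inv_mem hu)) (hAB h3))
          (hAB (A.inv_mem hs2)), u⁻¹ * (s⁻¹ * y * s), B.mul_mem (B.inv_mem hu) (hAB (hn' y hy)), ?_⟩
      simp only [pow_succ, pow_zero]
      group
  let C : Subgroup P :=
    { carrier := {g | g ∈ B ∨ ∃ x ∈ B, ∃ y ∈ B, g = x * s * y}
      one_mem' := Or.inl B.one_mem
      mul_mem' := by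
        rintro g h (hg | ⟨x, hx, y, hy, rfl⟩) (hh | ⟨z, hz, w, hw, rfl⟩)
        · exact Or.inl (B.mul_mem hg hh)
        · exact Or.inr ⟨g * z, B.mul_mem hg hz, w, hw, by group⟩
        · exact Or.inr ⟨x, hx, y * h, B.mul_mem hy hh, by group⟩
        · rcases key _ (B.mul_mem hy hz) with h | ⟨a, ha, b, hb, h⟩
          · left
            rw [show x * s * y * (z * s * w) = x * (s * (y * z) * s) * w by group]
            exact B.mul_mem (B.mul_mem hx h) hw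
          · right
            refine ⟨x * a, B.mul_mem hx ha, b * w, B.mul_mem hb hw, ?_⟩
            rw [show x * s * y * (z * s * w) = x * (s * (y * z) * s) * w by group, h]
            group
      inv_mem' := by
        rintro g (hg | ⟨x, hx, y, hy, rfl⟩)
        · exact Or.inl (B.inv_mem hg)
        · refine Or.inr ⟨y⁻¹ * (s ^ 2)⁻¹, B.mul_mem (B.inv_mem hy) (hAB (A.inv_mem hs2)), x⁻¹,
            B.inv_mem hx, ?_⟩
          rw [pow_two]; group }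
  have : B ⊔ Subgroup.zpowers s ≤ C :=
    sup_le (fun g hg => Or.inl hg) (Subgroup.zpowers_le.2
      (Or.inr ⟨1, B.one_mem, 1, B.one_mem, by group⟩))
  exact fun g hg => this hg

/-- Witt's Lemma for constructing transitive extensions. Points `q 1, …, q t` (`t ≥ 2`) of a finite set are given; `G` fixes `q i` for `i ≥ 3` and is doubly transitive on the remaining points; `s 1 ∈ G` swaps `q 1, q 2`; for `2 ≤ i ≤ t-1`, `s i` swaps `q i, q (i+1)` and fixes the other `q j`; with `H` the stabiliser of `q 1, q 2` in `G`: `s i ^ 2 ∈ H`, `(s i * s (i+1)) ^ 3 ∈ H`, `(s i * s j) ^ 2 ∈ H` for `j ≥ i + 2`, and `s i` (`i ≥ 2`) normalises the stabiliser of `q 2` in `G`. Then `G` and the `s i` generate a `t`-transitive group whose pointwise stabiliser of the `q`'s is `H`. -/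
theorem result {α : Type*} [Fintype α] [DecidableEq α] (t : ℕ) (ht : 2 ≤ t) (q : ℕ → α) (hq : ∀ i j : ℕ, 1 ≤ i → i ≤ t → 1 ≤ j → j ≤ t → q i = q j → i = j) (G : Subgroup (Equiv.Perm α)) (hfix : ∀ g ∈ G, ∀ i : ℕ, 3 ≤ i → i ≤ t → g (q i) = q i) (h2 : ∀ a b c d : α, (∀ i, 3 ≤ i → i ≤ t → a ≠ q i ∧ b ≠ q i ∧ c ≠ q i ∧ d ≠ q i) → a ≠ b → c ≠ d → ∃ g ∈ G, g a = c ∧ g b = d) (s : ℕ → Equiv.Perm α) (hs1 : s 1 ∈ G) (hs1q : s 1 (q 1) = q 2 ∧ s 1 (q 2) = q 1) (hsq : ∀ i : ℕ, 2 ≤ i → i + 1 ≤ t → s i (q i) = q (i + 1) ∧ s i (q (i + 1)) = q i ∧ ∀ j : ℕ, 1 ≤ j → j ≤ t → j ≠ i → j ≠ i + 1 → s i (q j) = q j) (H : Subgroup (Equiv.Perm α)) (hH : H = G ⊓ MulAction.stabilizer (Equiv.Perm α) (q 1) ⊓ MulAction.stabilizer (Equiv.Perm α) (q 2)) (hsq2 : ∀ i : ℕ, 1 ≤ i → i + 1 ≤ t → s i ^ 2 ∈ H) (hbraid : ∀ i : ℕ, 1 ≤ i → i + 2 ≤ t → (s i * s (i + 1)) ^ 3 ∈ H) (hcomm : ∀ i j : ℕ, 1 ≤ i → i + 2 ≤ j → j + 1 ≤ t → (s i *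 s j) ^ 2 ∈ H ∧ (s j * s i) ^ 2 ∈ H) (hnorm : ∀ i : ℕ, 2 ≤ i → i + 1 ≤ t → ∀ g ∈ G ⊓ MulAction.stabilizer (Equiv.Perm α) (q 2), s i * g * (s i)⁻¹ ∈ G ⊓ MulAction.stabilizer (Equiv.Perm α) (q 2)) : MulAction.IsMultiplyPretransitive ↥(Subgroup.closure ((G : Set (Equiv.Perm α)) ∪ {x | ∃ i : ℕ, 2 ≤ i ∧ i + 1 ≤ t ∧ x = s i})) α t ∧ Subgroup.closure ((G : Set (Equiv.Perm α)) ∪ {x | ∃ i : ℕ, 2 ≤ i ∧ i + 1 ≤ t ∧ x = s i}) ⊓ fixingSubgroup (Equiv.Perm α) {x | ∃ i : ℕ, 1 ≤ i ∧ i ≤ t ∧ x = q i} = H := by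
  set G₁ := G ⊓ MulAction.stabilizer (Equiv.Perm α) (q 2) with hG₁
  have memG₁ : ∀ g, g ∈ G₁ ↔ g ∈ G ∧ g (q 2) = q 2 := fun g => Iff.rfl
  have hHG₁ : H ≤ G₁ := by
    rw [hH]; exact fun g hg => ⟨hg.1.1, hg.2⟩
  let W : ℕ → Subgroup (Equiv.Perm α) := fun i =>
    G₁ ⊔ Subgroup.closure {x | ∃ j, 1 ≤ j ∧ j < i ∧ x = s j}
  have hG₁W : ∀ i, G₁ ≤ W i := fun i => le_sup_left
  have hsW : ∀ i j, 1 ≤ j → j < i → s j ∈ W i := fun i j h1 h2 =>
    Subgroup.mem_sup_right (Subgroup.subset_closure ⟨j, h1, h2, rfl⟩)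
  have hWle : ∀ i (C : Subgroup (Equiv.Perm α)), G₁ ≤ C → (∀ j, 1 ≤ j → j < i → s j ∈ C) →
      W i ≤ C := fun i C h1 h2 => sup_le h1 ((Subgroup.closure_le _).2 (by
        rintro _ ⟨j, h3, h4, rfl⟩; exact h2 j h3 h4))
  have hWmono : ∀ i, W i ≤ W (i + 1) := fun i =>
    hWle _ _ (hG₁W _) fun j h1 h2 => hsW _ j h1 (by omega)
  have hW1 : W 1 = G₁ := le_antisymm (hWle _ _ le_rfl fun j h1 h2 => by omega) (hG₁W _)
  have hWsucc : ∀ i, W (i + 1) ≤ W i ⊔ Subgroup.zpowers (s i) := fun i =>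
    hWle _ _ ((hG₁W i).trans le_sup_left) fun j h1 h2 => by
      rcases (Nat.lt_succ_iff.1 h2).eq_or_lt with rfl | h3
      · exact Subgroup.mem_sup_right (Subgroup.mem_zpowers _)
      · exact Subgroup.mem_sup_left (hsW i j h1 h3)
  have hsq' : ∀ i : ℕ, 1 ≤ i → i + 1 ≤ t → s i (q i) = q (i + 1) ∧ s i (q (i + 1)) = q i ∧
      ∀ j : ℕ, 1 ≤ j → j ≤ t → j ≠ i → j ≠ i + 1 → s i (q j) = q j := by
    intro i h1 h2
    rcases h1.eq_or_lt with rfl | h1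
    · exact ⟨hs1q.1, hs1q.2, fun j h3 h4 h5 h6 => hfix _ hs1 j (by omega) h4⟩
    · exact hsq i h1 h2
  have hF : ∀ i j, 1 ≤ i → i < j → j ≤ t → ∀ g ∈ W i, g (q j) = q j := by
    intro i j h1 h2 h3
    refine hWle i (MulAction.stabilizer _ (q j)) (fun g hg => ?_) fun l h4 h5 => ?_
    · by_cases hj : j = 2
      · rw [hj]; exact hg.2
      · exact hfix g hg.1 j (by omega) h3
    · exact (hsq' l h4 (by omega)).2.2 j (by omega) h3 (by omega) (by omega)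
  have hqne : ∀ i j, 1 ≤ i → i ≤ t → 1 ≤ j → j ≤ t → i ≠ j → q i ≠ q j :=
    fun i j h1 h2 h3 h4 h5 h => h5 (hq i j h1 h2 h3 h4 h)
  have hT : ∀ i, 1 ≤ i → i ≤ t → ∀ a, (∀ j, i < j → j ≤ t → a ≠ q j) → ∃ g ∈ W i, g (q i) = a := by
    intro i h1
    induction i, h1 using Nat.le_induction with
    | base =>
      intro _ a ha
      obtain ⟨g, hg, hg1, hg2⟩ := h2 (q 1) (q 2) a (q 2) (fun i h3 h4 =>
        ⟨hqne _ _ le_rfl (by omega) (by omega) h4 (by omega),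
          hqne _ _ (by omega) (by omega) (by omega) h4 (by omega), ha i (by omega) h4,
          hqne _ _ (by omega) (by omega) (by omega) h4 (by omega)⟩)
        (hqne _ _ le_rfl (by omega) (by omega) ht (by omega)) (ha 2 (by omega) ht)
      exact ⟨g, hG₁W 1 ⟨hg, hg2⟩, hg1⟩
    | succ i h1 ih =>
      intro h3 a ha
      by_cases hai : a = q (i + 1)
      · exact ⟨1, Subgroup.one_mem _, hai.symm⟩
      · obtain ⟨g, hg, hga⟩ := ih (by omega) a fun j h4 h5 => by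
          by_cases hj : j = i + 1
          · rw [hj]; exact hai
          · exact ha j (by omega) h5
        refine ⟨g * s i, Subgroup.mul_mem _ (hWmono i hg) (hsW _ i h1 (by omega)), ?_⟩
        rw [Equiv.Perm.mul_apply, (hsq' i h1 h3).2.1, hga]
  have hGD : ∀ g ∈ G, g ∈ W 1 ∨ ∃ x ∈ W 1, ∃ y ∈ W 1, g = x * s 1 * y := by
    intro g hg
    by_cases hg2 : g (q 2) = q 2
    · exact Or.inl (hG₁W 1 ⟨hg, hg2⟩)
    · right
      obtain ⟨x, hx, hxa⟩ := hT 1 le_rfl (by omega) (g (q 2)) fun j h3 h4 => by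
        by_cases hj : j = 2
        · rw [hj]; exact hg2
        · intro h
          rw [← hfix g hg j (by omega) h4] at h
          exact hj (hq _ _ (by omega) ht (by omega) h4 (g.injective h)).symm
      refine ⟨x, hx, (x * s 1)⁻¹ * g, hG₁W 1 ⟨?_, ?_⟩, by group⟩
      · rw [hW1] at hx
        exact G.mul_mem (G.inv_mem (G.mul_mem hx.1 hs1)) hg
      · change ((x * s 1)⁻¹ * g) (q 2) = q 2
        rw [Equiv.Perm.mul_apply, Equiv.Perm.inv_eq_iff_eq, Equiv.Perm.mul_apply, hs1q.2, hxa]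
  have hW2 : W 2 = G := by
    refine le_antisymm (hWle _ _ inf_le_left fun j h1 h2 => ?_) fun g hg => ?_
    · obtain rfl : j = 1 := by omega
      exact hs1
    · rcases hGD g hg with h | ⟨x, hx, y, hy, rfl⟩
      · exact hWmono 1 h
      · exact Subgroup.mul_mem _ (Subgroup.mul_mem _ (hWmono 1 hx) (hsW 2 1 le_rfl (by omega)))
          (hWmono 1 hy)
  have hN : ∀ i l, i + 1 ≤ l → 2 ≤ l → l + 1 ≤ t → ∀ a ∈ W i, s l * a * (s l)⁻¹ ∈ W i := by
    intro i l h1 h2 h3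
    refine hWle i ((W i).comap (MulAut.conj (s l)).toMonoidHom)
      (fun g hg => hG₁W i (hnorm l h2 h3 g hg)) fun j h4 h5 => ?_
    change s l * s j * (s l)⁻¹ ∈ W i
    have e : s l * s j * (s l)⁻¹ = (s l * s j) ^ 2 * (s j)⁻¹ * (s l ^ 2)⁻¹ := by
      simp only [pow_two]; group
    rw [e]
    exact Subgroup.mul_mem _ (Subgroup.mul_mem _ (hG₁W i (hHG₁ (hcomm j l h4 (by omega) h3).2))
      (Subgroup.inv_mem _ (hsW i j h4 h5))) (Subgroup.inv_mem _ (hG₁W i (hHG₁ (hsq2 l (by omega) h3))))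
  have hD : ∀ i, 1 ≤ i → i + 1 ≤ t → ∀ g ∈ W (i + 1),
      g ∈ W i ∨ ∃ x ∈ W i, ∃ y ∈ W i, g = x * s i * y := by
    intro i h1
    induction i, h1 using Nat.le_induction with
    | base => intro _ g hg; exact hGD g (hW2 ▸ hg)
    | succ i h1 ih =>
      intro h3 g hg
      exact witt_step (hWmono i) (hsW _ i h1 (by omega)) (ih (by omega))
        (hG₁W i (hHG₁ (hsq2 _ (by omega) h3))) (hN i (i + 1) le_rfl (by omega) h3)
        (hG₁W i (hHG₁ (hbraid i h1 h3))) g (hWsucc _ hg)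
  have hS : ∀ i, 1 ≤ i → i + 1 ≤ t → ∀ g ∈ W (i + 1), g (q (i + 1)) = q (i + 1) → g ∈ W i := by
    intro i h1 h3 g hg hgq
    rcases hD i h1 h3 g hg with h | ⟨x, hx, y, hy, rfl⟩
    · exact h
    · exfalso
      rw [Equiv.Perm.mul_apply, Equiv.Perm.mul_apply, hF i (i + 1) h1 (by omega) h3 y hy,
        (hsq' i h1 h3).2.1, ← hF i (i + 1) h1 (by omega) h3 x hx] at hgq
      have := hq _ _ h1 (by omega) (by omega) h3 (x.injective hgq)
      omega
  have hM : ∀ i, 1 ≤ i → i ≤ t → ∀ x : Fin i → α, Injective x →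
      (∀ l j, i < j → j ≤ t → x l ≠ q j) → ∃ g ∈ W i, ∀ l : Fin i, g (q (l + 1)) = x l := by
    intro i h1
    induction i, h1 using Nat.le_induction with
    | base =>
      intro h3 x _ hx
      obtain ⟨g, hg, hga⟩ := hT 1 le_rfl h3 (x 0) (hx 0)
      exact ⟨g, hg, fun l => by rw [Subsingleton.elim l 0]; exact hga⟩
    | succ i h1 ih =>
      intro h3 x hx hxq
      obtain ⟨g, hg, hga⟩ := hT (i + 1) (by omega) h3 (x (Fin.last i)) (hxq _)
      obtain ⟨h, hh, hha⟩ := ih (by omega) (fun l => g⁻¹ (x l.castSucc))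
        (g⁻¹.injective.comp (hx.comp (Fin.castSucc_injective i))) (fun l j h4 h5 he => by
          rw [Equiv.Perm.inv_eq_iff_eq] at he
          by_cases hj : j = i + 1
          · rw [hj, hga] at he
            exact (Fin.castSucc_lt_last l).ne (hx he)
          · rw [hF (i + 1) j (by omega) (by omega) h5 g hg] at he
            exact hxq _ j (by omega) h5 he)
      refine ⟨g * h, Subgroup.mul_mem _ hg (hWmono i hh), fun l => ?_⟩
      refine Fin.lastCases ?_ (fun l => ?_) l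
      · rw [Equiv.Perm.mul_apply, Fin.val_last, hF i (i + 1) h1 (by omega) h3 h hh, hga]
      · rw [Equiv.Perm.mul_apply, Fin.val_castSucc, hha]; simp
  have hWt : Subgroup.closure ((G : Set (Equiv.Perm α)) ∪
      {x | ∃ i : ℕ, 2 ≤ i ∧ i + 1 ≤ t ∧ x = s i}) = W t := by
    apply le_antisymm
    · rw [Subgroup.closure_le]
      rintro x (hx | ⟨i, h1, h2, rfl⟩)
      · exact monotone_nat_of_le_succ hWmono ht (hW2 ▸ hx)
      · exact hsW t i (by omega) h2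
    · refine hWle _ _ (fun g hg => Subgroup.subset_closure (Or.inl hg.1)) fun j h1 h2 => ?_
      rcases h1.eq_or_lt with rfl | h1
      · exact Subgroup.subset_closure (Or.inl hs1)
      · exact Subgroup.subset_closure (Or.inr ⟨j, h1, h2, rfl⟩)
  rw [hWt]
  constructor
  · rw [H3.ktrans_iff]
    intro x y hx hy
    obtain ⟨g, hg, hga⟩ := hM t (by omega) le_rfl x hx (fun l j h1 h2 => by omega)
    obtain ⟨h, hh, hha⟩ := hM t (by omega) le_rfl y hy (fun l j h1 h2 => by omega)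
    refine ⟨⟨h * g⁻¹, Subgroup.mul_mem _ hh (Subgroup.inv_mem _ hg)⟩, fun i => ?_⟩
    change h (g⁻¹ (x i)) = y i
    rw [← hga, ← hha]; simp
  · apply le_antisymm
    · rintro g ⟨hg, hgq⟩
      have hgq' : ∀ i, 1 ≤ i → i ≤ t → g (q i) = q i := fun i h1 h2 =>
        (mem_fixingSubgroup_iff _).1 hgq _ ⟨i, h1, h2, rfl⟩
      have : ∀ i, 1 ≤ i → i ≤ t → g ∈ W i → g ∈ W 1 := by
        intro i h1
        induction i, h1 using Nat.le_induction with
        | base => exact fun _ h => h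
        | succ i h1 ih => exact fun h3 h => ih (by omega) (hS i h1 h3 g h (hgq' _ (by omega) h3))
      have h4 := this t (by omega) le_rfl hg
      rw [hW1] at h4
      rw [hH]
      exact ⟨⟨h4.1, hgq' 1 le_rfl (by omega)⟩, h4.2⟩
    · intro g hg
      refine ⟨hG₁W t (hHG₁ hg), (mem_fixingSubgroup_iff _).2 ?_⟩
      rintro _ ⟨i, h1, h3, rfl⟩
      rcases h1.eq_or_lt with rfl | h1
      · rw [hH] at hg; exact hg.1.2
      · exact hF 1 i le_rfl h1 h3 g (hG₁W 1 (hHG₁ hg))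

end Cfsg.Agent.S0709
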