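import Cfsg.Statements.S0710
import Cfsg.Agent.H3.PrimeDegree

set_option autoImplicit false
open Cfsg

namespace Cfsg.Agent.S0710



/-- No transitive permutation group on 13 points has order `13 * 12 * 11 * 10 * 9 * 8`. -/
theorem result {α : Type*} [Fintype α] [DecidableEq α] (hα : Fintype.card α = 13) (G : Subgroup (Equiv.Perm α)) [MulAction.IsPretransitive G α] : Nat.card G ≠ 13 * 12 * 11 * 10 * 9 * 8 := by
  intro h
  obtain ⟨d, hd, hmod⟩ := H3.prime_degree_congr (G := G) (α := α) (p := 13) (m := 12 * 11 * 10 * 9 * 8)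
    (by norm_num) (by rw [Nat.card_eq_fintype_card, hα]) (fun g hg => by ext x; exact hg x)
    (by rw [h]) inferInstance
  have hle := Nat.le_of_dvd (by norm_num) hd
  unfold Nat.ModEq at hmod
  interval_cases d <;> simp at hd hmod

end Cfsg.Agent.S0710
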