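import Cfsg.Statements.S0712
import Cfsg.Agent.H3.Basic

set_option autoImplicit false
open Cfsg

namespace Cfsg.Agent.S0712



/-- Jordan: a primitive group in which the pointwise stabiliser of a set `s` is doubly transitive on the complement of `s` (which has at least 2 points) is `(|s| + 2)`-transitive. -/
theorem result {α : Type*} [Fintype α] [DecidableEq α] (G : Subgroup (Equiv.Perm α)) (hG : MulAction.IsPreprimitive G α) (s : Set α) {m : ℕ} (hsm : s.ncard = m) (hm : m + 2 ≤ Fintype.card α) (h2 : MulAction.IsMultiplyPretransitive (fixingSubgroup G s) (SubMulAction.ofFixingSubgroup G s) 2) : MulAction.IsMultiplyPretransitive G α (m + 2) := by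
  have hm' : MulAction.IsMultiplyPretransitive G α m := by
    rcases Nat.eq_zero_or_pos m with rfl | hpos
    · exact MulAction.is_zero_pretransitive'
    obtain ⟨n, rfl⟩ : ∃ n, m = n + 1 := ⟨m - 1, by omega⟩
    have h1 := hG.isMultiplyPreprimitive hsm (by rw [Nat.card_eq_fintype_card]; omega)
      (MulAction.isPreprimitive_of_is_two_pretransitive h2)
    have h3 := h1.isMultiplyPretransitive
    exact MulAction.isMultiplyPretransitive_of_le (n := n + 2) (by omega)
      (by rw [Nat.card_eq_fintype_card]; omega)
  refine H3.ktrans_add hm' s.toFinite.toFinset (by rw [← hsm, Set.ncard_eq_toFinset_card]) ?_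
  intro x y hx hy hxs hys
  simp only [Set.Finite.mem_toFinset] at hxs hys ⊢
  obtain ⟨g, hg⟩ := H3.ktrans_iff.1 h2 (fun i => ⟨x i, hxs i⟩) (fun i => ⟨y i, hys i⟩)
    (fun i j h => hx (congrArg Subtype.val h)) (fun i j h => hy (congrArg Subtype.val h))
  exact ⟨g, (mem_fixingSubgroup_iff G).1 g.2, fun i => congrArg Subtype.val (hg i)⟩

end Cfsg.Agent.S0712
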