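import Cfsg.Statements.S0714
import Mathlib
import Cfsg.Agent.H1.PermMod

set_option autoImplicit false
open Cfsg

namespace Cfsg.Agent.S0714

/-- Over any field, the permutation module of the alternating group of degree at least 5 has exactly four invariant subspaces: zero, the constant functions, the functions with coordinate sum zero, and everything. -/
theorem result {α : Type*} [Fintype α] [DecidableEq α] (hα : 5 ≤ Fintype.card α) {K : Type*} [Field K] (W : Subrepresentation (Cfsg.permRep K (alternatingGroup α) α)) : W.toSubmodule = ⊥ ∨ W = Cfsg.permConstants K (alternatingGroup α) α ∨ W = Cfsg.permSumZero K (alternatingGroup α) α ∨ W.toSubmodule = ⊤ := by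
  classical
  by_cases hc : ∀ v ∈ W.toSubmodule, ∀ a b, v a = v b
  · by_cases h0 : W.toSubmodule = ⊥
    · exact Or.inl h0
    · right; left
      obtain ⟨v, hvW, hv0⟩ := Submodule.exists_mem_ne_zero_of_ne_bot h0
      obtain ⟨a, ha⟩ : ∃ a, v a ≠ 0 := by
        by_contra h
        push Not at h
        exact hv0 (funext h)
      apply Subrepresentation.toSubmodule_injective
      apply le_antisymm
      · intro w hw
        rw [H1.mem_permConstants]
        exact ⟨w a, fun x => hc w hw x a⟩
      · rw [H1.permConstants_le_iff]
        have : (fun _ => (1 : K)) = (v a)⁻¹ • v := by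
          funext x
          simp [hc v hvW x a, ha]
        rw [this]
        exact W.toSubmodule.smul_mem _ hvW
  · push Not at hc
    obtain ⟨v, hvW, a, b, hab⟩ := hc
    have hne : a ≠ b := fun h => hab (h ▸ rfl)
    have h3 : MulAction.IsMultiplyPretransitive (alternatingGroup α) α 3 := by
      have := alternatingGroup.isMultiplyPretransitive α
      exact MulAction.isMultiplyPretransitive_of_le' (n := Nat.card α - 2)
        (by rw [Nat.card_eq_fintype_card]; omega) (by simp)
    have h2 : MulAction.IsMultiplyPretransitive (alternatingGroup α) α 2 :=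
      MulAction.isMultiplyPretransitive_of_le' (n := 3) (by norm_num)
        (by rw [ENat.card_eq_coe_fintype_card]; exact_mod_cast (by omega : 3 ≤ Fintype.card α))
    -- three more points
    obtain ⟨c, hc⟩ : ∃ c, c ∉ ({a, b} : Finset α) := by
      apply Finset.exists_mem_notMem_of_card_lt_card (t := Finset.univ) _ |>.imp fun _ h => h.2
      have := Finset.card_le_two (a := a) (b := b)
      rw [Finset.card_univ]; omega
    obtain ⟨d, hd⟩ : ∃ d, d ∉ ({a, b, c} : Finset α) := by
      apply Finset.exists_mem_notMem_of_card_lt_card (t := Finset.univ) _ |>.imp fun _ h => h.2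
      have := Finset.card_le_three (a := a) (b := b) (c := c)
      rw [Finset.card_univ]; omega
    obtain ⟨e, he⟩ : ∃ e, e ∉ ({a, b, c, d} : Finset α) := by
      apply Finset.exists_mem_notMem_of_card_lt_card (t := Finset.univ) _ |>.imp fun _ h => h.2
      have := Finset.card_le_four (a := a) (b := b) (c := c) (d := d)
      rw [Finset.card_univ]; omega
    simp only [Finset.mem_insert, Finset.mem_singleton, not_or] at hc hd he
    -- three-cycles
    have hcyc : ∀ x y z : α, Equiv.swap x y * Equiv.swap x z ∈ alternatingGroup α ∨ x = y ∨ x = z := by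
      intro x y z
      by_cases h1 : x = y
      · exact Or.inr (Or.inl h1)
      by_cases h2 : x = z
      · exact Or.inr (Or.inr h2)
      left
      rw [Equiv.Perm.mem_alternatingGroup, map_mul, Equiv.Perm.sign_swap h1, Equiv.Perm.sign_swap h2]
      simp
    have hact : ∀ (g : Equiv.Perm α), g ∈ alternatingGroup α → ∀ w ∈ W.toSubmodule,
        (fun x => w (g x)) ∈ W.toSubmodule := by
      intro g hg w hw
      have := W.apply_mem_toSubmodule (⟨g, hg⟩⁻¹ : alternatingGroup α) hw
      exact this
    have hg1 : Equiv.swap a b * Equiv.swap a c ∈ alternatingGroup α := by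
      rcases hcyc a b c with h | h | h
      · exact h
      · exact absurd h hne
      · exact absurd h.symm hc.1
    have hg2 : Equiv.swap b d * Equiv.swap b e ∈ alternatingGroup α := by
      rcases hcyc b d e with h | h | h
      · exact h
      · exact absurd h.symm hd.2.1
      · exact absurd h.symm he.2.1
    set u : α → K := (fun x => v ((Equiv.swap a b * Equiv.swap a c) x)) - v with hu
    have huW : u ∈ W.toSubmodule := W.toSubmodule.sub_mem (hact _ hg1 v hvW) hvW
    have hub : u b = v a - v b := by
      simp [hu, Equiv.swap_apply_of_ne_of_ne hne.symm (Ne.symm hc.2)]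
    have hud : u d = 0 := by
      simp [hu, Equiv.swap_apply_of_ne_of_ne hd.1 hd.2.2, Equiv.swap_apply_of_ne_of_ne hd.1 hd.2.1]
    have hue : u e = 0 := by
      simp [hu, Equiv.swap_apply_of_ne_of_ne he.1 he.2.2.1, Equiv.swap_apply_of_ne_of_ne he.1 he.2.1]
    have hub0 : u b ≠ 0 := by rw [hub]; exact sub_ne_zero.2 hab
    have hw : (fun x => u ((Equiv.swap b d * Equiv.swap b e) x)) - u
        = u b • ((Pi.single d 1 : α → K) - Pi.single b 1) := by
      funext x
      by_cases hxb : x = b
      · subst hxb
        simp [Equiv.swap_apply_of_ne_of_ne he.2.1 he.2.2.2, hue, Pi.single_apply, Ne.symm hd.2.1]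
      by_cases hxd : x = d
      · subst hxd
        simp [Equiv.swap_apply_of_ne_of_ne hxb (Ne.symm he.2.2.2), hud, Pi.single_apply, hxb]
      by_cases hxe : x = e
      · subst hxe
        simp [hud, hue, Pi.single_apply, hxb, hxd]
      simp [Equiv.swap_apply_of_ne_of_ne hxb hxe, Equiv.swap_apply_of_ne_of_ne hxb hxd,
        Pi.single_apply, hxb, hxd]
    have hdb : ((Pi.single d 1 : α → K) - Pi.single b 1) ∈ W.toSubmodule := by
      have h1 := W.toSubmodule.sub_mem (hact _ hg2 u huW) huW
      rw [hw] at h1
      have h2 := W.toSubmodule.smul_mem (u b)⁻¹ h1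
      rwa [smul_smul, inv_mul_cancel₀ hub0, one_smul] at h2
    have hall : ∀ x y : α, ((Pi.single x 1 : α → K) - Pi.single y 1) ∈ W.toSubmodule := by
      intro x y
      by_cases hxy : x = y
      · simp [hxy]
      obtain ⟨g, hg1, hg2⟩ := MulAction.is_two_pretransitive_iff.1 h2 hd.2.1 hxy
      have := W.apply_mem_toSubmodule g hdb
      rwa [map_sub, H1.permRep_single, H1.permRep_single, hg1, hg2] at this
    have hdecomp : ∀ w : α → K, w - (∑ x, w x) • (Pi.single a 1 : α → K) ∈ W.toSubmodule := by
      intro w
      have : w - (∑ x, w x) • (Pi.single a 1 : α → K)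
          = ∑ x, w x • ((Pi.single x 1 : α → K) - Pi.single a 1) := by
        simp only [smul_sub, Finset.sum_sub_distrib, ← Finset.sum_smul]
        congr 1
        exact pi_eq_sum_univ' w
      rw [this]
      exact W.toSubmodule.sum_mem fun x _ => W.toSubmodule.smul_mem _ (hall x a)
    right; right
    by_cases hs : ∀ w ∈ W.toSubmodule, ∑ x, w x = 0
    · left
      apply Subrepresentation.toSubmodule_injective
      apply le_antisymm
      · intro w hw
        exact hs w hw
      · intro w hw
        have h1 := hdecomp w
        rw [(H1.mem_permSumZero w).1 hw] at h1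
        simpa using h1
    · right
      push Not at hs
      obtain ⟨w, hwW, hw0⟩ := hs
      have h1 : (Pi.single a 1 : α → K) ∈ W.toSubmodule := by
        have h2 := W.toSubmodule.smul_mem (∑ x, w x)⁻¹ (W.toSubmodule.sub_mem hwW (hdecomp w))
        rwa [sub_sub_cancel, smul_smul, inv_mul_cancel₀ hw0, one_smul] at h2
      rw [eq_top_iff]
      intro z _
      have := W.toSubmodule.add_mem (hdecomp z) (W.toSubmodule.smul_mem (∑ x, z x) h1)
      simpa using this

end Cfsg.Agent.S0714
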