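import Cfsg.Statements.S0719
import Mathlib
import Cfsg.Agent.H1.PermChar
import Cfsg.Agent.H1.TwoP1

set_option autoImplicit false
open Cfsg

namespace Cfsg.Agent.S0719

theorem arith (m k t : ℤ) (hk : 1 < k) (hkm : k + 1 ≤ m)
    (h : 2 * (k - (m - 1) * t) ^ 2 + (m - 1) * t ^ 2 = 2 * k) :
    m = 2 * (m - 1 - k) ^ 2 + 2 * (m - 1 - k) + 1 := by
  have h1 : t ^ 2 ≤ 2 := by
    by_contra h1
    push Not at h1
    nlinarith [sq_nonneg (k - (m - 1) * t)]
  have h2 : t ≤ 1 := by nlinarith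
  have h3 : -1 ≤ t := by nlinarith
  interval_cases t
  · nlinarith
  · nlinarith
  · nlinarith

theorem orbMat_eq_one_iff {G : Type*} [Group G] {Ω : Type*} [MulAction G Ω] (a b y : Ω) :
    H1.orbMat G a b a y = 1 ↔ y ∈ MulAction.orbit (MulAction.stabilizer G a) b := by
  classical
  simp only [H1.orbMat, Matrix.of_apply, ite_eq_left_iff, zero_ne_one, imp_false, not_not]
  constructor
  · rintro ⟨g, h1, h2⟩
    exact ⟨⟨g, h1⟩, h2⟩
  · rintro ⟨⟨g, h1⟩, h2⟩
    exact ⟨g, h1, h2⟩

theorem orbMat_cases {G : Type*} [Group G] {Ω : Type*} [MulAction G Ω] (a b x y : Ω) :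
    H1.orbMat G a b x y = 0 ∨ H1.orbMat G a b x y = 1 := by
  classical
  simp only [H1.orbMat, Matrix.of_apply]
  split_ifs <;> simp


/-- Groups of Wielandt type: if a primitive group of degree `2m` has rank 3 and permutation character `1 + χ₁ + χ₂` with irreducible `χ₁, χ₂` of degrees `m - 1` and `m`, then `m = 2a² + 2a + 1` for some positive integer `a` and the two non-trivial subdegrees are `a(2a+1)` and `(a+1)(2a+1)`. -/
theorem result {G : Type*} [Group G] [Fintype G] {Ω : Type*} [Fintype Ω] [MulAction G Ω] (hprim : MulAction.IsPreprimitive G Ω) {m : ℕ} (hm : Fintype.card Ω = 2 * m) (a₀ : Ω) (hrank : Nat.card (MulAction.orbitRel.Quotient (MulAction.stabilizer G a₀) Ω) = 3) (χ₁ χ₂ : G → ℂ) (h₁ : Cfsg.IsIrrCharacter G χ₁) (h₂ : Cfsg.IsIrrCharacter G χ₂) (hπ : (fun g : G => (Nat.card (MulAction.fixedBy Ω g) : ℂ)) = fun g => 1 + χ₁ g + χ₂ g) (hd₁ : χ₁ 1 = (m : ℂ) - 1) (hd₂ : χ₂ 1 = m) : ∃ a : ℕ, 0 < a ∧ m = 2 * a ^ 2 + 2 * a + 1 ∧ ∀ b : Ω, b ≠ a₀ → Nat.card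 (MulAction.orbit (MulAction.stabilizer G a₀) b) = a * (2 * a + 1) ∨ Nat.card (MulAction.orbit (MulAction.stabilizer G a₀) b) = (a + 1) * (2 * a + 1) := by
  classical
  have : Nonempty Ω := ⟨a₀⟩
  obtain ⟨D⟩ := H1.exists_decomp (permRep ℂ G Ω)
  rw [← H1.perm_char] at hπ
  have h0 := H1.isIrr_one G
  have hinner : ∀ ψ, IsIrrCharacter G ψ → (D.mult ψ : ℂ) = (if (fun _ => 1) = ψ then 1 else 0) +
      (if χ₁ = ψ then 1 else 0) + (if χ₂ = ψ then 1 else 0) := by
    intro ψ hψ
    rw [← D.classInner_eq_mult hψ, hπ, ← H1.classInner_irr h0 hψ, ← H1.classInner_irr h₁ hψ,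
      ← H1.classInner_irr h₂ hψ]
    simp only [classInner, add_mul, Finset.sum_add_distrib, mul_add]
  have h12 : χ₁ ≠ χ₂ := by
    intro h
    rw [h, hd₂] at hd₁
    have : (1 : ℂ) = 0 := by linear_combination hd₁
    exact one_ne_zero this
  have h01 : χ₁ ≠ (fun _ => 1) ∧ χ₂ ≠ (fun _ => 1) := by
    have := hinner _ h0
    rw [H1.mult_one, if_pos rfl] at this
    constructor <;> intro h <;> split_ifs at this <;> norm_num at this
  have hex : ∀ ψ, D.mult ψ = 1 → ∃ i, ∀ j, D.χ j = ψ ↔ j = i := by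
    intro ψ hψ
    obtain ⟨i, hi⟩ := Finset.card_eq_one.1 hψ
    refine ⟨i, fun j => ?_⟩
    rw [← Finset.mem_singleton (b := j), ← hi]
    simp
  obtain ⟨i0, hi0⟩ := hex _ (H1.mult_one D)
  obtain ⟨i1, hi1⟩ := hex χ₁ (by
    have := hinner _ h₁
    rw [if_neg h01.1.symm, if_pos rfl, if_neg h12.symm] at this
    exact_mod_cast this)
  obtain ⟨i2, hi2⟩ := hex χ₂ (by
    have := hinner _ h₂
    rw [if_neg h01.2.symm, if_pos rfl, if_neg h12] at this
    exact_mod_cast this)
  have e0 := (hi0 i0).2 rfl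
  have e1 := (hi1 i1).2 rfl
  have e2 := (hi2 i2).2 rfl
  have n01 : i0 ≠ i1 := fun h => h01.1 (by rw [← e1, ← h, e0])
  have n02 : i0 ≠ i2 := fun h => h01.2 (by rw [← e2, ← h, e0])
  have n12 : i1 ≠ i2 := fun h => h12 (by rw [← e1, h, e2])
  have hall : ∀ i, i = i0 ∨ i = i1 ∨ i = i2 := by
    intro i
    by_contra hn
    push Not at hn
    have := hinner _ (D.isIrr i)
    rw [if_neg (fun h => hn.1 ((hi0 i).1 h.symm)), if_neg (fun h => hn.2.1 ((hi1 i).1 h.symm)),
      if_neg (fun h => hn.2.2 ((hi2 i).1 h.symm))] at this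
    exact (D.mult_pos i).ne' (by exact_mod_cast this)
  have huniv : (Finset.univ : Finset D.ι) = {i0, i1, i2} := by
    ext i
    simpa using hall i
  have hsum : ∀ f : D.ι → ℂ, ∑ i, f i = f i0 + f i1 + f i2 := by
    intro f
    rw [huniv, Finset.sum_insert (by simp [n01, n02]), Finset.sum_pair n12, add_assoc]
  have hinj : Function.Injective D.χ := by
    intro i j hij
    rcases hall j with rfl | rfl | rfl
    · exact (hi0 i).1 (hij.trans e0)
    · exact (hi1 i).1 (hij.trans e1)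
    · exact (hi2 i).1 (hij.trans e2)
  have d0 : (D.d i0 : ℂ) = 1 := by rw [← D.χ_one, e0]
  have d1 : (D.d i1 : ℂ) = m - 1 := by rw [← D.χ_one, e1, hd₁]
  have d2 : (D.d i2 : ℂ) = m := by rw [← D.χ_one, e2, hd₂]
  have hprj : ∀ i, i ≠ i0 → D.prj i (fun _ => 1) = 0 := by
    intro i hi
    have : Invertible (Nat.card G : ℂ) := invertibleOfNonzero (by exact_mod_cast Nat.card_pos.ne')
    have h3 := Representation.card_inv_mul_sum_char_eq_finrank (D.τ i)
    have h4 := H1.classInner_irr (D.isIrr i) h0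
    rw [if_neg (fun h => hi ((hi0 i).1 h))] at h4
    simp only [classInner, map_one, mul_one, H1.Decomp.χ] at h4
    rw [h4] at h3
    have h5 : (D.τ i).invariants = ⊥ := Submodule.finrank_eq_zero.1 (by exact_mod_cast h3.symm)
    rw [← Submodule.mem_bot ℂ, ← h5]
    intro g
    rw [← D.prj_comm]
    rfl
  -- the suborbits
  set H := MulAction.stabilizer G a₀ with hH
  set Q := MulAction.orbitRel.Quotient H Ω
  have : Fintype Q := Fintype.ofFinite Q
  let q0 : Q := Quotient.mk _ a₀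
  have hQ : (Finset.univ.erase q0).card = 2 := by
    have := Finset.card_erase_add_one (Finset.mem_univ q0)
    rw [Finset.card_univ, ← Nat.card_eq_fintype_card, hrank] at this
    omega
  have hq0 : ∀ y : Ω, (Quotient.mk _ y : Q) = q0 ↔ y = a₀ := by
    intro y
    constructor
    · intro h
      obtain ⟨g, hg⟩ := Quotient.exact h
      exact hg.symm.trans g.2
    · rintro rfl; rfl
  obtain ⟨b, b', hb, hb', hbb', hcov, hle⟩ : ∃ b b' : Ω, b ≠ a₀ ∧ b' ≠ a₀ ∧
      b' ∉ MulAction.orbit H b ∧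
      (∀ y, y = a₀ ∨ y ∈ MulAction.orbit H b ∨ y ∈ MulAction.orbit H b') ∧
      Nat.card (MulAction.orbit H b) ≤ Nat.card (MulAction.orbit H b') := by
    obtain ⟨q1, q2, hq, hq'⟩ := Finset.card_eq_two.1 hQ
    obtain ⟨b1, rfl⟩ := Quotient.exists_rep q1
    obtain ⟨b2, rfl⟩ := Quotient.exists_rep q2
    have a1 : b1 ≠ a₀ := by
      have : (Quotient.mk _ b1 : Q) ∈ Finset.univ.erase q0 := by rw [hq']; simp
      exact fun h => Finset.ne_of_mem_erase this ((hq0 b1).2 h)
    have a2 : b2 ≠ a₀ := by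
      have : (Quotient.mk _ b2 : Q) ∈ Finset.univ.erase q0 := by rw [hq']; simp
      exact fun h => Finset.ne_of_mem_erase this ((hq0 b2).2 h)
    have a3 : ∀ y, y = a₀ ∨ y ∈ MulAction.orbit H b1 ∨ y ∈ MulAction.orbit H b2 := by
      intro y
      by_cases hy : y = a₀
      · exact Or.inl hy
      have : (Quotient.mk _ y : Q) ∈ Finset.univ.erase q0 := by
        simpa using fun h => hy ((hq0 y).1 h)
      rw [hq', Finset.mem_insert, Finset.mem_singleton] at this
      exact Or.inr (this.imp Quotient.exact Quotient.exact)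
    rcases le_total (Nat.card (MulAction.orbit H b1)) (Nat.card (MulAction.orbit H b2)) with h | h
    · exact ⟨b1, b2, a1, a2, fun h => hq (Quotient.sound h).symm, a3, h⟩
    · exact ⟨b2, b1, a2, a1, fun h => hq (Quotient.sound h), fun y => (a3 y).imp id Or.symm, h⟩
  set k := Nat.card (MulAction.orbit H b) with hk
  set k' := Nat.card (MulAction.orbit H b') with hk'
  let N := H1.orbMat G a₀ b
  let N' := H1.orbMat G a₀ b'
  have hNd : ∀ c : Ω, c ≠ a₀ → ∀ x, H1.orbMat G a₀ c x x = 0 := by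
    intro c hc x
    simp only [H1.orbMat, Matrix.of_apply]
    rw [if_neg]
    rintro ⟨g, h1, h2⟩
    exact hc (MulAction.injective g (h2.trans h1.symm))
  have hNb : N a₀ b = 1 := (orbMat_eq_one_iff _ _ _).2 (MulAction.mem_orbit_self b)
  have hNb' : N a₀ b' = 0 := (orbMat_cases _ _ _ _).resolve_right
    (fun h => hbb' ((orbMat_eq_one_iff _ _ _).1 h))
  have hN'b' : N' a₀ b' = 1 := (orbMat_eq_one_iff _ _ _).2 (MulAction.mem_orbit_self b')
  have hN'b : N' a₀ b = 0 := (orbMat_cases _ _ _ _).resolve_right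
    (fun h => hbb' (MulAction.mem_orbit_symm.1 ((orbMat_eq_one_iff _ _ _).1 h)))
  have hred : ∀ P : Ω → Ω → Prop, (∀ (g : G) x y, P x y → P (g • x) (g • y)) →
      P a₀ a₀ → P a₀ b → P a₀ b' → ∀ x y, P x y := by
    intro P hP p0 p1 p2 x y
    obtain ⟨g, rfl⟩ := MulAction.exists_smul_eq G a₀ x
    rw [← smul_inv_smul g y]
    apply hP
    rcases hcov (g⁻¹ • y) with h | ⟨⟨u, hu⟩, h⟩ | ⟨⟨u, hu⟩, h⟩
    · rw [h]; exact p0
    · have := hP u _ _ p1
      rwa [show u • a₀ = a₀ from hu, show u • b = _ from h] at this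
    · have := hP u _ _ p2
      rwa [show u • a₀ = a₀ from hu, show u • b' = _ from h] at this
  have hrow : ∀ x, ∑ y, N x y = k := H1.orbMat_row_sum a₀ b
  have hrow' : ∀ x, ∑ y, N' x y = k' := H1.orbMat_row_sum a₀ b'
  have hkk : 1 + k + k' = 2 * m := by
    have h3 := hred (fun x y => (if x = y then 1 else 0) + N x y + N' x y = 1)
      (fun g x y h => by simpa only [N, N', H1.orbMat_smul, smul_left_cancel_iff] using h)
      (by simp [N, N', hNd b hb, hNd b' hb']) (by simp [hb.symm, hNb, hN'b])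
      (by simp [hb'.symm, hNb', hN'b']) a₀
    have h4 := Finset.sum_congr (rfl : (Finset.univ : Finset Ω) = _) (fun y _ => h3 y)
    simp only [Finset.sum_add_distrib, hrow, hrow', Finset.sum_ite_eq, Finset.mem_univ, if_true,
      Finset.sum_const, Finset.card_univ, hm] at h4
    simp only [nsmul_eq_mul, mul_one] at h4
    exact_mod_cast h4
  have hm0 : (2 * m : ℤ) ≠ 0 := by omega
  have hsymm : ∀ x y, N y x = N x y := by
    have hcol : ∑ y, N y a₀ = k := by
      have h3 : ∀ x, ∑ y, N y x = ∑ y, N y a₀ := by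
        intro x
        obtain ⟨g, rfl⟩ := MulAction.exists_smul_eq G a₀ x
        rw [← H1.sum_smul_eq g]
        simp only [N, H1.orbMat_smul]
      have h4 : ∑ x, ∑ y, N y x = ∑ y, ∑ x, N y x := Finset.sum_comm
      simp only [h3, hrow, Finset.sum_const, Finset.card_univ, hm, nsmul_eq_mul] at h4
      exact mul_left_cancel₀ (by exact_mod_cast hm0) h4
    have h5 := hred (fun x y => N y x = N b a₀ * N x y + N b' a₀ * N' x y)
      (fun g x y h => by simpa only [N, N', H1.orbMat_smul] using h)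
      (by simp [N, N', hNd b hb, hNd b' hb']) (by simp [hNb, hN'b]) (by simp [hNb', hN'b'])
    have h6 := Finset.sum_congr (rfl : (Finset.univ : Finset Ω) = _) (fun y _ => h5 a₀ y)
    simp only [hcol, Finset.sum_add_distrib, ← Finset.mul_sum, hrow, hrow'] at h6
    have hk0 : 0 < k := by
      have : Nonempty (MulAction.orbit H b) := ⟨⟨b, MulAction.mem_orbit_self b⟩⟩
      exact Nat.card_pos
    have h7 : N b a₀ = 1 ∧ N b' a₀ = 0 := by
      rcases orbMat_cases (G := G) a₀ b b a₀ with h8 | h8 <;>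
      rcases orbMat_cases (G := G) a₀ b b' a₀ with h9 | h9 <;>
      first | exact ⟨h8, h9⟩ | (exfalso; simp only [N] at h6; rw [h8, h9] at h6; omega)
    intro x y
    rw [h5 x y, h7.1, h7.2]
    simp
  have hk1 : 1 < k := by
    have hk0 : 0 < k := by
      have : Nonempty (MulAction.orbit H b) := ⟨⟨b, MulAction.mem_orbit_self b⟩⟩
      exact Nat.card_pos
    by_contra hk1
    have hk1 : k = 1 := by omega
    have huniq : ∀ x y z, N x y = 1 → N x z = 1 → y = z := by
      intro x y z hy hz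
      by_contra hyz
      have h3 : ∑ w ∈ {y, z}, N x w ≤ ∑ w, N x w :=
        Finset.sum_le_sum_of_subset_of_nonneg (Finset.subset_univ _) fun w _ _ => by
          rcases orbMat_cases (G := G) a₀ b x w with h | h <;> simp [N, h]
      rw [Finset.sum_pair hyz, hy, hz, hrow, hk1] at h3
      norm_num at h3
    have h3 := H1.TwoP.rel_of_primitive hprim (fun x y => x = y ∨ N x y = 1)
      (fun x y h => h.imp Eq.symm (fun h => by rw [hsymm, h]))
      (by
        rintro x y z (rfl | h) (rfl | h')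
        · exact Or.inl rfl
        · exact Or.inr h'
        · exact Or.inr h
        · exact Or.inl (huniq y x z (by rw [hsymm, h]) h'))
      (by
        rintro g x y (rfl | h)
        · exact Or.inl rfl
        · exact Or.inr (by simpa only [N, H1.orbMat_smul] using h))
      hb.symm (Or.inr hNb) b'
    rcases h3 with h3 | h3
    · exact hb' h3.symm
    · rw [hNb'] at h3
      exact zero_ne_one h3
  have hsq : ∀ x, (N * N) x x = k := by
    intro x
    rw [Matrix.mul_apply, ← hrow x]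
    refine Finset.sum_congr rfl fun y _ => ?_
    rw [hsymm x y]
    rcases orbMat_cases (G := G) a₀ b x y with h | h <;> simp [N, h]
  have hNN : ∀ (g : G) x y, (N * N) (g • x) (g • y) = (N * N) x y := by
    intro g x y
    simp only [Matrix.mul_apply]
    rw [← H1.sum_smul_eq g]
    simp only [N, H1.orbMat_smul]
  have hsrg := hred (fun x y => (N * N) x y = (k - (N * N) a₀ b') * (if x = y then 1 else 0) +
      ((N * N) a₀ b - (N * N) a₀ b') * N x y + (N * N) a₀ b')
    (fun g x y h => by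
      rw [hNN]; simpa only [N, H1.orbMat_smul, smul_left_cancel_iff] using h)
    (by simp [hsq, N, hNd b hb]) (by simp [hb.symm, hNb]) (by simp [hb'.symm, hNb'])
  set α := k - (N * N) a₀ b'
  set β := (N * N) a₀ b - (N * N) a₀ b'
  set γ := (N * N) a₀ b'
  let M : Matrix Ω Ω ℂ := N.map (Int.castRingHom ℂ)
  have hM : ∀ (g : G) x y, M (g • x) (g • y) = M x y := fun g x y => by
    simp [M, N, H1.orbMat_smul]
  let A := Matrix.toLin' M
  obtain ⟨c, hc⟩ := D.diag_of_injective hinj (H1.toLin'_comm M hM)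
  have hAA : ∀ v, A (A v) = (α : ℂ) • v + (β : ℂ) • A v + ((γ : ℂ) * ∑ y, v y) • fun _ => 1 := by
    intro v
    funext x
    have h3 : M * M = (N * N).map (Int.castRingHom ℂ) := (Matrix.map_mul).symm
    simp only [A, Matrix.toLin'_apply, Matrix.mulVec_mulVec, h3]
    simp only [Matrix.mulVec, dotProduct, Matrix.map_apply, hsrg x, Pi.add_apply, Pi.smul_apply,
      smul_eq_mul, M, mul_one, Finset.mul_sum]
    simp [add_mul, Finset.sum_add_distrib, mul_assoc]
  have hcc : ∀ i, i ≠ i0 → c i * c i = α + β * c i := by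
    intro i hi
    let w0 : Fin (D.d i) → ℂ := fun _ => 1
    have h3 := congrArg (D.prj i) (hAA (D.inc i w0))
    simp only [A, hc, map_add, map_smul, D.prj_inc_self, hprj i hi, smul_zero, add_zero] at h3
    have h4 := congrFun h3 ⟨0, D.d_pos i⟩
    simpa [w0] using h4
  have hc0 : c i0 = k := by
    have h3 := D.sum_inc_prj (fun _ => 1)
    rw [Finset.sum_eq_single i0 (fun i _ hi => by rw [hprj i hi, map_zero]) (by simp)] at h3
    have h4 := hc i0 (D.prj i0 fun _ => 1)
    rw [h3] at h4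
    have h5 := congrFun h4 a₀
    simp only [Matrix.toLin'_apply, Matrix.mulVec, dotProduct, M, Matrix.map_apply, mul_one,
      ← map_sum, hrow] at h5
    simpa using h5.symm
  have htr : ∀ (T : (Ω → ℂ) →ₗ[ℂ] (Ω → ℂ)) (c : D.ι → ℂ),
      (∀ i w, T (D.inc i w) = c i • D.inc i w) →
      LinearMap.trace ℂ _ T = ∑ i, c i * D.d i := by
    intro T c hc
    rw [D.trace_eq]
    refine Finset.sum_congr rfl fun i _ => ?_
    have : D.prj i ∘ₗ T ∘ₗ D.inc i = c i • LinearMap.id :=
      LinearMap.ext fun w => by simp [hc, D.prj_inc_self]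
    rw [this, map_smul, LinearMap.trace_id]
    simp
  have t1 := htr A c hc
  have t2 := htr (A ∘ₗ A) (fun i => c i * c i) (fun i w => by simp [A, hc, smul_smul])
  rw [hsum, hc0, d0, d1, d2] at t1 t2
  have t1' : LinearMap.trace ℂ _ A = 0 := by
    rw [Matrix.trace_toLin'_eq, Matrix.trace]
    simp [M, N, hNd b hb]
  have t2' : LinearMap.trace ℂ _ (A ∘ₗ A) = 2 * m * k := by
    have h3 : M * M = (N * N).map (Int.castRingHom ℂ) := (Matrix.map_mul).symm
    rw [← Matrix.toLin'_mul, Matrix.trace_toLin'_eq, Matrix.trace, h3]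
    simp [hsq, hm]
  rw [t1'] at t1
  rw [t2'] at t2
  have hrs : c i1 ≠ c i2 := by
    intro h
    rw [← h] at t1 t2
    have h3 : (2 * m : ℂ) * k * (k - (2 * m - 1)) = 0 := by
      linear_combination (-(2 * m - 1 : ℂ)) * t2 + ((2 * m - 1) * c i1 - k) * t1
    have h4 : (2 * m : ℤ) * k * (k - (2 * m - 1)) = 0 := by exact_mod_cast h3
    rcases mul_eq_zero.1 h4 with h5 | h5
    · rcases mul_eq_zero.1 h5 with h6 | h6 <;> omega
    · omega
  have hβ : c i1 + c i2 = β := by
    have h3 : (c i1 - c i2) * (c i1 + c i2 - β) = 0 := by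
      linear_combination hcc i1 n01.symm - hcc i2 n02.symm
    exact sub_eq_zero.1 ((mul_eq_zero.1 h3).resolve_left (sub_ne_zero.2 hrs))
  have hr : c i1 = k + m * β := by linear_combination t1 + (m : ℂ) * hβ
  have hs : c i2 = β - (k + m * β) := by linear_combination hβ - hr
  rw [hr, hs] at t2
  have h3 : (m : ℂ) * (2 * (k - (m - 1) * (-β)) ^ 2 + (m - 1) * (-β) ^ 2 - 2 * k) = 0 := by
    linear_combination -t2
  have h4 : (m : ℤ) * (2 * (k - (m - 1) * (-β)) ^ 2 + (m - 1) * (-β) ^ 2 - 2 * k) = 0 := by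
    exact_mod_cast h3
  have h5 := arith m k (-β) (by exact_mod_cast hk1) (by omega)
    (sub_eq_zero.1 ((mul_eq_zero.1 h4).resolve_left (by omega)))
  obtain ⟨a, ha⟩ : ∃ a : ℕ, m = a + k + 1 := ⟨m - 1 - k, by omega⟩
  have h6 : (m : ℤ) - 1 - k = a := by omega
  rw [h6] at h5
  have h7 : m = 2 * a ^ 2 + 2 * a + 1 := by exact_mod_cast h5
  have h8 : k = a * (2 * a + 1) := by nlinarith
  have h9 : k' = (a + 1) * (2 * a + 1) := by nlinarith
  refine ⟨a, Nat.pos_of_ne_zero (by rintro rfl; omega), h7, fun y hy => ?_⟩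
  rcases hcov y with h | h | h
  · exact absurd h hy
  · left
    rw [MulAction.orbit_eq_iff.2 h, ← h8]
  · right
    rw [MulAction.orbit_eq_iff.2 h, ← h9]

end Cfsg.Agent.S0719
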