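import Cfsg.Statements.S0720
import Mathlib
import Cfsg.Agent.H1.TwoP3
import Cfsg.Agent.H1.PrimeDeg

set_option autoImplicit false
open Cfsg

namespace Cfsg.Agent.S0720

/-- Wielandt's Theorem on primitive groups of degree `2p`: such a group is doubly transitive, or it has rank 3, `p = 2a² + 2a + 1`, and subdegrees `a(2a+1)` and `(a+1)(2a+1)`. -/
theorem result {α : Type*} [Fintype α] [DecidableEq α] {p : ℕ} (hp : p.Prime) (hα : Fintype.card α = 2 * p) (G : Subgroup (Equiv.Perm α)) (hG : MulAction.IsPreprimitive G α) (a₀ : α) : MulAction.IsMultiplyPretransitive G α 2 ∨ (Nat.card (MulAction.orbitRel.Quotient (MulAction.stabilizer G a₀) α) = 3 ∧ ∃ a : ℕ, 0 < a ∧ p = 2 * a ^ 2 + 2 * a + 1 ∧ ∀ b : α, b ≠ a₀ → Nat.card (MulAction.orbit (MulAction.stabilizer G a₀) b) = a * (2 * a + 1) ∨ Nat.card (MulAction.orbit (MulAction.stabilizer G a₀) b) = (a + 1) * (2 * a + 1)) := by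
  classical
  have : Fact p.Prime := ⟨hp⟩
  have h1 : p ∣ Nat.card G := by
    have h2 : (MulAction.stabilizer G a₀).index = 2 * p := by
      rw [MulAction.index_stabilizer_of_transitive, Nat.card_eq_fintype_card, hα]
    exact (Dvd.intro_left 2 h2.symm).trans (Subgroup.index_dvd_card _)
  obtain ⟨σ, hσ⟩ := exists_prime_orderOf_dvd_card' (G := G) p h1
  by_cases hfix : ∃ x : α, σ • x = x
  · left
    obtain ⟨x, hx⟩ := hfix
    have hσ' : orderOf (σ : Equiv.Perm α) = p := by rw [Subgroup.orderOf_coe, hσ]
    have hcyc : (σ : Equiv.Perm α).IsCycle := by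
      apply Equiv.Perm.isCycle_of_prime_order (by rw [hσ']; exact hp)
      rw [hσ', ← hα]
      apply Finset.card_lt_univ_of_notMem (x := x)
      rw [Equiv.Perm.notMem_support]
      exact hx
    have hsupp : (σ : Equiv.Perm α).support.card = p := by rw [← hcyc.orderOf, hσ']
    have h2 := hp.two_le
    refine hG.is_two_pretransitive (n := p - 1) ?_ ?_
      (Equiv.Perm.isPretransitive_of_isCycle_mem hcyc σ.2)
    · rw [← Finset.coe_compl, Set.ncard_coe_finset, Finset.card_compl, hsupp, hα]
      omega
    · rw [Nat.card_eq_fintype_card, hα]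
      omega
  · push Not at hfix
    obtain ⟨x1, hx1⟩ : ∃ x1 : α, x1 ∉ Finset.univ.image fun j : ZMod p => σ ^ j.val • a₀ := by
      apply Finset.exists_mem_notMem_of_card_lt_card (t := Finset.univ) _ |>.imp fun _ h => h.2
      refine Finset.card_image_le.trans_lt ?_
      rw [Finset.card_univ, Finset.card_univ, ZMod.card, hα]
      have := hp.pos
      omega
    simp only [Finset.mem_image, Finset.mem_univ, true_and, not_exists] at hx1
    have hne : ∀ i j : ZMod p, σ ^ i.val • a₀ ≠ σ ^ j.val • x1 := by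
      intro i j h
      apply hx1 (i - j)
      apply MulAction.injective (σ ^ j.val)
      simp only
      rw [← mul_smul, ← H1.zpw_add hσ, add_sub_cancel, h]
    let f : Fin 2 × ZMod p → α := fun q => σ ^ q.2.val • (if q.1 = 0 then a₀ else x1)
    have hf : Function.Bijective f := by
      rw [Fintype.bijective_iff_injective_and_card]
      refine ⟨?_, by simp [hα]⟩
      rintro ⟨a, i⟩ ⟨b, j⟩ h
      fin_cases a <;> fin_cases b
      · exact Prod.ext rfl (H1.zpw_inj hσ (hfix a₀) h)
      · exact absurd h (hne i j)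
      · exact absurd h.symm (hne j i)
      · exact Prod.ext rfl (H1.zpw_inj hσ (hfix x1) h)
    have : Fintype G := Fintype.ofFinite G
    refine H1.TwoP.wielandt_coord (e := Equiv.ofBijective f hf) (σ := σ) ?_ hG a₀
    intro a i
    simp only [Equiv.ofBijective_apply, f]
    rw [add_comm, H1.zpw_add hσ, H1.zpw_one, mul_smul]

end Cfsg.Agent.S0720
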