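import Cfsg.Statements.S0721
import Cfsg.Agent.H3.MinNormal

set_option autoImplicit false
open Cfsg

namespace Cfsg.Agent.S0721



/-- A minimal normal subgroup of a finite group is isomorphic to a direct power `T ^ m` of a simple group `T` (possibly of prime order). -/
theorem result {H : Type*} [Group H] [Finite H] (N : Subgroup H) [N.Normal] (hN : N ≠ ⊥) (hmin : ∀ M : Subgroup H, M.Normal → M ≤ N → M = ⊥ ∨ M = N) : ∃ (T : Type) (_ : Group T) (m : ℕ), IsSimpleGroup T ∧ 0 < m ∧ Nonempty (N ≃* (Fin m → T)) := by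
  have : Nontrivial N := (Subgroup.nontrivial_iff_ne_bot N).2 hN
  obtain ⟨T, _, π, hT, hπ⟩ := H3.exists_simple_quotient N
  obtain ⟨m, ⟨e⟩⟩ := H3.exists_pi_equiv_of_separating (N := N) (T := T) (fun n hn => by
    obtain ⟨g, hg⟩ := H3.separating_of_minimal_normal N hmin π hπ n hn
    exact ⟨π.comp (MulAut.conjNormal g : MulAut N).toMonoidHom,
      hπ.comp (MulAut.conjNormal g : MulAut N).surjective, hg⟩)
  refine ⟨T, inferInstance, m, hT, Nat.pos_of_ne_zero ?_, ⟨e⟩⟩
  rintro rfl
  exact not_subsingleton N e.toEquiv.subsingleton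

end Cfsg.Agent.S0721
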