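import Cfsg.Statements.S0723
import Cfsg.Agent.H3.MinNormal
import Cfsg.Agent.S0722

set_option autoImplicit false
open Cfsg

namespace Cfsg.Agent.S0723

open Function

/-- The core of the O'Nan–Scott Theorem. Let `H` be a primitive permutation group on a finite set whose unique minimal normal subgroup `N` is non-abelian, and `K` a point stabiliser. Then there are a non-abelian simple group `T` and an isomorphism `N ≃* T^m` (`m ≥ 1`) under which `K ⊓ N` becomes either a product `∏ K_i` of proper subgroups `K_i < T`, or the set of functions constant on each block of a partition of the index set into blocks of one common size `k ≥ 2`. -/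
theorem result {α : Type*} [Finite α] (H : Subgroup (Equiv.Perm α)) [MulAction.IsPreprimitive H α] (N : Subgroup H) [N.Normal] (hN : N ≠ ⊥) (hmin : ∀ M : Subgroup H, M.Normal → M ≤ N → M = ⊥ ∨ M = N) (huniq : ∀ L : Subgroup H, L.Normal → L ≠ ⊥ → (∀ M : Subgroup H, M.Normal → M ≤ L → M = ⊥ ∨ M = L) → L = N) (hnab : ¬ IsMulCommutative N) (a : α) : ∃ (T : Type) (_ : Group T) (m : ℕ) (e : N ≃* (Fin m → T)), IsSimpleGroup T ∧ ¬ IsMulCommutative T ∧ 0 < m ∧ ((∃ K : Fin m → Subgroup T, (∀ i, K i ≠ ⊤) ∧ ∀ n : N, (n : H) ∈ MulAction.stabilizer H a ↔ ∀ i, e n i ∈ K i) ∨ (∃ (k : ℕ) (c : Fin m → Fin m), 2 ≤ k ∧ (∀ j : Fin m, Nat.card {i : Fin m // c i = j} = k ∨ Nat.card {i : Fin m // c i = j} = 0) ∧ ∀ n : N, (n : H) ∈ MulAction.stabilizer H a ↔ ∀ i j : Fin m, c i = c j → e n i = e n j)) := by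
  classical
  have : Nontrivial N := (Subgroup.nontrivial_iff_ne_bot N).2 hN
  obtain ⟨T, _, π, hT, hπ⟩ := H3.exists_simple_quotient N
  have hNn : N.Normal := inferInstance
  set K := MulAction.stabilizer H a with hK
  let cj : H → (N →* N) := fun g => (MulAut.conjNormal g : MulAut N).toMonoidHom
  have cj_surj : ∀ g, Surjective (cj g) := fun g => (MulAut.conjNormal g : MulAut N).surjective
  have cj_mul : ∀ g h x, cj (g * h) x = cj g (cj h x) := fun g h x => by
    simp only [cj, map_mul, MulEquiv.coe_toMonoidHom, MulAut.mul_apply]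
  have cj_coe : ∀ g x, ((cj g x : N) : H) = g * x * g⁻¹ := fun g x => rfl
  have hNt : MulAction.IsPretransitive N α := H3.normal_trans_of_ne_bot inferInstance N hN
  have hsepK : ∀ n : N, n ≠ 1 → ∃ k ∈ K, π (cj k n) ≠ 1 := by
    intro n hn
    obtain ⟨g, hg⟩ := H3.separating_of_minimal_normal N hmin π hπ n hn
    obtain ⟨y, hy⟩ := hNt.exists_smul_eq a (g • a)
    change (y : H) • a = g • a at hy
    refine ⟨(y : H)⁻¹ * g, by
      rw [hK, MulAction.mem_stabilizer_iff, mul_smul, ← hy, inv_smul_smul], fun h => hg ?_⟩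
    have : MulAut.conjNormal g n = y * cj ((y : H)⁻¹ * g) n * y⁻¹ := by
      apply Subtype.ext
      simp only [MulAut.conjNormal_apply, Subgroup.coe_mul, cj_coe, InvMemClass.coe_inv]
      group
    rw [this, map_mul, map_mul, h, mul_one, map_inv, mul_inv_cancel]
  have hTna : ¬ IsMulCommutative T := by
    intro hc
    refine hnab ⟨⟨fun x y => ?_⟩⟩
    rw [← commutatorElement_eq_one_iff_mul_comm]
    by_contra hne
    obtain ⟨k, -, hk⟩ := hsepK _ hne
    apply hk
    rw [map_commutatorElement, map_commutatorElement, commutatorElement_eq_one_iff_mul_comm]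
    exact hc.is_comm.comm _ _
  let I := {L : Subgroup N // ∃ k ∈ K, L = (π.comp (cj k)).ker}
  choose κ hκK hκ using fun i : I => i.2
  let ρ : I → N →* T := fun i => π.comp (cj (κ i))
  have hρ : ∀ i, Surjective (ρ i) := fun i => hπ.comp (cj_surj _)
  have hρker : ∀ i, (ρ i).ker = i.1 := fun i => (hκ i).symm
  have hsep : ∀ n : N, (∀ i, ρ i n = 1) → n = 1 := by
    intro n hn
    by_contra hne
    obtain ⟨k, hk, hk'⟩ := hsepK n hne
    have := hn ⟨_, k, hk, rfl⟩
    rw [← MonoidHom.mem_ker, hρker] at this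
    exact hk' this
  let act : K → I → I := fun k i => ⟨i.1.comap (cj k), κ i * k, K.mul_mem (hκK i) k.2, by
    ext x
    rw [Subgroup.mem_comap, hκ i, MonoidHom.mem_ker, MonoidHom.mem_ker, MonoidHom.comp_apply,
      MonoidHom.comp_apply, cj_mul]⟩
  have act_mem : ∀ k i x, x ∈ (act k i).1 ↔ cj k x ∈ i.1 := fun k i x => Iff.rfl
  have act_inj : ∀ k, Injective (act k) := fun k i j h =>
    Subtype.ext (Subgroup.comap_injective (cj_surj k) (congrArg Subtype.val h))
  have act_trans : ∀ i j, ∃ k, act k i = j := by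
    intro i j
    refine ⟨⟨(κ i)⁻¹ * κ j, K.mul_mem (K.inv_mem (hκK i)) (hκK j)⟩, Subtype.ext ?_⟩
    ext x
    rw [act_mem, hκ i, hκ j, MonoidHom.mem_ker, MonoidHom.mem_ker, MonoidHom.comp_apply,
      MonoidHom.comp_apply, ← cj_mul, mul_inv_cancel_left]
  have : Fintype I := Fintype.ofFinite I
  let m := Fintype.card I
  let eqv : Fin m ≃ I := (Fintype.equivFin I).symm
  have i0 : I := ⟨_, 1, K.one_mem, rfl⟩
  have hm : 0 < m := Fintype.card_pos_iff.2 ⟨i0⟩
  have build : ∀ θ : I → T ≃* T, ∃ e : N ≃* (Fin m → T), ∀ n j,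
      e n j = θ (eqv j) (ρ (eqv j) n) := by
    intro θ
    let φ : N →* (Fin m → T) := MonoidHom.pi fun j => (θ (eqv j)).toMonoidHom.comp (ρ (eqv j))
    refine ⟨MulEquiv.ofBijective φ ⟨(injective_iff_map_eq_one φ).2 fun n hn => hsep n fun i => ?_,
      fun f => ?_⟩, fun n j => rfl⟩
    · have := congrFun hn (eqv.symm i)
      simpa [φ] using this
    · obtain ⟨x, hx⟩ := H3.exists_forall_eq_of_ker_ne hTna ρ hρ Finset.univ
        (fun i _ j _ h => Subtype.ext (by rwa [hρker, hρker] at h))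
        (fun i => (θ i).symm (f (eqv.symm i)))
      refine ⟨x, funext fun j => ?_⟩
      simp [φ, hx]
  set X := K.subgroupOf N with hX
  have memX : ∀ x : N, x ∈ X ↔ (x : H) ∈ K := fun x => Iff.rfl
  have cjX : ∀ k ∈ K, ∀ x : N, cj k x ∈ X ↔ x ∈ X := by
    intro k hk x
    rw [memX, memX, cj_coe, K.mul_mem_cancel_right (K.inv_mem hk), K.mul_mem_cancel_left hk]
  have memmap : ∀ i n, ρ i n ∈ X.map (ρ i) ↔ ∃ x ∈ X, x⁻¹ * n ∈ i.1 := by
    intro i n
    rw [Subgroup.mem_map]
    refine exists_congr fun x => and_congr_right fun _ => ?_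
    rw [← hρker, MonoidHom.mem_ker, map_mul, map_inv, inv_mul_eq_one]
  have memact : ∀ (k : K) i n, ρ (act k i) n ∈ X.map (ρ (act k i)) ↔ ρ i (cj k n) ∈ X.map (ρ i) := by
    intro k i n
    rw [memmap, memmap]
    constructor
    · rintro ⟨x, hx, hx'⟩
      refine ⟨cj k x, (cjX k k.2 x).2 hx, ?_⟩
      rwa [act_mem, map_mul, map_inv] at hx'
    · rintro ⟨x, hx, hx'⟩
      obtain ⟨x, rfl⟩ := cj_surj k x
      refine ⟨x, (cjX k k.2 x).1 hx, ?_⟩
      rwa [act_mem, map_mul, map_inv]
  have hXne : ¬ ∀ n : N, (n : H) ∈ K := by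
    intro h
    obtain ⟨n, hn, b, hb⟩ := H3.exists_ne_of_ne_bot hN
    have hall : ∀ x : α, x = a := fun x => by
      obtain ⟨y, hy⟩ := hNt.exists_smul_eq a x
      rw [← hy]; exact h y
    exact hb ((hall _).trans (hall _).symm)
  by_cases hA : ∃ i, X.map (ρ i) ≠ ⊤
  · obtain ⟨i1, hi1⟩ := hA
    have hall : ∀ i, X.map (ρ i) ≠ ⊤ := by
      intro i hi
      obtain ⟨k, rfl⟩ := act_trans i i1
      apply hi1
      rw [eq_top_iff]
      rintro t -
      obtain ⟨n, rfl⟩ := hρ (act k i) t
      rw [memact, hi]; trivial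
    obtain ⟨e, he⟩ := build fun _ => MulEquiv.refl T
    refine ⟨T, inferInstance, m, e, hT, hTna, hm, Or.inl ⟨fun j => X.map (ρ (eqv j)),
      fun j => hall _, fun n => ⟨fun hn j => ?_, fun hn => ?_⟩⟩⟩
    · rw [he]; exact ⟨n, hn, rfl⟩
    · let Y : Subgroup N := ⨅ i, (X.map (ρ i)).comap (ρ i)
      have memY : ∀ y, y ∈ Y ↔ ∀ i, ρ i y ∈ X.map (ρ i) := fun y => by
        simp only [Y, Subgroup.mem_iInf, Subgroup.mem_comap]
      have hnY : n ∈ Y := (memY n).2 fun i => by
        have := hn (eqv.symm i)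
        rw [he] at this
        simpa using this
      have hYk : ∀ k ∈ K, ∀ y ∈ Y, cj k y ∈ Y := fun k hk y hy =>
        (memY _).2 fun i => (memact ⟨k, hk⟩ i y).1 ((memY y).1 hy _)
      rcases S0722.result H N hN hmin a (Y.map N.subtype) (Subgroup.map_subtype_le _)
        (fun x hx => ⟨⟨x, hx.2⟩, (memY _).2 fun i => ⟨_, hx.1, rfl⟩, rfl⟩)
        (fun k hk => Subgroup.mem_normalizer_fintype (by
          rintro _ ⟨y, hy, rfl⟩
          exact ⟨_, hYk k hk y hy, rfl⟩)) with h | h
      · have : (n : H) ∈ Y.map N.subtype := ⟨n, hnY, rfl⟩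
        rw [h] at this
        exact this.1
      · exfalso
        apply hi1
        rw [eq_top_iff]
        rintro t -
        obtain ⟨y, rfl⟩ := hρ i1 t
        obtain ⟨z, hz, hzy⟩ : (y : H) ∈ Y.map N.subtype := by rw [h]; exact y.2
        rw [← Subtype.ext hzy]
        exact (memY z).1 hz _
  · push Not at hA
    let ψ : I → X →* T := fun i => (ρ i).comp X.subtype
    have hψ : ∀ i, Surjective (ψ i) := by
      intro i t
      obtain ⟨x, hx, rfl⟩ : t ∈ X.map (ρ i) := by rw [hA]; trivial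
      exact ⟨⟨x, hx⟩, rfl⟩
    have memψ : ∀ i (x : X), x ∈ (ψ i).ker ↔ (x : N) ∈ i.1 := fun i x => by
      rw [← hρker]; rfl
    let r : Setoid I := Setoid.ker fun i => (ψ i).ker
    let c : I → I := fun i => (Quotient.mk r i).out
    have hc1 : ∀ i, (ψ (c i)).ker = (ψ i).ker := fun i => Quotient.mk_out (s := r) i
    have hc2 : ∀ i j, c i = c j ↔ (ψ i).ker = (ψ j).ker := fun i j =>
      Quotient.out_inj.trans Quotient.eq
    have hc3 : ∀ i, c (c i) = c i := fun i => (hc2 _ _).2 (hc1 i)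
    choose θ hθ using fun i => H3.exists_mulAut_of_ker_eq (hψ i) (hψ (c i)) (hc1 i).symm
    obtain ⟨e, he⟩ := build θ
    have hle : ∀ i j, Nat.card {l // c l = c i} ≤ Nat.card {l // c l = c j} := by
      intro i j
      obtain ⟨k, rfl⟩ := act_trans i j
      refine Nat.card_le_card_of_injective (fun l => ⟨act k l.1, ?_⟩)
        (fun l l' h => Subtype.ext (act_inj k (congrArg Subtype.val h)))
      have h1 := (hc2 _ _).1 l.2
      rw [hc2]
      ext x
      rw [memψ, memψ, act_mem, act_mem, ← memψ _ ⟨_, (cjX k k.2 x).2 x.2⟩, h1, memψ]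
    have hiff : ∀ n : N, (n : H) ∈ K ↔ ∀ i j, c i = c j → θ i (ρ i n) = θ j (ρ j n) := by
      intro n
      constructor
      · intro hn i j hij
        exact (hθ i ⟨n, hn⟩).trans (hij ▸ (hθ j ⟨n, hn⟩).symm)
      · intro hn
        obtain ⟨x, hx⟩ := H3.exists_forall_eq_of_ker_ne hTna ψ hψ (Finset.univ.filter fun i => c i = i)
          (fun i hi j hj h => by
            rw [← (Finset.mem_filter.1 hi).2, ← (Finset.mem_filter.1 hj).2]
            exact (hc2 _ _).2 h) (fun i => θ i (ρ i n))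
        have : (x : N)⁻¹ * n = 1 := hsep _ fun i => by
          rw [map_mul, map_inv, inv_mul_eq_one]
          apply (θ i).injective
          rw [← hn _ _ (hc3 i), ← hx (c i) (by simp [hc3])]
          exact hθ i x
        rw [← inv_mul_eq_one.1 this]
        exact x.2
    refine ⟨T, inferInstance, m, e, hT, hTna, hm, Or.inr ⟨Nat.card {l // c l = c i0},
      fun j => eqv.symm (c (eqv j)), ?_, fun j => ?_, fun n => ?_⟩⟩
    · by_contra hlt
      apply hXne
      intro n
      rw [hiff]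
      intro i j hij
      have h1 : Nat.card {l // c l = c i} ≤ 1 := (hle i i0).trans (by omega)
      have h2 := Finite.card_le_one_iff_subsingleton.1 h1
      have h3 : i = j := congrArg Subtype.val (h2.elim ⟨i, rfl⟩ ⟨j, hij.symm⟩)
      rw [h3]
    · by_cases hj : ∃ l, c l = eqv j
      · left
        obtain ⟨l, hl⟩ := hj
        rw [← le_antisymm (hle l i0) (hle i0 l)]
        refine Nat.card_congr (eqv.subtypeEquiv fun i => ?_)
        rw [Equiv.symm_apply_eq, hl]
      · right
        rw [Nat.card_eq_zero]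
        exact Or.inl ⟨fun i => hj ⟨_, eqv.symm_apply_eq.1 i.2⟩⟩
    · rw [hiff]
      simp only [he, EmbeddingLike.apply_eq_iff_eq]
      exact ⟨fun h i j => h _ _, fun h i j hij => by
        simpa using h (eqv.symm i) (eqv.symm j) (by simpa using hij)⟩

end Cfsg.Agent.S0723
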