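import Cfsg.Statements.S0725
import Cfsg.Agent.H7.Ch.PS
import Cfsg.Agent.H1.Ch.Bd2
import Cfsg.Agent.H4.Ch.Sm
import Cfsg.Agent.H4.Ch.Br
import Cfsg.Agent.H5.Ch.P2
import Cfsg.Agent.H6.Ch.NU
import Cfsg.Agent.H8.Ch.Pot2
import Cfsg.Agent.H9.Ch.NI

set_option autoImplicit false
open Cfsg

namespace Cfsg.Agent.S0725

theorem inp : H7.Ch.Inp where
  dm h2 _ _ uv := H1.Ch.dmin' h2 uv le_rfl
  sy h2 h md := H4.Ch.sylm h2 (H1.Ch.dm h2 h) md
  p1 d h := H8.Pot.pot1 d h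
  ln d l d0 h h2 hl := H5.Ch.lineL h2 d d0 h l hl
  p2 h2 h h0 h1 := H8.Pot.potS h2 _ _ h h0 h1
  bl α h2 hm np := by
    obtain ⟨a, b, a2, b2, ab, k1, k2, k3, k4⟩ := H4.Ch.blk' h2 hm α np
    exact ⟨a, b, a2, b2, ab, k1, fun μ e c _ => k2 μ e c, fun j hj => k3 j hj.le, k4⟩

/-- The Praeger–Saxl bound: a primitive permutation group of degree `n` not containing the alternating group has order at most `4 ^ n`. -/
theorem result {α : Type*} [Fintype α] [DecidableEq α] (G : Subgroup (Equiv.Perm α)) (hG : MulAction.IsPreprimitive G α) (hA : ¬ alternatingGroup α ≤ G) : Nat.card G ≤ 4 ^ Fintype.card α := by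
  exact H7.Ch.ps inp H6.Ch.numU H9.Ch.numI G hG hA

end Cfsg.Agent.S0725
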