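import Cfsg.Statements.S0727
import Cfsg.Agent.H2.Zass1

set_option autoImplicit false
open Cfsg

namespace Cfsg.Agent.S0727

/-- A sharply triply transitive permutation group of degree `2^f + 1` is isomorphic to the projective general linear group of degree 2 over the field with `2^f` elements. -/
theorem result {α : Type*} [Fintype α] [DecidableEq α] {f : ℕ} (hf : 1 ≤ f) (hα : Fintype.card α = 2 ^ f + 1) (G : Subgroup (Equiv.Perm α)) (h3 : MulAction.IsMultiplyPretransitive G α 3) (hsharp : ∀ x : Fin 3 ↪ α, MulAction.stabilizer G x = ⊥) : ∃ (F : Type) (_ : Field F) (_ : Fintype F), Fintype.card F = 2 ^ f ∧ Nonempty (G ≃* Matrix.ProjGenLinGroup (Fin 2) F) := by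
  have hs := (H2.emb3_stab_iff (G := G) (Ω := α)).1 hsharp
  have hn : 2 ≤ 2 ^ f := Nat.le_self_pow (by omega) 2
  have h2 : MulAction.IsMultiplyPretransitive G α 2 :=
    MulAction.isMultiplyPretransitive_of_le (n := 3) (by omega) (by rw [Nat.card_eq_fintype_card]; omega)
  have h2t := (H2.two_trans_iff (G := G) (Ω := α)).1 h2
  obtain ⟨a, b, c, hab, hac, hbc⟩ := Fintype.two_lt_card_iff.1 (show 2 < Fintype.card α by omega)
  obtain ⟨V, _, _, ⟨C⟩⟩ := H2.exists_coord_of_sharp3 h3 hs hab hac hbc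
  haveI := C.finite
  rw [← Nat.card_eq_fintype_card] at hα
  have hV : Nat.card V = 2 ^ f := by have := C.card; omega
  haveI : Nontrivial V := Finite.one_lt_card_iff_nontrivial.1 (by omega)
  have hreg := C.reg_of_three h3 hs
  have hd := H2.card_of_reg hreg
  have h2V : ∀ v : V, v + v = 0 := by
    obtain ⟨w, hw⟩ := exists_prime_addOrderOf_dvd_card' (G := V) 2 (hV ▸ dvd_pow_self 2 (by omega))
    have hw0 : w ≠ 0 := by rintro rfl; simp at hw
    intro v
    by_cases hv : v = 0
    · rw [hv, add_zero]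
    · obtain ⟨g, rfl⟩ := C.trans_of_three h3 w v hw0 hv
      rw [← smul_add, ← two_nsmul, ← hw, addOrderOf_nsmul_eq_zero, smul_zero]
  have e := H2.count_one_fixed h2t {x : G | orderOf x = 2}
    (fun x hx g => ((MulAut.conj g).orderOf_eq x).trans hx) (fun x hx => by
      have hx' : orderOf x = 2 := hx
      have hx1 : x ≠ 1 := by rintro rfl; simp at hx'
      have hle := H2.ncard_fixedBy_le_two hs hx1
      have hmod := H2.card_modEq_fixedBy (Ω := α) Nat.prime_two (g := x) (k := 1)
        (by rw [pow_one, ← hx', pow_orderOf_eq_one])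
      obtain ⟨f, rfl⟩ : ∃ g, f = g + 1 := ⟨f - 1, by omega⟩
      unfold Nat.ModEq at hmod
      rw [hα, pow_succ] at hmod
      omega) hab
  have h4 : Nat.card (H2.St G a b) ≤ {x : G | x ∈ {x : G | orderOf x = 2} ∧ x • a = a}.ncard := by
    rw [← Nat.card_coe_set_eq]
    have := H2.card_ne_add_one (0 : V)
    refine le_trans (by omega) (Nat.card_le_card_of_injective (fun v : {v : V // v ≠ 0} =>
      (⟨C.t v, orderOf_eq_prime (by rw [pow_two, ← C.t_add, h2V, C.t_zero]) (fun h => v.2
        (C.ι_inj (by rw [← C.t_b, h, one_smul, C.ι_zero]))), C.t_a v⟩ :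
          {x : G | x ∈ {x : G | orderOf x = 2} ∧ x • a = a})) ?_)
    intro v w h
    have h' : C.t v = C.t w := congrArg Subtype.val h
    exact Subtype.ext (C.ι_inj (by rw [← C.t_b, h', C.t_b]))
  have h5 := Set.eq_of_subset_of_ncard_le
    (s := {x : G | x ∈ {x : G | orderOf x = 2} ∧ x • a = b})
    (t := {x : G | x • a = b ∧ x • b = a})
    (fun x hx => ⟨hx.2, H2.swap_of_orderOf_two hx.1 hx.2⟩)
    (by rw [H2.ncard_map_pair h2t hab hab.symm, ← e]; exact h4)
  have hsw : ∀ x : G, x • a = b → x • b = a → x * x = 1 := by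
    intro x ha hb
    have h6 : x ∈ {x : G | x • a = b ∧ x • b = a} := ⟨ha, hb⟩
    rw [← h5] at h6
    rw [← pow_two, ← (show orderOf x = 2 from h6.1), pow_orderOf_eq_one]
  obtain ⟨s, hsa, hsb⟩ := h2t a b b a hab hab.symm
  have e' := GaloisField.card 2 f (by omega)
  letI := Fintype.ofFinite (GaloisField 2 f)
  exact ⟨GaloisField 2 f, inferInstance, inferInstance, by rw [← Nat.card_eq_fintype_card, e'],
    C.pgl_of_inverted h3 hsa hsb (fun x hx => H2.inv_of_swaps hsa hsb (hsw s hsa hsb)
      (hsw _ (by rw [mul_smul, hx.1, hsa]) (by rw [mul_smul, hx.2, hsb]))) _ (by rw [e', hα])⟩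

end Cfsg.Agent.S0727
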