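import Cfsg.Statements.S0728
import Cfsg.Agent.H2.Count

set_option autoImplicit false
open Cfsg

namespace Cfsg.Agent.S0728

/-- In a sharply triply transitive group of even degree at least 6 (degree `q + 1`, `q` odd), a two-point stabiliser has at most one subgroup of order 3. -/
theorem result {α : Type*} [Fintype α] [DecidableEq α] (heven : Even (Fintype.card α)) (h6 : 6 ≤ Fintype.card α) (G : Subgroup (Equiv.Perm α)) (h3 : MulAction.IsMultiplyPretransitive G α 3) (hsharp : ∀ x : Fin 3 ↪ α, MulAction.stabilizer G x = ⊥) {a b : α} (hab : a ≠ b) (A B : Subgroup G) (hA : A ≤ MulAction.stabilizer G a ⊓ MulAction.stabilizer G b) (hB : B ≤ MulAction.stabilizer G a ⊓ MulAction.stabilizer G b) (hA3 : Nat.card A = 3) (hB3 : Nat.card B = 3) : A = B := by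
  have h3t := (H2.three_trans_iff (G := G) (Ω := α)).1 h3
  have hs := (H2.emb3_stab_iff (G := G) (Ω := α)).1 hsharp
  have h2 : MulAction.IsMultiplyPretransitive G α 2 :=
    MulAction.isMultiplyPretransitive_of_le (n := 3) (by omega) (by rw [Nat.card_eq_fintype_card]; omega)
  have h2t := (H2.two_trans_iff (G := G) (Ω := α)).1 h2
  have e := H2.count_two_fixed h2t {x : G | orderOf x = 3 ∧ (MulAction.fixedBy α x).ncard = 2}
    (fun x hx g => ⟨by rw [← hx.1]; exact (MulAut.conj g).orderOf_eq x,
      by rw [H2.ncard_fixedBy_conj]; exact hx.2⟩) (fun x hx => hx.2) hab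
  have hm : {x : G | x ∈ {x : G | orderOf x = 3 ∧ (MulAction.fixedBy α x).ncard = 2} ∧ x • a = b}.ncard
      ≤ Nat.card α - 2 := by
    have : Nat.card α - 2 = ({a, b}ᶜ : Set α).ncard := by
      rw [Set.ncard_compl, Set.ncard_pair hab]
    rw [this]
    have hcube : ∀ x : G, orderOf x = 3 → ∀ y : α, x • x • x • y = y := by
      intro x hx y
      rw [← mul_smul, ← mul_smul, ← pow_three', ← hx, pow_orderOf_eq_one, one_smul]
    have hmem : ∀ x : G, orderOf x = 3 → x • a = b → x • b ≠ a ∧ x • b ≠ b := by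
      intro x hx hxa
      constructor
      · intro h
        have := hcube x hx a
        rw [hxa, h, hxa] at this
        exact hab this.symm
      · intro h
        exact hab ((smul_left_cancel_iff x).1 (hxa.trans h.symm))
    apply Set.ncard_le_ncard_of_injOn (fun x => x • b)
    · rintro x ⟨⟨hx, -⟩, hxa⟩
      simpa using hmem x hx hxa
    · rintro x ⟨⟨hx, -⟩, hxa⟩ y ⟨⟨hy, -⟩, hya⟩ hxy
      simp only at hxy
      have h1 := hcube x hx a
      have h2 := hcube y hy a
      rw [hxa] at h1
      rw [hya, ← hxy] at h2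
      have := hs (y⁻¹ * x) a b (x • b) hab (hmem x hx hxa).2.symm (hmem x hx hxa).1.symm
        (by rw [mul_smul, hxa, inv_smul_eq_iff, hya]) (by rw [mul_smul, hxy, inv_smul_smul])
        (by rw [mul_smul, h1, inv_smul_eq_iff, h2])
      exact (inv_mul_eq_one.1 this).symm
  have hk : {x : G | x ∈ {x : G | orderOf x = 3 ∧ (MulAction.fixedBy α x).ncard = 2} ∧
      x • a = a ∧ x • b = b}.ncard ≤ 2 := by
    have hn : 0 < Nat.card α - 2 := by rw [Nat.card_eq_fintype_card]; omega
    apply Nat.le_of_mul_le_mul_right _ hn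
    rw [e]
    omega
  have hsub : ∀ C : Subgroup G, C ≤ MulAction.stabilizer G a ⊓ MulAction.stabilizer G b →
      Nat.card C = 3 → (C : Set G) \ {1} = {x : G | x ∈ {x : G | orderOf x = 3 ∧
        (MulAction.fixedBy α x).ncard = 2} ∧ x • a = a ∧ x • b = b} := by
    intro C hC hC3
    apply Set.eq_of_subset_of_ncard_le _ _ (Set.toFinite _)
    · rintro x ⟨hx, hx1⟩
      have hx1' : x ≠ 1 := hx1
      refine ⟨⟨?_, H2.ncard_fixedBy_eq_two hs hx1' hab (hC hx).1 (hC hx).2⟩, (hC hx).1, (hC hx).2⟩
      have := Subgroup.orderOf_dvd_natCard C hx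
      rw [hC3] at this
      rcases (Nat.dvd_prime Nat.prime_three).1 this with h | h
      · exact absurd (orderOf_eq_one_iff.1 h) hx1'
      · exact h
    · rw [Set.ncard_diff_singleton_of_mem C.one_mem]
      have : (C : Set G).ncard = 3 := by rw [← Nat.card_coe_set_eq]; exact hC3
      rw [this]
      exact hk
  have := (hsub A hA hA3).trans (hsub B hB hB3).symm
  ext x
  by_cases hx : x = 1
  · simp [hx]
  · have h := Set.ext_iff.1 this x
    simpa [hx] using h

end Cfsg.Agent.S0728
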