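import Cfsg.Statements.S0729
import Cfsg.Agent.H2.Zass6
import Cfsg.Agent.S0728

set_option autoImplicit false
open Cfsg

namespace Cfsg.Agent.S0729

/-- In a sharply triply transitive group of even degree at least 6, the two-point stabiliser `H = G_{a,b}` has a normal subgroup of index 2 that is normalised by the element `s` interchanging `a, b` and fixing a third point `c`. -/
theorem result {α : Type*} [Fintype α] [DecidableEq α] (heven : Even (Fintype.card α)) (h6 : 6 ≤ Fintype.card α) (G : Subgroup (Equiv.Perm α)) (h3 : MulAction.IsMultiplyPretransitive G α 3) (hsharp : ∀ x : Fin 3 ↪ α, MulAction.stabilizer G x = ⊥) {a b c : α} (hab : a ≠ b) (hac : a ≠ c) (hbc : b ≠ c) (s : G) (hsa : s • a = b) (hsb : s • b = a) (hsc : s • c = c) : ∃ N : Subgroup G, N ≤ MulAction.stabilizer G a ⊓ MulAction.stabilizer G b ∧ (N.subgroupOf (MulAction.stabilizer G a ⊓ MulAction.stabilizer G b)).Normal ∧ N.relIndex (MulAction.stabilizer G a ⊓ MulAction.stabilizer G b) =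 2 ∧ ∀ n ∈ N, s * n * s⁻¹ ∈ N := by
  have hs := (H2.emb3_stab_iff (G := G) (Ω := α)).1 hsharp
  obtain ⟨V, _, _, ⟨C⟩⟩ := H2.exists_coord_of_sharp3 h3 hs hab hac hbc
  haveI := C.finite
  have hV := C.card
  have he : Even (Nat.card α) := by rwa [Nat.card_eq_fintype_card]
  have h6' : 6 ≤ Nat.card α := by rwa [Nat.card_eq_fintype_card]
  haveI : Nontrivial V := Finite.one_lt_card_iff_nontrivial.1 (by omega)
  have hreg := C.reg_of_three h3 hs
  have hd := H2.card_of_reg hreg
  obtain ⟨χ, x, hx⟩ := H2.exists_sign_of_nearfield hreg (fun A B hA hB =>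
    Subgroup.map_injective (H2.St G a b).subtype_injective (S0728.result heven h6 G h3 hsharp hab _ _
      (Subgroup.map_subtype_le A) (Subgroup.map_subtype_le B) (by rw [Subgroup.card_subtype, hA])
      (by rw [Subgroup.card_subtype, hB]))) (fun P hP => by
    obtain ⟨x, hx, hx1⟩ := H2.exists_odd_of_cyclic hs hab (by omega) (by
      obtain ⟨k, hk⟩ := he
      exact ⟨k - 1, by omega⟩) P hP
    exact ⟨(Equiv.Perm.sign.comp (MulAction.toPermHom G α)).comp (H2.St G a b).subtype, ⟨x, hx⟩, hx1⟩)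
  have hsT : s ∈ H2.St2 G a b := Or.inr ⟨hsa, hsb⟩
  let σ : H2.St G a b →* H2.St G a b := MonoidHom.mk' (fun h => ⟨_, H2.conj_mem_St hsT h.2⟩)
    (fun x y => Subtype.ext (by simp))
  have hs2 : s * s = 1 := hs _ a b c hab hbc hac (by rw [mul_smul, hsa, hsb])
    (by rw [mul_smul, hsb, hsa]) (by rw [mul_smul, hsc, hsc])
  have hσ : ∀ h, σ (σ h) = h := fun h => Subtype.ext (by
    calc s * (s * h * s⁻¹) * s⁻¹ = (s * s) * h * (s * s)⁻¹ := by group
      _ = h := by rw [hs2]; group)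
  obtain ⟨ψ, h1, y, hy⟩ : ∃ ψ : H2.St G a b →* ℤˣ, (∀ h, ψ (σ h) = ψ h) ∧ ∃ y, ψ y ≠ 1 := by
    by_cases h : ∀ h, χ (σ h) = χ h
    · exact ⟨χ, h, x, hx⟩
    · push Not at h
      obtain ⟨y, hy⟩ := h
      refine ⟨χ * χ.comp σ, fun h => ?_, y, fun e => hy ?_⟩
      · simp only [MonoidHom.mul_apply, MonoidHom.comp_apply, hσ, mul_comm]
      · exact (eq_inv_of_mul_eq_one_right e).trans (Int.units_inv_eq_self _)
  have h4 : (ψ.ker.map (H2.St G a b).subtype).subgroupOf (H2.St G a b) = ψ.ker :=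
    Subgroup.comap_map_eq_self_of_injective (H2.St G a b).subtype_injective _
  refine ⟨ψ.ker.map (H2.St G a b).subtype, Subgroup.map_subtype_le _, by rw [h4]; infer_instance,
    by rw [Subgroup.relIndex, h4]; exact H2.index_ker_eq_two ψ hy, ?_⟩
  rintro _ ⟨n, hn, rfl⟩
  exact ⟨σ n, (h1 n).trans hn, rfl⟩

end Cfsg.Agent.S0729
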