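import Cfsg.Statements.S0731
import Cfsg.Agent.H2.Zass3

set_option autoImplicit false
open Cfsg

namespace Cfsg.Agent.S0731

/-- A finite Zassenhaus group whose point stabiliser has an abelian regular normal subgroup on the remaining points is sharply triply transitive or isomorphic to `PSL(2, F)` for a finite field `F` of odd characteristic. -/
theorem result {G Ω : Type*} [Group G] [Finite G] [MulAction G Ω] [Finite Ω] (hZ : Cfsg.IsZassenhausGroup G Ω) (x : Ω) (F : Subgroup G) (hFle : F ≤ MulAction.stabilizer G x) (hFn : (F.subgroupOf (MulAction.stabilizer G x)).Normal) (hFab : IsMulCommutative F) (hreg : ∀ y z : Ω, y ≠ x → z ≠ x → ∃! u : F, (u : G) • y = z) : (MulAction.IsMultiplyPretransitive G Ω 3 ∧ ∀ t : Fin 3 ↪ Ω, MulAction.stabilizer G t = ⊥) ∨ ∃ (K : Type) (_ : Field K) (_ : Fintype K), ringChar K ≠ 2 ∧ Nonempty (G ≃* Matrix.ProjectiveSpecialLinearGroup (Fin 2) K) := by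
  obtain ⟨hF, h2, h3, h4, h5⟩ := hZ
  have h2' := H2.two_trans_iff.1 h2
  obtain ⟨b, hb⟩ : ∃ b, x ≠ b := by
    obtain ⟨-, -, a, b, hab, -⟩ := h4
    by_cases h : x = a
    · exact ⟨b, h ▸ hab⟩
    · exact ⟨a, h⟩
  obtain ⟨V, _, _, C, -⟩ := H2.exists_coord hb F hFle (H2.conj_mem_of_normal_subgroupOf hFle hFn)
    (fun x hx y hy => congrArg Subtype.val (hFab.is_comm.comm ⟨x, hx⟩ ⟨y, hy⟩)) hreg
  obtain ⟨g, hg, hg1⟩ := H2.exists_St_ne_one h2' h4 hb
  haveI := C.nontrivial_of hg hg1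
  rcases C.dichotomy h2' h3 h5 with h | ⟨-, ⟨p, f, hp, hp2, hf, hc⟩, hK⟩
  · exact Or.inl ⟨h, H2.emb3_stab_iff.2 h3⟩
  · haveI := Fact.mk hp
    refine Or.inr ⟨GaloisField p f, inferInstance, Fintype.ofFinite _, ?_,
      hK _ (by rw [GaloisField.card p f hf.ne', hc])⟩
    rwa [ringChar.eq (GaloisField p f) p]

end Cfsg.Agent.S0731
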