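import Cfsg.Statements.S0733
import Cfsg.Agent.H3.Basic

set_option autoImplicit false
open Cfsg

namespace Cfsg.Agent.S0733



/-- A permutation group of affine type — generated by the translations of a finite vector space `V` over `ZMod p` together with a group `G₀` of linear automorphisms — is primitive on `V` if and only if `G₀` is irreducible on `V`. -/
theorem result {p : ℕ} [Fact p.Prime] {V : Type*} [AddCommGroup V] [Module (ZMod p) V] [Finite V] [Nontrivial V] (G₀ : Subgroup (V ≃ₗ[ZMod p] V)) (G : Subgroup (Equiv.Perm V)) (hG : ∀ σ : Equiv.Perm V, σ ∈ G ↔ ∃ g ∈ G₀, ∃ b : V, ∀ x : V, σ x = (g : V ≃ₗ[ZMod p] V) x + b) : MulAction.IsPreprimitive G V ↔ ∀ W : Submodule (ZMod p) V, (∀ g ∈ G₀, ∀ v ∈ W, (g : V ≃ₗ[ZMod p] V) v ∈ W) → W = ⊥ ∨ W = ⊤ := by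
  have htr : ∀ b : V, Equiv.addRight b ∈ G := fun b => (hG _).2 ⟨1, G₀.one_mem, b, fun x => rfl⟩
  have hlin : ∀ g ∈ G₀, (g : V ≃ₗ[ZMod p] V).toEquiv ∈ G :=
    fun g hg => (hG _).2 ⟨g, hg, 0, fun x => by simp⟩
  have : MulAction.IsPretransitive G V := ⟨fun x y => ⟨⟨_, htr (-x + y)⟩, by
    change x + (-x + y) = y
    simp⟩⟩
  constructor
  · intro hprim W hW
    by_cases hb : W = ⊥
    · exact Or.inl hb
    right
    obtain ⟨w, hw, hw0⟩ := (Submodule.ne_bot_iff W).1 hb
    rw [Submodule.eq_top_iff']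
    refine H3.prim_block hprim (B := (W : Set V)) ?_ hw W.zero_mem hw0
    rintro ⟨σ, hσ⟩ a ha hga y hy
    obtain ⟨g, hg, b, hσ'⟩ := (hG σ).1 hσ
    change σ a ∈ W at hga
    change σ y ∈ W
    rw [hσ'] at hga ⊢
    have hb : b ∈ W := by
      have := W.sub_mem hga (hW g hg a ha)
      simpa using this
    exact W.add_mem (hW g hg y hy) hb
  · intro h
    refine MulAction.IsPreprimitive.of_isTrivialBlock_base (0 : V) ?_
    intro B h0 hB
    have hadd : ∀ a ∈ B, ∀ b ∈ B, a + b ∈ B := by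
      intro a ha b hb
      exact H3.IsBlock_mem hB (g := ⟨_, htr b⟩) h0 (by
        change 0 + b ∈ B
        simpa using hb) ha
    have hneg : ∀ a ∈ B, -a ∈ B := by
      intro a ha
      have := H3.IsBlock_mem hB (g := ⟨_, htr (-a)⟩) ha (by
        change a + -a ∈ B
        simpa using h0) h0
      change 0 + -a ∈ B at this
      simpa using this
    let A : AddSubgroup V := ⟨⟨⟨B, fun {a b} ha hb => hadd a ha b hb⟩, h0⟩, fun {a} ha => hneg a ha⟩
    let W : Submodule (ZMod p) V := AddSubgroup.toZModSubmodule p A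
    have hWB : ∀ v, v ∈ W ↔ v ∈ B := fun v => Iff.rfl
    rcases h W (fun g hg v hv => by
      rw [hWB] at hv ⊢
      exact H3.IsBlock_mem hB (g := ⟨_, hlin g hg⟩) h0 (by
        change (g : V ≃ₗ[ZMod p] V) 0 ∈ B
        simpa using h0) hv) with h1 | h1
    · left
      intro a ha b hb
      rw [← hWB, h1, Submodule.mem_bot] at ha hb
      rw [ha, hb]
    · right
      rw [Set.eq_univ_iff_forall]
      intro v
      rw [← hWB, h1]; trivial

end Cfsg.Agent.S0733
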