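import Cfsg.Statements.S0734
import Cfsg.Agent.H3.Basic

set_option autoImplicit false
open Cfsg

namespace Cfsg.Agent.S0734



/-- Higman's criterion for primitivity: a transitive action on a finite set is primitive if and only if every non-trivial orbital graph (edges = images of a fixed pair of distinct points) is connected. -/
theorem result {G : Type*} [Group G] {Ω : Type*} [Finite Ω] [MulAction G Ω] [MulAction.IsPretransitive G Ω] [Nontrivial Ω] : MulAction.IsPreprimitive G Ω ↔ ∀ a b : Ω, a ≠ b → (SimpleGraph.fromRel fun x y : Ω => ∃ g : G, g • a = x ∧ g • b = y).Connected := by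
  constructor
  · intro hG a b hab
    refine @SimpleGraph.Connected.mk _ _ (fun x y => ?_) ⟨a⟩
    set Γ := (SimpleGraph.fromRel fun x y : Ω => ∃ g : G, g • a = x ∧ g • b = y) with hΓ
    refine H3.prim_rel hG Γ.Reachable ⟨SimpleGraph.Reachable.refl, SimpleGraph.Reachable.symm,
      SimpleGraph.Reachable.trans⟩ (fun g x y hxy => ?_) hab ?_ x y
    · let φ : Γ →g Γ := ⟨fun x => g • x, by
        intro x y hxy
        simp only [hΓ, SimpleGraph.fromRel_adj] at hxy ⊢
        refine ⟨fun h => hxy.1 (smul_left_cancel _ h), ?_⟩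
        rcases hxy.2 with ⟨h, rfl, rfl⟩ | ⟨h, rfl, rfl⟩
        · exact Or.inl ⟨g * h, mul_smul _ _ _, mul_smul _ _ _⟩
        · exact Or.inr ⟨g * h, mul_smul _ _ _, mul_smul _ _ _⟩⟩
      exact hxy.map φ
    · apply SimpleGraph.Adj.reachable
      simp only [hΓ, SimpleGraph.fromRel_adj]
      exact ⟨hab, Or.inl ⟨1, one_smul _ _, one_smul _ _⟩⟩
  · intro h
    apply H3.prim_of_block
    intro B hB a ha b hb hab x
    have hr := (h a b hab).preconnected a x
    rw [SimpleGraph.reachable_iff_reflTransGen] at hr
    induction hr with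
    | refl => exact ha
    | tail _ hyz ih =>
      simp only [SimpleGraph.fromRel_adj] at hyz
      rcases hyz.2 with ⟨g, rfl, rfl⟩ | ⟨g, rfl, rfl⟩
      · exact hB g a ha ih b hb
      · exact hB g b hb ih a ha

end Cfsg.Agent.S0734
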