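import Cfsg.Statements.S0735
import Cfsg.Agent.H3.Homog

set_option autoImplicit false
open Cfsg

namespace Cfsg.Agent.S0735



/-- A 2-homogeneous permutation group (transitive on 2-subsets) of even order is doubly transitive; a non-trivial 2-homogeneous group is primitive. -/
theorem result {α : Type*} [Fintype α] [DecidableEq α] (G : Subgroup (Equiv.Perm α)) (h2 : MulAction.IsPretransitive G (Set.powersetCard α 2)) (hα : 3 ≤ Fintype.card α) : (Even (Nat.card G) → MulAction.IsMultiplyPretransitive G α 2) ∧ (G ≠ ⊥ → MulAction.IsPreprimitive G α) := by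
  refine ⟨fun hev => ?_, fun _ => H3.prim_of_two_homog h2 (by rwa [Nat.card_eq_fintype_card])⟩
  have : Fact (Nat.Prime 2) := ⟨Nat.prime_two⟩
  obtain ⟨t, ht⟩ := exists_prime_orderOf_dvd_card' (G := G) 2 hev.two_dvd
  have ht1 : t ≠ 1 := by rintro rfl; simp at ht
  have ht2 : t * t = 1 := by rw [← pow_two, ← ht, pow_orderOf_eq_one]
  obtain ⟨x, hx⟩ : ∃ x : α, t • x ≠ x := by
    by_contra hcon
    push Not at hcon
    exact ht1 (by ext x; exact hcon x)
  exact H3.two_trans_of_two_homog_of_swap h2 hx (by rw [← mul_smul, ht2, one_smul])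

end Cfsg.Agent.S0735
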