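import Cfsg.Statements.S0739
import Cfsg.Agent.H2.Zass3
import Cfsg.Agent.H2.Frob

set_option autoImplicit false
open Cfsg

namespace Cfsg.Agent.S0739

/-- In a finite Zassenhaus group whose two-point stabiliser `H = G_{a,b}` has odd order `d`, and which has no normal `q`-complement for any prime `q ∣ d`, `H` is cyclic, `C_G(H) = H`, and every element swapping `a` and `b` inverts each element of `H`. -/
theorem result {G Ω : Type*} [Group G] [Finite G] [MulAction G Ω] [Fintype Ω] (hZ : Cfsg.IsZassenhausGroup G Ω) {a b : Ω} (hab : a ≠ b) (hodd : Odd (Nat.card ↥(MulAction.stabilizer G a ⊓ MulAction.stabilizer G b))) (hnil : ∀ q : ℕ, q.Prime → q ∣ Nat.card ↥(MulAction.stabilizer G a ⊓ MulAction.stabilizer G b) → ¬ ∃ N : Subgroup G, N.Normal ∧ N.index = q ^ (Nat.card G).factorization q) : IsCyclic ↥(MulAction.stabilizer G a ⊓ MulAction.stabilizer G b) ∧ Subgroup.centralizer ((MulAction.stabilizer G a ⊓ MulAction.stabilizer G b : Subgroup G) : Set G) = MulAction.stabilizer G a ⊓ MulAction.stabilizer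 G b ∧ ∀ s : G, s • a = b → s • b = a → ∀ h ∈ MulAction.stabilizer G a ⊓ MulAction.stabilizer G b, s * h * s⁻¹ = h⁻¹ := by
  obtain ⟨hF, h2, h3, h4, -⟩ := hZ
  have h2' := H2.two_trans_iff.1 h2
  obtain ⟨g, hg, hg1⟩ := H2.exists_St_ne_one h2' h4 hab
  haveI : MulAction.IsPretransitive (MulAction.stabilizer G a) (SubMulAction.ofStabilizer G a) :=
    ⟨fun x y => by
      obtain ⟨g, h1, h2⟩ := h2' a x a y (Ne.symm x.2) (Ne.symm y.2)
      exact ⟨⟨g, h1⟩, Subtype.ext h2⟩⟩
  have hs : ∀ (g : MulAction.stabilizer G a) (x y : SubMulAction.ofStabilizer G a), x ≠ y →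
      g • x = x → g • y = y → g = 1 := fun g x y hxy hx hy => Subtype.ext (h3 g a x y
      (Ne.symm x.2) (fun e => hxy (Subtype.ext e)) (Ne.symm y.2) g.2 (congrArg Subtype.val hx)
      (congrArg Subtype.val hy))
  obtain ⟨F, hFm⟩ := H2.frobenius_kernel hs
  haveI := H2.normal_of_fpf hFm
  haveI : Nontrivial F := by
    obtain ⟨c, hc⟩ : ∃ c : Ω, g • c ≠ c := by
      by_contra h
      push Not at h
      exact hg1 (eq_of_smul_eq_smul fun y : Ω => by rw [h, one_smul])
    haveI : Nontrivial (SubMulAction.ofStabilizer G a) :=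
      ⟨⟨b, hab.symm⟩, ⟨c, by rintro rfl; exact hc hg.1⟩, fun e => hc (by
        rw [← show b = c from congrArg Subtype.val e]; exact hg.2)⟩
    have h5 := H2.card_fpf hs
    have h6 := Finite.one_lt_card (α := SubMulAction.ofStabilizer G a)
    obtain ⟨⟨k, hk⟩⟩ := (Nat.card_pos_iff.1 (by omega : 0 < Nat.card {g : MulAction.stabilizer G a //
      ∀ x : SubMulAction.ofStabilizer G a, g • x ≠ x})).1
    exact ⟨⟨k, (hFm k).2 (Or.inr hk)⟩, 1, fun e => hk ⟨b, hab.symm⟩ (by
      rw [show k = 1 from congrArg Subtype.val e, one_smul])⟩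
  let c : H2.St G a b →* MulAut F := MulAut.conjNormal.comp (Subgroup.inclusion inf_le_left)
  have hc : ∀ (h : H2.St G a b) (k : F), c h k = k → h = 1 ∨ k = 1 := by
    intro h k e
    refine or_iff_not_imp_right.2 fun hk => ?_
    have e' : (h : G) * k.1.1 * (h : G)⁻¹ = k.1.1 := congrArg (fun x : F => x.1.1) e
    have h5 := ((hFm k).1 k.2).resolve_left (fun e => hk (Subtype.ext e)) ⟨b, hab.symm⟩
    refine Subtype.ext (h3 h a b (k.1.1 • b) hab (fun e => h5 (Subtype.ext e.symm))
      (Ne.symm (k.1 • (⟨b, hab.symm⟩ : SubMulAction.ofStabilizer G a)).2) h.2.1 h.2.2 ?_)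
    rw [← mul_smul, mul_inv_eq_iff_eq_mul.1 e', mul_smul, show (h : G) • b = b from h.2.2]
  have hci : Function.Injective c := by
    rw [injective_iff_map_eq_one]
    intro h e
    obtain ⟨k, hk⟩ := exists_ne (1 : F)
    exact (hc h k (by rw [e]; rfl)).resolve_right hk
  haveI : IsZGroup (H2.St G a b) := ⟨fun p hp P => by
    haveI := Fact.mk hp
    by_cases hp2 : p = 2
    · subst hp2
      haveI : Subsingleton P := (Nat.card_eq_one_iff_unique.1 (by
        rw [P.card_eq_multiplicity, Nat.factorization_eq_zero_of_not_dvd hodd.not_two_dvd_nat,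
          pow_zero])).1
      infer_instance
    · have h5 := P.isPGroup'.map c
      haveI := H2.isCyclic_of_noPP_odd h5 (H2.noPP_of_aut _ (by
        rintro _ ⟨h, -, rfl⟩ h1 k e
        exact (hc h k e).resolve_left (by rintro rfl; exact h1 (map_one c))) h5) hp2
      exact isCyclic_of_surjective _ (Subgroup.equivMapOfInjective _ c hci).symm.surjective⟩
  obtain ⟨h5, h6⟩ := H2.odd_cyclic_inverted h3 hab hodd hnil
  refine ⟨h5, le_antisymm (fun x hx => ?_) (fun x hx y hy =>
    (H2.isMulCommutative_iff' _).1 IsCyclic.isMulCommutative y hy x hx), h6⟩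
  rcases H2.mem_St2_of_conj h3 hab hg hg1 (g := x) (by rwa [← hx g hg, mul_inv_cancel_right]) with h | h
  · exact h
  · have := h6 x h.1 h.2 g hg
    rw [← hx g hg, mul_inv_cancel_right] at this
    exact absurd (congrArg Subtype.val (H2.eq_one_of_sq_of_odd hodd (x := ⟨g, hg⟩)
      (Subtype.ext (by rw [pow_two]; exact mul_eq_one_iff_eq_inv.2 this)))) hg1

end Cfsg.Agent.S0739
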