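import Cfsg.Statements.S0740
import Cfsg.Agent.H2.Count

set_option autoImplicit false
open Cfsg

namespace Cfsg.Agent.S0740

/-- In a finite Zassenhaus group any two points `a ≠ b` are swapped by an involution; every such involution has exactly one fixed point when the degree is odd and 0 or 2 fixed points when the degree is even; and if the two-point stabiliser has even order, some such involution has exactly 2 fixed points. -/
theorem result {G Ω : Type*} [Group G] [Finite G] [MulAction G Ω] [Fintype Ω] (hZ : Cfsg.IsZassenhausGroup G Ω) {a b : Ω} (hab : a ≠ b) : (∃ s : G, orderOf s = 2 ∧ s • a = b ∧ s • b = a) ∧ (∀ s : G, orderOf s = 2 → s • a = b → s • b = a → (Odd (Fintype.card Ω) → Nat.card (MulAction.fixedBy Ω s) = 1) ∧ (Even (Fintype.card Ω) → Nat.card (MulAction.fixedBy Ω s) = 0 ∨ Nat.card (MulAction.fixedBy Ω s) = 2)) ∧ (Even (Fintype.card Ω) → Even (Nat.card ↥(MulAction.stabilizer G a ⊓ MulAction.stabilizer G b)) → ∃ s : G, orderOf s = 2 ∧ s • a = b ∧ s • b = a ∧ Nat.card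 (MulAction.fixedBy Ω s) = 2) := by
  obtain ⟨hF, h2, h3, -, -⟩ := hZ
  have h2' := H2.two_trans_iff.1 h2
  refine ⟨?_, ?_, ?_⟩
  · have hc := H2.card_eq_two_trans h2' hab
    have he : 2 ∣ Nat.card G := by
      rw [hc, ← mul_assoc]
      exact (Nat.even_mul_pred_self _).two_dvd.mul_right _
    obtain ⟨t, ht⟩ := exists_prime_orderOf_dvd_card' (G := G) 2 he
    obtain ⟨g, h1, h2⟩ := H2.exists_conj_swap h2' ht hab
    exact ⟨_, by rw [← ht]; exact (MulAut.conj g).orderOf_eq t, h1, h2⟩
  · intro s hs _ _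
    have hs1 : s ≠ 1 := by rintro rfl; simp at hs
    have hle := H2.ncard_fixedBy_le_two h3 hs1
    have hmod := H2.card_modEq_fixedBy (Ω := Ω) Nat.prime_two (g := s) (k := 1)
      (by rw [pow_one, ← hs, pow_orderOf_eq_one])
    rw [Nat.card_eq_fintype_card] at hmod
    rw [Nat.card_coe_set_eq]
    unfold Nat.ModEq at hmod
    refine ⟨fun h => ?_, fun h => ?_⟩
    · rw [Nat.odd_iff] at h; omega
    · rw [Nat.even_iff] at h; omega
  · intro _ heven
    obtain ⟨t, ht⟩ := exists_prime_orderOf_dvd_card'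
      (G := ↥(MulAction.stabilizer G a ⊓ MulAction.stabilizer G b)) 2 heven.two_dvd
    have ht' : orderOf (t : G) = 2 := by rw [← ht]; exact Subgroup.orderOf_coe t
    have ht1 : (t : G) ≠ 1 := by intro h; rw [h] at ht'; simp at ht'
    obtain ⟨g, h1, h2⟩ := H2.exists_conj_swap h2' ht' hab
    refine ⟨_, by rw [← ht']; exact (MulAut.conj g).orderOf_eq (t : G), h1, h2, ?_⟩
    rw [Nat.card_coe_set_eq, H2.ncard_fixedBy_conj]
    exact H2.ncard_fixedBy_eq_two h3 ht1 hab t.2.1 t.2.2

end Cfsg.Agent.S0740
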