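import Cfsg.Statements.S0741
import Cfsg.Agent.H2.Count

set_option autoImplicit false
open Cfsg

namespace Cfsg.Agent.S0741

/-- If the two-point stabilisers of a finite Zassenhaus group of degree `n + 1` have even order `d`, then `2d ≥ n - 1`. -/
theorem result {G Ω : Type*} [Group G] [Finite G] [MulAction G Ω] [Fintype Ω] (hZ : Cfsg.IsZassenhausGroup G Ω) {a b : Ω} (hab : a ≠ b) (heven : Even (Nat.card ↥(MulAction.stabilizer G a ⊓ MulAction.stabilizer G b))) : Fintype.card Ω - 2 ≤ 2 * Nat.card ↥(MulAction.stabilizer G a ⊓ MulAction.stabilizer G b) := by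
  obtain ⟨hF, h2, h3, -, -⟩ := hZ
  have h2' := H2.two_trans_iff.1 h2
  have h := H2.even_two_point_bound h2' h3 hab heven
  rw [Nat.card_eq_fintype_card] at h
  refine h.trans (Nat.mul_le_mul_left 2 ?_)
  rw [← H2.ncard_map_pair h2' hab hab.symm]
  apply Set.ncard_le_ncard _ (Set.toFinite _)
  rintro x ⟨⟨hx, -⟩, hxa⟩
  exact ⟨hxa, H2.swap_of_orderOf_two hx hxa⟩

end Cfsg.Agent.S0741
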