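import Cfsg.Statements.S0744
import Cfsg.Agent.H3.ConstOrders

set_option autoImplicit false
open Cfsg

namespace Cfsg.Agent.S0744



/-- If for some `k > 1` the pointwise stabilisers of all `(k-1)`-subsets have the same order `> 1` and those of all `k`-subsets have the same order, then the group is `(k-1)`-transitive. -/
theorem result {α : Type*} [Fintype α] [DecidableEq α] (G : Subgroup (Equiv.Perm α)) {k : ℕ} (hk : 1 < k) (hkn : k ≤ Fintype.card α) (l m : ℕ) (hl : 1 < l) (hkm1 : ∀ s : Finset α, s.card = k - 1 → Nat.card (fixingSubgroup G (s : Set α)) = l) (hkm : ∀ s : Finset α, s.card = k → Nat.card (fixingSubgroup G (s : Set α)) = m) : MulAction.IsMultiplyPretransitive G α (k - 1) := by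
  exact H3.ktrans_of_const_orders hk (by rwa [Nat.card_eq_fintype_card]) l m
    (fun g hg => by ext x; exact hg x) hl hkm1 hkm

end Cfsg.Agent.S0744
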