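import Cfsg.Statements.S1122
import Cfsg.Agent.H4.RankOne

set_option autoImplicit false
open Cfsg

namespace Cfsg.Agent.S1122

/-- In the rank-one set-up (`G` finite and doubly transitive on `Ω`, `t` an involution moving `a`, `Q` normal in `G_a` with `G_a = Q D`, `Q ⊓ D = 1` for the two-point stabiliser `D = G_a ⊓ G_{t • a}`, `|Q|` even, `|D|` odd), with `K` the set of elements of `D` inverted by `t`: `|K|` is the number of involutions of `G_a`, and for each involution `s` of `G_a` the `K`-conjugates of `s` are all the involutions of `G_a`. -/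
theorem result {G Ω : Type*} [Group G] [Finite G] [MulAction G Ω] {a : Ω} {t : G} {Q : Subgroup G}
    (hS : Cfsg.IsRankOneSetup G Ω a t Q) :
    Nat.card (Cfsg.invertedBy (MulAction.stabilizer G a ⊓ MulAction.stabilizer G (t • a)) t) = Nat.card (Cfsg.involutionsIn (MulAction.stabilizer G a : Set G)) ∧
      ∀ s ∈ Cfsg.involutionsIn (MulAction.stabilizer G a : Set G), ∀ s' ∈ Cfsg.involutionsIn (MulAction.stabilizer G a : Set G),
        ∃ k ∈ Cfsg.invertedBy (MulAction.stabilizer G a ⊓ MulAction.stabilizer G (t • a)) t, k⁻¹ * s * k = s' := by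
  constructor
  · obtain ⟨s, hs, hs1, hs2⟩ := H4.RO.exists_invol_Q hS
    have hsa := H4.RO.Q_fix hS hs
    refine Nat.card_congr (Equiv.ofBijective (fun k => ⟨(k : G)⁻¹ * s * k, ?_, ?_, ?_⟩) ⟨?_, ?_⟩)
    · exact hS.le (H4.RO.conj_mem' hS k.2.1.1 hs)
    · intro h; apply hs1
      calc s = k * ((k : G)⁻¹ * s * k) * (k : G)⁻¹ := by group
        _ = 1 := by rw [h]; group
    · calc (k : G)⁻¹ * s * k * ((k : G)⁻¹ * s * k) = (k : G)⁻¹ * (s * s) * k := by group
        _ = 1 := by rw [hs2]; group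
    · rintro ⟨k, hk⟩ ⟨l, hl⟩ h
      exact Subtype.ext (H4.RO.K_inj hS hsa hs1 hs2 hk.1.1 hk.2 hl.2 (congrArg Subtype.val h))
    · rintro ⟨s', h1, h2, h3⟩
      obtain ⟨k, k1, k2, k3, k4⟩ := H4.RO.K_trans hS hsa hs1 hs2 h1 h2 h3
      exact ⟨⟨k, ⟨k1, k2⟩, k3⟩, Subtype.ext k4⟩
  · rintro s ⟨hsa, hs1, hs2⟩ s' ⟨h1, h2, h3⟩
    obtain ⟨k, k1, k2, k3, k4⟩ := H4.RO.K_trans hS hsa hs1 hs2 h1 h2 h3
    exact ⟨k, ⟨⟨k1, k2⟩, k3⟩, k4⟩

end Cfsg.Agent.S1122
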