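import Cfsg.Statements.S1124
import Cfsg.Agent.H4.RankOne

set_option autoImplicit false
open scoped Pointwise
open Cfsg

namespace Cfsg.Agent.S1124

/-- Let `t` be an element of order 2 of a finite group normalising a subgroup `X` of odd order, `Y = C_X(t)` and `Z` the set of elements of `X` inverted by `t`. Then `(y, z) ↦ y z` is a bijection `Y × Z → X`, so `|X| = |Y| |Z|`, and the subgroup generated by `Z` is normal in `X`. -/
theorem result {M : Type*} [Group M] [Finite M]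
    (t : M) (ht : orderOf t = 2) (X : Subgroup M) (hodd : Odd (Nat.card X))
    (hnorm : ∀ x ∈ X, t * x * t⁻¹ ∈ X) :
    (∀ x ∈ X, ∃! p : M × M, p.1 ∈ X ⊓ Subgroup.centralizer {t} ∧ p.2 ∈ Cfsg.invertedBy X t ∧ x = p.1 * p.2) ∧
      Nat.card X = Nat.card ↥(X ⊓ Subgroup.centralizer {t}) * Nat.card (Cfsg.invertedBy X t) ∧
      ∀ x ∈ X, MulAut.conj x • Subgroup.closure (Cfsg.invertedBy X t) = Subgroup.closure (Cfsg.invertedBy X t) := by
  have ht2 : t * t = 1 := by rw [← pow_two, ← ht]; exact pow_orderOf_eq_one t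
  have hc : ∀ y : M, y ∈ Subgroup.centralizer ({t} : Set M) ↔ y * t = t * y := fun y =>
    Subgroup.mem_centralizer_singleton_iff
  have h1 : ∀ x ∈ X, ∃! p : M × M, p.1 ∈ X ⊓ Subgroup.centralizer {t} ∧
      p.2 ∈ Cfsg.invertedBy X t ∧ x = p.1 * p.2 := by
    intro x hx
    obtain ⟨y, z, hy, hyt, hz, hzt, e⟩ := H4.exists_fix_mul_inverted ht2 hodd hnorm hx
    refine ⟨(y, z), ⟨⟨hy, (hc y).2 hyt⟩, ⟨hz, hzt⟩, e⟩, ?_⟩
    rintro ⟨y', z'⟩ ⟨⟨hy', hyt'⟩, ⟨hz', hzt'⟩, e'⟩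
    obtain ⟨rfl, rfl⟩ := H4.fix_mul_inverted_unique hyt ((hc y').1 hyt') hzt hzt'
      (H4.odd_orderOf_of_mem hodd hz) (H4.odd_orderOf_of_mem hodd hz') (e.symm.trans e')
    rfl
  refine ⟨h1, ?_, ?_⟩
  · rw [← Nat.card_prod]
    symm
    refine Nat.card_congr (Equiv.ofBijective (fun p => ⟨(p.1 : M) * (p.2 : M),
      X.mul_mem p.1.2.1 p.2.2.1⟩) ⟨?_, ?_⟩)
    · rintro ⟨⟨y, hy⟩, ⟨z, hz⟩⟩ ⟨⟨y', hy'⟩, ⟨z', hz'⟩⟩ h
      have := (h1 (y * z) (X.mul_mem hy.1 hz.1)).unique (y₁ := (y, z)) (y₂ := (y', z'))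
        ⟨hy, hz, rfl⟩ ⟨hy', hz', congrArg Subtype.val h⟩
      obtain ⟨rfl, rfl⟩ := Prod.mk.inj this
      rfl
    · rintro ⟨x, hx⟩
      obtain ⟨⟨y, z⟩, ⟨hy, hz, rfl⟩, -⟩ := h1 x hx
      exact ⟨⟨⟨y, hy⟩, ⟨z, hz⟩⟩, rfl⟩
  · have h2 : ∀ x ∈ X, ∀ w ∈ Subgroup.closure (Cfsg.invertedBy X t),
        x * w * x⁻¹ ∈ Subgroup.closure (Cfsg.invertedBy X t) := by
      intro x hx w hw
      induction hw using Subgroup.closure_induction with
      | mem w hw =>
        obtain ⟨y, z, hy, hyt, hz, hzt, rfl⟩ := H4.exists_fix_mul_inverted ht2 hodd hnorm hx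
        have key : ∀ u ∈ Cfsg.invertedBy X t, y * u * y⁻¹ ∈
            Subgroup.closure (Cfsg.invertedBy X t) := by
          rintro u ⟨hu, hut⟩
          apply Subgroup.subset_closure
          refine ⟨X.mul_mem (X.mul_mem hy hu) (X.inv_mem hy), ?_⟩
          calc t * (y * u * y⁻¹) * t⁻¹ = (t * y) * u * (t * y)⁻¹ := by group
            _ = y * (t * u * t⁻¹) * y⁻¹ := by rw [← hyt]; group
            _ = (y * u * y⁻¹)⁻¹ := by rw [hut]; group
        have e : y * z * w * (y * z)⁻¹ = (y * z * y⁻¹) * (y * w * y⁻¹) * (y * z * y⁻¹)⁻¹ := by group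
        rw [e]
        exact Subgroup.mul_mem _ (Subgroup.mul_mem _ (key z ⟨hz, hzt⟩) (key w hw))
          (Subgroup.inv_mem _ (key z ⟨hz, hzt⟩))
      | one => simp
      | mul u v _ _ hu hv =>
        have e : x * (u * v) * x⁻¹ = (x * u * x⁻¹) * (x * v * x⁻¹) := by group
        rw [e]; exact Subgroup.mul_mem _ hu hv
      | inv u _ hu =>
        have e : x * u⁻¹ * x⁻¹ = (x * u * x⁻¹)⁻¹ := by group
        rw [e]; exact Subgroup.inv_mem _ hu
    intro x hx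
    ext w
    rw [Subgroup.mem_pointwise_smul_iff_inv_smul_mem]
    constructor
    · intro h
      have := h2 x hx _ h
      simpa [mul_assoc] using this
    · intro h
      have := h2 x⁻¹ (X.inv_mem hx) _ h
      simpa [mul_assoc] using this

end Cfsg.Agent.S1124
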