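import Cfsg.Statements.S1125
import Cfsg.Agent.H4.RankOne

set_option autoImplicit false
open Cfsg

namespace Cfsg.Agent.S1125

/-- In the rank-one set-up (`G` finite and doubly transitive on `Ω`, `t` an involution moving `a`, `Q` normal in `G_a` with `G_a = Q D`, `Q ⊓ D = 1` for the two-point stabiliser `D = G_a ⊓ G_{t • a}`, `|Q|` even, `|D|` odd), let `X ⊆ D` fix at least three points of `Ω`. Then `C_G(X)` is doubly transitive on the fixed-point set of `X`, `|C_Q(X)|` is even, and `C_{G_a}(X) = C_Q(X) C_D(X)`. -/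
theorem result {G Ω : Type*} [Group G] [Finite G] [MulAction G Ω] {a : Ω} {t : G} {Q : Subgroup G}
    (hS : Cfsg.IsRankOneSetup G Ω a t Q)
    (X : Set G) (hX : X ⊆ ((MulAction.stabilizer G a ⊓ MulAction.stabilizer G (t • a)) : Set G))
    (h3 : ∃ b c d : Ω, b ≠ c ∧ b ≠ d ∧ c ≠ d ∧ ∀ x ∈ X, x • b = b ∧ x • c = c ∧ x • d = d) :
    (∀ b₁ b₂ c₁ c₂ : Ω, (∀ x ∈ X, x • b₁ = b₁ ∧ x • b₂ = b₂ ∧ x • c₁ = c₁ ∧ x • c₂ = c₂) →
        b₁ ≠ b₂ → c₁ ≠ c₂ → ∃ g ∈ Subgroup.centralizer X, g • b₁ = c₁ ∧ g • b₂ = c₂) ∧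
      Even (Nat.card ↥(Subgroup.centralizer X ⊓ Q)) ∧
      (Subgroup.centralizer X ⊓ Q) ⊔ (Subgroup.centralizer X ⊓ (MulAction.stabilizer G a ⊓ MulAction.stabilizer G (t • a))) = Subgroup.centralizer X ⊓ MulAction.stabilizer G a := by
  have ha : ∀ x ∈ X, x • a = a := fun x hx => (hX hx).1
  have hb : ∀ x ∈ X, x • t • a = t • a := fun x hx => (hX hx).2
  refine ⟨fun b₁ b₂ c₁ c₂ h h1 h2 => H4.RO.cent_two_trans hS h3 (fun x hx => (h x hx).1)
    (fun x hx => (h x hx).2.1) (fun x hx => (h x hx).2.2.1) (fun x hx => (h x hx).2.2.2) h1 h2,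
    ?_, le_antisymm ?_ ?_⟩
  · obtain ⟨u, hu, hu2, hu3, hu4⟩ := H4.RO.exists_cent_swap hS h3 ha hb
    have hu1 : u ≠ 1 := by
      rintro rfl
      rw [one_smul] at hu3
      exact H4.RO.ta_ne hS hu3.symm
    obtain ⟨p, hp⟩ := H4.RO.exists_fix hS hu2
    have hp2 : ∀ x ∈ X, x • p = p := fun x hx =>
      H4.RO.fix_of_commute hS hu1 hu2 hp (Subgroup.mem_centralizer_iff.1 hu x hx)
    obtain ⟨g, hg, hg2⟩ := H4.RO.cent_trans hS h3 hp2 ha
    have e1 : g * u * g⁻¹ * (g * u * g⁻¹) = 1 := by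
      calc g * u * g⁻¹ * (g * u * g⁻¹) = g * (u * u) * g⁻¹ := by group
        _ = 1 := by rw [hu2]; group
    have e2 : g * u * g⁻¹ ≠ 1 := by
      intro h; apply hu1
      calc u = g⁻¹ * (g * u * g⁻¹) * g := by group
        _ = 1 := by rw [h]; group
    have e3 : g * u * g⁻¹ ∈ Subgroup.centralizer X ⊓ Q := by
      refine ⟨Subgroup.mul_mem _ (Subgroup.mul_mem _ hg hu) (Subgroup.inv_mem _ hg),
        H4.RO.invol_mem_Q hS ?_ e1⟩
      rw [← hg2, mul_smul, mul_smul, inv_smul_smul, hp]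
    have e4 : orderOf (g * u * g⁻¹) = 2 := orderOf_eq_prime (by rw [pow_two, e1]) e2
    rw [even_iff_two_dvd, ← e4]
    exact Subgroup.orderOf_dvd_natCard _ e3
  · exact sup_le (inf_le_inf_left _ hS.le) (inf_le_inf_left _ inf_le_left)
  · rintro h ⟨hc, hh⟩
    obtain ⟨q, hq, hq1, hq2⟩ := H4.RO.exists_cent_Q hS ha (H4.RO.ta_ne hS)
      (H4.RO.smul_ne hS hh (H4.RO.ta_ne hS)) hb (H4.RO.cent_fix hc hb)
    have e : h = q * (q⁻¹ * h) := by group
    rw [e]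
    refine Subgroup.mul_mem_sup ⟨hq1, hq⟩ ⟨Subgroup.mul_mem _ (Subgroup.inv_mem _ hq1) hc,
      Subgroup.mul_mem _ (Subgroup.inv_mem _ (hS.le hq)) hh, ?_⟩
    show (q⁻¹ * h) • t • a = t • a
    rw [mul_smul, ← hq2, inv_smul_smul]

end Cfsg.Agent.S1125
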