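import Cfsg.Statements.S1134
import Cfsg.Agent.H4.RankOne

set_option autoImplicit false
open Cfsg

namespace Cfsg.Agent.S1134

/-- In the rank-one set-up (`G` finite and doubly transitive on `Ω`, `t` an involution moving `a`, `Q` normal in `G_a` with `G_a = Q D`, `Q ⊓ D = 1` for the two-point stabiliser `D = G_a ⊓ G_{t • a}`, `|Q|` even, `|D|` odd), with the action faithful and `G` containing two distinct commuting involutions, with `V = C_D(t)`: subsets of `V` conjugate in `G` are conjugate in `V`. -/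
theorem result {G Ω : Type*} [Group G] [Finite G] [MulAction G Ω] [FaithfulSMul G Ω] {a : Ω} {t : G} {Q : Subgroup G}
    (hS : Cfsg.IsRankOneSetup G Ω a t Q)
    (h2 : ∃ x y : G, x ≠ 1 ∧ y ≠ 1 ∧ x ≠ y ∧ x * x = 1 ∧ y * y = 1 ∧ x * y = y * x)
    (X : Set G) (hX : X ⊆ (((MulAction.stabilizer G a ⊓ MulAction.stabilizer G (t • a)) ⊓ Subgroup.centralizer {t} : Subgroup G) : Set G)) (g : G)
    (hY : (fun x => g * x * g⁻¹) '' X ⊆ (((MulAction.stabilizer G a ⊓ MulAction.stabilizer G (t • a)) ⊓ Subgroup.centralizer {t} : Subgroup G) : Set G)) :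
    ∃ v ∈ (MulAction.stabilizer G a ⊓ MulAction.stabilizer G (t • a)) ⊓ Subgroup.centralizer {t}, (fun x => v * x * v⁻¹) '' X = (fun x => g * x * g⁻¹) '' X := by
  obtain ⟨e, he⟩ := H4.RO.exists_fix hS hS.mul_self
  have hea : e ≠ a := fun h => H4.RO.ta_ne hS (h ▸ he)
  have heb : e ≠ t • a := by
    intro h
    rw [h, H4.RO.tta hS] at he
    exact H4.RO.ta_ne hS he.symm
  set Y := (fun x => g * x * g⁻¹) '' X with hYdef
  have h3 : ∃ b c d : Ω, b ≠ c ∧ b ≠ d ∧ c ≠ d ∧ ∀ x ∈ Y, x • b = b ∧ x • c = c ∧ x • d = d := by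
    refine ⟨a, t • a, e, (H4.RO.ta_ne hS).symm, hea.symm, heb.symm, fun x hx => ?_⟩
    obtain ⟨⟨h1, h2⟩, h3⟩ := hY hx
    exact ⟨h1, h2, H4.RO.fix_of_commute hS hS.ne_one hS.mul_self he
      (Subgroup.mem_centralizer_singleton_iff.1 h3)⟩
  obtain ⟨c, hc, hc1, hc2⟩ := H4.RO.cent_two_trans hS h3 (y₁ := g • a) (y₂ := g • t • a)
    (z₁ := a) (z₂ := t • a)
    (by rintro _ ⟨x, hx, rfl⟩; rw [mul_smul, mul_smul, inv_smul_smul, (hX hx).1.1])
    (by rintro _ ⟨x, hx, rfl⟩; rw [mul_smul, mul_smul, inv_smul_smul, (hX hx).1.2])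
    (fun x hx => (hY hx).1.1) (fun x hx => (hY hx).1.2)
    (fun h => H4.RO.ta_ne hS (smul_left_cancel g h).symm) (H4.RO.ta_ne hS).symm
  obtain ⟨v, k, hv, hvt, hk, hkt, e1⟩ := H4.RO.D_decomp hS (d := c * g)
    (by rw [mul_smul, hc1]) (by rw [mul_smul, hc2])
  refine ⟨v, ⟨hv, Subgroup.mem_centralizer_singleton_iff.2 hvt⟩, ?_⟩
  apply Set.image_congr
  intro x hx
  have e2 : g * x * g⁻¹ * c = c * (g * x * g⁻¹) :=
    Subgroup.mem_centralizer_iff.1 hc _ ⟨x, hx, rfl⟩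
  have e3 : v * k * x * (v * k)⁻¹ = g * x * g⁻¹ := by
    rw [← e1]
    calc c * g * x * (c * g)⁻¹ = c * (g * x * g⁻¹) * c⁻¹ := by group
      _ = _ := by rw [← e2]; group
  have e4 : g * x * g⁻¹ * t = t * (g * x * g⁻¹) :=
    Subgroup.mem_centralizer_singleton_iff.1 (hY ⟨x, hx, rfl⟩).2
  have e5 : x * t = t * x := Subgroup.mem_centralizer_singleton_iff.1 (hX hx).2
  have e6 : Commute k x := by
    apply H4.commute_of_sq_commute (H4.RO.odd_D hS hk.1 hk.2)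
    have e7 : t * (k * x * k⁻¹) * t⁻¹ = k * x * k⁻¹ := by
      calc t * (k * x * k⁻¹) * t⁻¹ = (v * t⁻¹)⁻¹ * (v * k * x * (v * k)⁻¹) * (v * t⁻¹) := by group
        _ = (v * t)⁻¹ * (g * x * g⁻¹) * (v * t) := by rw [e3, H4.RO.t_inv hS]
        _ = v⁻¹ * t⁻¹ * (g * x * g⁻¹ * t) * v := by rw [hvt]; group
        _ = v⁻¹ * (g * x * g⁻¹) * v := by rw [e4]; group
        _ = _ := by rw [← e3]; group
    have e8 : t * (k * x * k⁻¹) * t⁻¹ = k⁻¹ * x * k := by
      calc t * (k * x * k⁻¹) * t⁻¹ = (t * k * t⁻¹) * (t * x) * t⁻¹ * (t * k * t⁻¹)⁻¹ := by group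
        _ = _ := by rw [hkt, ← e5]; group
    rw [Commute, SemiconjBy]
    calc k * k * x = k * (k * x * k⁻¹) * k := by group
      _ = _ := by rw [← e7, e8]; group
  rw [← e3, mul_assoc v k x, e6.eq]
  group

end Cfsg.Agent.S1134
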