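import Cfsg.Statements.S1139
import Cfsg.Agent.H4.Higman6

set_option autoImplicit false
open Cfsg

namespace Cfsg.Agent.S1139

/-- A Suzuki 2-group `P` with `|P| = |Z(P)|²` is of type A: for some finite field `F` with `|F| = |Z(P)|` and some field automorphism `φ ≠ 1` of odd order, `P` is isomorphic to the group of lower unitriangular matrices with rows `(1,0,0)`, `(x,1,0)`, `(y, φ x, 1)`. -/
theorem result {P : Type*} [Group P] (hP : Cfsg.IsSuzukiTwoGroup P)
    (hcard : Nat.card P = Nat.card (Subgroup.center P) ^ 2) :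
    ∃ (F : Type) (_ : Field F) (_ : Fintype F) (φ : F ≃+* F), Fintype.card F = Nat.card (Subgroup.center P) ∧
      φ ≠ RingEquiv.refl F ∧ Odd (orderOf φ) ∧ Nonempty (P ≃* Cfsg.suzukiTypeA F (φ : F →+* F)) := by
  obtain ⟨_, h2, hna, h3, K, hK, hreg⟩ := hP
  obtain ⟨F, _, _, _, _, -, -, ⟨S⟩⟩ := H4.exists_setup (K := K) h2
    (fun k l => hK.isMulCommutative.is_comm.comm k l) h3 hreg
  rw [S.card_center hna] at hcard ⊢
  obtain ⟨φ, h⟩ := S.typeA hna hcard
  exact ⟨F, inferInstance, inferInstance, φ, Nat.card_eq_fintype_card.symm, h⟩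

end Cfsg.Agent.S1139
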