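import Cfsg.Statements.S1141
import Cfsg.Agent.LD.U3b

set_option autoImplicit false
open Cfsg

namespace Cfsg.Agent.S1141

/-- Let `q = 2^n ≥ 4` and `|F| = q²`. A Sylow 2-subgroup `S` of `PSU₃(q)` has order `q³`, its centre has order `q`, and `S` is a Suzuki 2-group. -/
theorem result {F : Type*} [Field F] [Fintype F] {n : ℕ} (hn : 2 ≤ n)
    (hF : Fintype.card F = (2 ^ n) ^ 2) (S : Sylow 2 (Cfsg.PSU 3 F (2 ^ n))) :
    Nat.card S = (2 ^ n) ^ 3 ∧ Nat.card (Subgroup.center ↥(S : Subgroup (Cfsg.PSU 3 F (2 ^ n)))) = 2 ^ n ∧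
      Cfsg.IsSuzukiTwoGroup ↥(S : Subgroup (Cfsg.PSU 3 F (2 ^ n))) := by
  letI := H5.U.powStar hF
  haveI := H5.U.powStar_nstar hF
  haveI : CharP F 2 := charP_of_card_eq_prime_pow (f := n * 2) (by rw [hF, pow_mul])
  have h2 : (2 : F) = 0 := CharTwo.two_eq_zero
  obtain ⟨w, hw⟩ := H5.U.exists_tr_one F
  have hq := H5.U.card_F0 hF
  obtain ⟨e⟩ := LD.sylow_equiv h2 hw S
  refine ⟨(Nat.card_congr e.toEquiv).symm.trans ?_,
    (Nat.card_congr (Subgroup.centerCongr e).toEquiv).symm.trans ?_,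
    LD.suzuki_equiv e (LD.Hs.suzuki h2 hw ?_)⟩
  · rw [← Nat.card_congr (LD.Hs.par h2 hw), Nat.card_prod, hq,
      Nat.card_eq_fintype_card, hF, ← pow_succ]
  · rw [LD.Hs.card_center h2 hw, hq]
  · rw [hq]
    have := Nat.pow_le_pow_right (n := 2) (by norm_num) hn
    omega

end Cfsg.Agent.S1141
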