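import Cfsg.Statements.S1151
import Cfsg.Agent.H4.ReeEasy

set_option autoImplicit false
open Cfsg

namespace Cfsg.Agent.S1151

theorem card_odd {C : Type*} [Group C] [Finite C] [IsCyclic C] {k : ℕ} (hk : Odd k)
    (hC : Nat.card C = 2 * k) : Nat.card {x : C // Odd (orderOf x)} = k := by
  classical
  have : Fintype C := Fintype.ofFinite C
  letI : CommGroup C := IsCyclic.commGroup
  have h1 : ∀ x : C, Odd (orderOf x) ↔ x ∈ (powMonoidHom k : C →* C).ker := by
    intro x
    rw [MonoidHom.mem_ker, powMonoidHom_apply, ← orderOf_dvd_iff_pow_eq_one]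
    constructor
    · intro h
      have := orderOf_dvd_natCard x
      rw [hC] at this
      exact (Nat.Coprime.dvd_mul_left (Odd.coprime_two_right h)).1 this
    · intro h
      exact Odd.of_dvd_nat hk h
  rw [Nat.card_congr (Equiv.subtypeEquivRight h1), IsCyclic.card_powMonoidHom_ker, hC]
  simp


/-- In the small Ree group ²G₂(q), q = 3^(2m+1), realised as G¹ inside the Chevalley group G₂ over the field with q elements (θ the 3^m-th power map), with H¹ = G¹ ∩ H and U¹ = G¹ ∩ U the intersections with the ambient diagonal and positive unipotent subgroups: `H¹` has exactly `(q - 1)/2` elements of odd order, and each non-identity one centralises no non-identity element of `U¹`. -/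
theorem result {K : Type*} [Field K] [Fintype K] {m : ℕ} (hK : Fintype.card K = 3 ^ (2 * m + 1)) :
    2 * Nat.card {h : ↥(Cfsg.Lie.chevG2.diagonalSubgroup K ⊓ Cfsg.Lie.twistedG2 K (3 ^ m)) // Odd (orderOf h)} = 3 ^ (2 * m + 1) - 1 ∧
      ∀ h ∈ (Cfsg.Lie.chevG2.diagonalSubgroup K ⊓ Cfsg.Lie.twistedG2 K (3 ^ m)), h ≠ 1 → Odd (orderOf h) →
        (Cfsg.Lie.chevG2.posUnipotent K ⊓ Cfsg.Lie.twistedG2 K (3 ^ m)) ⊓ Subgroup.centralizer {h} = ⊥ := by
  have : Fact (Nat.Prime 3) := ⟨Nat.prime_three⟩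
  have : CharP K 3 := charP_of_card_eq_prime_pow hK
  classical
  constructor
  · have h4 : 3 ^ (2 * m + 1) % 4 = 3 := by
      rw [pow_succ, pow_mul, Nat.mul_mod, Nat.pow_mod]; simp
    have e := card_odd (C := Kˣ) (k := (3 ^ (2 * m + 1) - 1) / 2) (by rw [Nat.odd_iff]; omega)
      (by rw [Nat.card_eq_fintype_card, Fintype.card_units, hK]; omega)
    rw [← Nat.card_congr ((H4.Ree.diagEquiv hK).toEquiv.subtypeEquiv
      (p := fun x => Odd (orderOf x)) (fun x => by simp)), e]
    omega
  · rintro h ⟨hd, hG⟩ h1 hodd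
    obtain ⟨l, hl⟩ := (H4.Ree.mem_diag_iff' hK ⟨h, hG⟩).1 hd
    rw [eq_bot_iff]
    rintro x ⟨⟨hU, hxG⟩, hc⟩
    by_contra hx
    have hc : h * x = x * h := Subgroup.mem_centralizer_iff.1 hc h rfl
    have := (H4.Ree.model hK).sq_eq_one_of_commute (l := l) (x := ⟨x, hxG⟩)
      ((H4.Ree.mem_pos_iff hK ⟨x, hxG⟩).1 hU) (fun e => hx (congrArg Subtype.val e))
      (by rw [hl]; exact Subtype.ext hc)
    apply h1
    apply H4.eq_one_of_odd_of_sq hodd
    have e := congrArg (fun y => (((H4.Ree.model hK).h y : Cfsg.Lie.twistedG2 K (3 ^ m)) : GL Cfsg.Lie.chevG2.Idx K)) this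
    simp only [map_mul, hl, map_one] at e
    first | exact e | (rw [pow_two]; exact e)

end Cfsg.Agent.S1151
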