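import Cfsg.Statements.S1152
import Cfsg.Agent.H4.ReeCent
import Cfsg.Agent.H4.ReeArith

set_option autoImplicit false
open Cfsg

namespace Cfsg.Agent.S1152

/-- In the small Ree group ²G₂(q), q = 3^(2m+1), realised as G¹ inside the Chevalley group G₂ over the field with q elements (θ the 3^m-th power map), with H¹ = G¹ ∩ H and U¹ = G¹ ∩ U the intersections with the ambient diagonal and positive unipotent subgroups: for an involution `a ∈ H¹`, the centraliser of `a` in `G¹` is isomorphic to `Z₂ × PSL₂(q)`; and the Sylow 2-subgroups of `G¹` are elementary abelian of order 8. -/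
theorem result {K : Type*} [Field K] [Fintype K] {m : ℕ} (hK : Fintype.card K = 3 ^ (2 * m + 1))
    (a : ↥(Cfsg.Lie.twistedG2 K (3 ^ m))) (haH : (a : GL Cfsg.Lie.chevG2.Idx K) ∈ Cfsg.Lie.chevG2.diagonalSubgroup K) (ha1 : a ≠ 1) (ha2 : a * a = 1) :
    Nonempty (↥(Subgroup.centralizer {a}) ≃* Multiplicative (ZMod 2) × Matrix.ProjectiveSpecialLinearGroup (Fin 2) K) ∧
      ∀ S : Sylow 2 ↥(Cfsg.Lie.twistedG2 K (3 ^ m)), Nat.card S = 8 ∧ ∀ x ∈ S, x * x = 1 := by
  have : Fact (Nat.Prime 3) := ⟨Nat.prime_three⟩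
  have : CharP K 3 := charP_of_card_eq_prime_pow hK
  have := (H4.Ree.model hK).finite
  constructor
  · obtain ⟨l, rfl⟩ := (H4.Ree.mem_diag_iff' hK a).1 haH
    rcases (H4.Ree.model hK).eq_of_sq_eq_one (l := l) ((H4.Ree.model hK).h_inj
      (by rw [map_mul, ha2, map_one])) with e | e
    · exact absurd e ha1
    · rw [e]; exact (H4.Ree.model hK).cent_a_iso
  · intro S
    refine ⟨H4.Ree.card_sylow_two (H4.Ree.odd_part (H4.Ree.q_mod m)) ?_ S, fun x hx => ?_⟩
    · rw [(H4.Ree.model hK).card_G, hK, H4.Ree.order_eq (H4.Ree.q_mod m)]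
    · obtain ⟨k, hk⟩ := S.isPGroup' ⟨x, hx⟩
      exact (H4.Ree.model hK).sq_eq_one_of_two_pow (congrArg Subtype.val hk)

end Cfsg.Agent.S1152
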