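import Cfsg.Statements.S1165
import Cfsg.Agent.H4.RankOne

set_option autoImplicit false
open Cfsg

namespace Cfsg.Agent.S1165

/-- In the rank-one set-up (`G` finite and doubly transitive on `Ω`, `t` an involution moving `a`, `Q` normal in `G_a` with `G_a = Q D`, `Q ⊓ D = 1` for the two-point stabiliser `D = G_a ⊓ G_{t • a}`, `|Q|` even, `|D|` odd): every `x ∈ Q`, `x ≠ 1`, determines unique `g, f ∈ Q`, `h ∈ D` with `t x t = g h t f` (a consequence of the canonical form). For these: (H1) the `f`-part of `x⁻¹` is `g⁻¹`; (H2) the `f`-part of `f` is `x`; (H3) for `a ∈ D` the `f`-part of `a⁻¹ x a` is `(t a t)⁻¹ f (t a t)`; (H4) the `h`-part of `a⁻¹ x a` is `(t a t)⁻¹ h a`, that of `x⁻¹` is `t h⁻¹ t`, and that of `f` is `h⁻¹`. -/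
theorem result {G Ω : Type*} [Group G] [Finite G] [MulAction G Ω] {a : Ω} {t : G} {Q : Subgroup G}
    (hS : Cfsg.IsRankOneSetup G Ω a t Q)
    (x g h f : G) (hx : x ∈ Q) (hx1 : x ≠ 1) (hg : g ∈ Q) (hh : h ∈ (MulAction.stabilizer G a ⊓ MulAction.stabilizer G (t • a))) (hf : f ∈ Q)
    (heq : t * x * t = g * h * t * f) :
    (∀ g₁ h₁ f₁ : G, g₁ ∈ Q → h₁ ∈ (MulAction.stabilizer G a ⊓ MulAction.stabilizer G (t • a)) → f₁ ∈ Q → t * x⁻¹ * t = g₁ * h₁ * t * f₁ →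
        f₁ = g⁻¹ ∧ h₁ = t * h⁻¹ * t) ∧
      (∀ g₂ h₂ f₂ : G, g₂ ∈ Q → h₂ ∈ (MulAction.stabilizer G a ⊓ MulAction.stabilizer G (t • a)) → f₂ ∈ Q → t * f * t = g₂ * h₂ * t * f₂ →
        f₂ = x ∧ h₂ = h⁻¹) ∧
      ∀ c ∈ (MulAction.stabilizer G a ⊓ MulAction.stabilizer G (t • a)), ∀ g₃ h₃ f₃ : G, g₃ ∈ Q → h₃ ∈ (MulAction.stabilizer G a ⊓ MulAction.stabilizer G (t • a)) → f₃ ∈ Q →
        t * (c⁻¹ * x * c) * t = g₃ * h₃ * t * f₃ →
          f₃ = (t * c * t)⁻¹ * f * (t * c * t) ∧ h₃ = (t * c * t)⁻¹ * h * c := by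
  have hti := H4.RO.t_inv hS
  have htt := hS.mul_self
  refine ⟨?_, ?_, ?_⟩
  · intro g₁ h₁ f₁ hg₁ hh₁ hf₁ e
    have hi := (MulAction.stabilizer G a ⊓ MulAction.stabilizer G (t • a)).inv_mem hh
    have := H4.RO.canon3_unique hS hg₁ hh₁ hf₁ (Q.inv_mem hf) (H4.RO.tD hS hi.1 hi.2)
      (Q.inv_mem hg) (by
        rw [← e]
        calc t * x⁻¹ * t = (t⁻¹ * x * t⁻¹)⁻¹ := by group
          _ = (g * h * t * f)⁻¹ := by rw [hti, heq]
          _ = f⁻¹ * t⁻¹ * h⁻¹ * 1 * g⁻¹ := by group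
          _ = _ := by rw [← htt, hti]; group)
    exact ⟨this.2.2, this.2.1⟩
  · intro g₂ h₂ f₂ hg₂ hh₂ hf₂ e
    have hi := (MulAction.stabilizer G a ⊓ MulAction.stabilizer G (t • a)).inv_mem hh
    have := H4.RO.canon3_unique hS hg₂ hh₂ hf₂ (H4.RO.conj_mem' hS hh.1 (Q.inv_mem hg)) hi hx (by
        rw [← e]
        calc t * f * t = h⁻¹ * g⁻¹ * (g * h * t * f) * t := by group
          _ = h⁻¹ * g⁻¹ * t * x * (t * t) := by rw [← heq]; group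
          _ = _ := by rw [htt]; group)
    exact ⟨this.2.2, this.2.1⟩
  · intro c hc g₃ h₃ f₃ hg₃ hh₃ hf₃ e
    have hc' : t * c * t ∈ MulAction.stabilizer G a ⊓ MulAction.stabilizer G (t • a) :=
      H4.RO.tD hS hc.1 hc.2
    have hi : (t * c * t)⁻¹ * h * c ∈ MulAction.stabilizer G a ⊓ MulAction.stabilizer G (t • a) :=
      Subgroup.mul_mem _ (Subgroup.mul_mem _ (Subgroup.inv_mem _ hc') hh) hc
    have := H4.RO.canon3_unique hS hg₃ hh₃ hf₃ (H4.RO.conj_mem' hS hc'.1 hg) hi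
      (H4.RO.conj_mem' hS hc'.1 hf) (by
        rw [← e]
        calc t * (c⁻¹ * x * c) * t = t * c⁻¹ * t⁻¹ * (t * x * t) * t⁻¹ * c * t := by group
          _ = t⁻¹ * c⁻¹ * t⁻¹ * (g * h * t * f) * t * c * t := by rw [heq, hti]
          _ = t⁻¹ * c⁻¹ * t⁻¹ * (g * h * t⁻¹ * f) * t * c * t := by rw [hti]
          _ = _ := by group)
    exact ⟨this.2.2, this.2.1⟩

end Cfsg.Agent.S1165
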