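import Cfsg.Statements.S1167
import Cfsg.Agent.H4.ZassEven

set_option autoImplicit false
open Cfsg

namespace Cfsg.Agent.S1167

/-- Let `G` be a finite simple Zassenhaus group on `Ω`, `U` a normal subgroup of `G_a` regular on `Ω` minus `a` which is an abelian 2-group, and `v` an involution with `v • a ≠ a`. Then there is a unique `u₀ ∈ U`, `u₀ ≠ 1`, with `v u₀ v = u₀ v u₀`. -/
theorem result {G Ω : Type*} [Group G] [Finite G] [MulAction G Ω] [Finite Ω]
    (hZ : Cfsg.IsZassenhausGroup G Ω) [IsSimpleGroup G] {a : Ω}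
    (U : Subgroup G) (hUle : U ≤ MulAction.stabilizer G a)
    (hUn : ∀ h ∈ MulAction.stabilizer G a, ∀ u ∈ U, h * u * h⁻¹ ∈ U)
    (hreg : ∀ c d : Ω, c ≠ a → d ≠ a → ∃! u : U, (u : G) • c = d)
    (hU2 : IsPGroup 2 U) (hUab : ∀ u ∈ U, ∀ u' ∈ U, u * u' = u' * u)
    (v : G) (hv1 : v ≠ 1) (hv2 : v * v = 1) (hva : v • a ≠ a) :
    ∃! u₀ : G, u₀ ∈ U ∧ u₀ ≠ 1 ∧ v * u₀ * v = u₀ * v * u₀ := by
  have hS := H4.zass_setup hZ U hUle hUn hreg hU2 v hv1 hv2 hva
  obtain ⟨s, r, hs, hs1, hs2, hr, h⟩ := H4.RO.exists_struct hS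
  have hsQ := H4.RO.invol_mem_Q hS hs hs2
  have hvi := H4.RO.t_inv hS
  have hsi : s⁻¹ = s := inv_eq_of_mul_eq_one_right hs2
  have hrs : r * s = s * r := hUab r hr s hsQ
  have key : r = s := by
    by_cases hr2 : r * r = 1
    · have hri : r⁻¹ = r := inv_eq_of_mul_eq_one_right hr2
      have e1 : r * (s * v) * r = (s * v) * (s * v) := by
        calc r * (s * v) * r = (r * s) * v * r := by group
          _ = s * (r⁻¹ * v * r) := by rw [hrs, hri]; group
          _ = _ := by rw [← h]; group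
      have e2 : s * v = (s * v) * (s * v) * (s * v) * (s * v) := by
        calc s * v = (r * r) * (s * v) * (r * r) := by rw [hr2]; group
          _ = r * (r * (s * v) * r) * r := by group
          _ = r * (s * v) * (r * r) * (s * v) * r := by rw [e1, hr2]; group
          _ = (r * (s * v) * r) * (r * (s * v) * r) := by group
          _ = _ := by rw [e1]; group
      have e3 : (s * v) * (s * v) * (s * v) = 1 := by
        apply mul_right_cancel (b := s * v)
        rw [← e2, one_mul]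
      have e4 : v * s * v = s⁻¹ * v * s := by
        calc v * s * v = s⁻¹ * ((s * v) * (s * v) * (s * v)) * v⁻¹ * s⁻¹ := by group
          _ = _ := by rw [e3, hvi, hsi, mul_one]
      exact (H4.RO.struct_unique hS hs hr h hs hsQ e4).2
    · exfalso
      let D := MulAction.stabilizer G a ⊓ MulAction.stabilizer G (v • a)
      have hinv : ∀ d ∈ D, v * d * v⁻¹ = d⁻¹ := fun d hd => H4.zass_D_inverted hZ hS hd.1 hd.2
      have hcomm : ∀ x ∈ D, ∀ y ∈ D, x * y = y * x := fun x hx y hy =>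
        H4.comm_of_inverted (hinv x hx) (hinv y hy) (hinv _ (D.mul_mem hx hy))
      obtain ⟨c, hc1, hc⟩ := H4.zass_exists_D hZ hva.symm
      have hcD : c ∈ D := hc
      have hcs : c⁻¹ * s * c ∈ U := H4.RO.conj_mem' hS hc.1 hsQ
      obtain ⟨e, he1, he2, -, he⟩ := H4.RO.K_trans hS (s' := c⁻¹ * s * c * s) hs hs1 hs2
        (hUle (U.mul_mem hcs hsQ))
        (by
          intro h1
          apply hc1
          apply H4.RO.K_inj hS hs hs1 hs2 hc.1 (hinv c hcD) (by group)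
          rw [← hsi] at h1
          rw [inv_one, one_mul, mul_one]
          have h2 := eq_inv_of_mul_eq_one_left h1
          rwa [inv_inv, hsi] at h2)
        (by
          calc c⁻¹ * s * c * s * (c⁻¹ * s * c * s) = c⁻¹ * s * c * (s * (c⁻¹ * s * c)) * s := by
                group
            _ = c⁻¹ * (s * s) * c * (s * s) := by rw [hUab s hsQ _ hcs]; group
            _ = 1 := by rw [hs2]; group)
      have heD : e ∈ D := ⟨he1, he2⟩
      have t1 : v * r * v = r * v * s := by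
        calc v * r * v = r * (r⁻¹ * v * r) * v := by group
          _ = r * v * s * (v * v) := by rw [← h]; group
          _ = _ := by rw [hv2, mul_one]
      have t2 : v * r⁻¹ * v = s * v * r⁻¹ := by
        calc v * r⁻¹ * v = (v⁻¹ * r * v⁻¹)⁻¹ := by group
          _ = (r * v * s)⁻¹ := by rw [hvi, t1]
          _ = _ := by rw [mul_inv_rev, mul_inv_rev, hsi, hvi]; group
      have hv' : ∀ d ∈ D, v * d = d⁻¹ * v := fun d hd => by rw [← hinv d hd]; group
      have hv'' : ∀ d ∈ D, v * d⁻¹ = d * v := fun d hd => by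
        rw [hv' _ (D.inv_mem hd), inv_inv]
      have F : ∀ c ∈ D, ∀ e ∈ D, e⁻¹ * s * e = c⁻¹ * s * c * s →
          (v * (c * r * c⁻¹ * r⁻¹) * v) =
            (c⁻¹ * r * c) * ((c⁻¹ * c⁻¹ * e) * r * (c⁻¹ * c⁻¹ * e)⁻¹)⁻¹ * (c⁻¹ * c⁻¹ * e * e) * v *
              (e * r * e⁻¹ * r⁻¹) := by
        intro c hc e he hce
        calc v * (c * r * c⁻¹ * r⁻¹) * v = (v * c) * r * (v * v) * c⁻¹ * (v * v) * r⁻¹ * v := by
              rw [hv2]; group
          _ = c⁻¹ * (v * r * v) * (v * c⁻¹) * v * (v * r⁻¹ * v) := by rw [hv' c hc]; group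
          _ = c⁻¹ * r * v * s * c * (v * v) * s * v * r⁻¹ := by rw [t1, t2, hv'' c hc]; group
          _ = c⁻¹ * r * (v * c) * (c⁻¹ * s * c * s) * v * r⁻¹ := by rw [hv2]; group
          _ = c⁻¹ * r * c⁻¹ * (v * e⁻¹) * s * (e * v) * r⁻¹ := by rw [← hce, hv' c hc]; group
          _ = c⁻¹ * r * c⁻¹ * (e * v) * s * (v * e⁻¹) * r⁻¹ := by rw [hv'' e he]
          _ = c⁻¹ * r * c⁻¹ * e * (v * s * v) * e⁻¹ * r⁻¹ := by group
          _ = c⁻¹ * r * c⁻¹ * e * r⁻¹ * (v * e⁻¹) * e * r * e⁻¹ * r⁻¹ := by rw [h]; group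
          _ = _ := by rw [hv'' e he]; group
      have F1 := F c hcD e heD he
      have F2 := F c⁻¹ (D.inv_mem hcD) (e * c⁻¹) (D.mul_mem heD (D.inv_mem hcD)) (by
        calc (e * c⁻¹)⁻¹ * s * (e * c⁻¹) = c * (e⁻¹ * s * e) * c⁻¹ := by group
          _ = s * (c * s * c⁻¹) := by rw [he]; group
          _ = _ := by rw [hUab s hsQ _ (hUn c hc.1 s hsQ), inv_inv])
      have hcr : c * r * c⁻¹ ∈ U := hUn c hc.1 r hr
      have hcr' : c⁻¹ * r * c ∈ U := H4.RO.conj_mem' hS hc.1 hr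
      have F3 : v * (c * r * c⁻¹ * r⁻¹) * v = s * (v * (c⁻¹ * r * c⁻¹⁻¹ * r⁻¹) * v) *
          (c * c * (c⁻¹ * s * c)) := by
        rw [hUab _ hcr _ (U.inv_mem hr), inv_inv, hUab _ hcr' _ (U.inv_mem hr)]
        calc v * (r⁻¹ * (c * r * c⁻¹)) * v
            = v * r⁻¹ * (v * v) * c * (v * v) * r * (v * v) * c⁻¹ * v := by rw [hv2]; group
          _ = (v * r⁻¹ * v) * (v * c) * v * (v * r * v) * (v * c⁻¹) * v := by group
          _ = s * v * r⁻¹ * c⁻¹ * (v * v) * r * v * s * c * (v * v) := by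
              rw [t1, t2, hv' c hcD, hv'' c hcD]; group
          _ = s * v * r⁻¹ * c⁻¹ * r * (v * c⁻¹) * c * s * c := by rw [hv2]; group
          _ = _ := by rw [hv'' c hcD]; group
      have hx1 : c⁻¹ * c⁻¹ * e ∈ D := D.mul_mem (D.mul_mem (D.inv_mem hcD) (D.inv_mem hcD)) heD
      have hx2 : c * c * (e * c⁻¹) ∈ D :=
        D.mul_mem (D.mul_mem hcD hcD) (D.mul_mem heD (D.inv_mem hcD))
      have G1 : (c⁻¹ * r * c) * ((c⁻¹ * c⁻¹ * e) * r * (c⁻¹ * c⁻¹ * e)⁻¹)⁻¹ =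
          s * ((c * r * c⁻¹) * ((c * c * (e * c⁻¹)) * r * (c * c * (e * c⁻¹))⁻¹)⁻¹) := by
        apply H4.RO.Q_eq_of_smul_eq hS (U.mul_mem hcr' (U.inv_mem (hUn _ hx1.1 r hr)))
          (U.mul_mem hsQ (U.mul_mem hcr (U.inv_mem (hUn _ hx2.1 r hr)))) hva
        have a1 : (e * r * e⁻¹ * r⁻¹) • a = a :=
          hUle (U.mul_mem (hUn e he1 r hr) (U.inv_mem hr))
        have a2 : (c⁻¹ * c⁻¹ * e * e) • v • a = v • a := (D.mul_mem hx1 heD).2
        have a3 : (c * c * (c⁻¹ * s * c)) • a = a :=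
          (MulAction.stabilizer G a).mul_mem (D.mul_mem hcD hcD).1 (hUle hcs)
        have a4 : (e * c⁻¹ * r * (e * c⁻¹)⁻¹ * r⁻¹) • a = a :=
          hUle (U.mul_mem (hUn _ (D.mul_mem heD (D.inv_mem hcD)).1 r hr) (U.inv_mem hr))
        have a5 : (c * c * (e * c⁻¹) * (e * c⁻¹)) • v • a = v • a :=
          (D.mul_mem hx2 (D.mul_mem heD (D.inv_mem hcD))).2
        have b1 := congrArg (· • a) F1
        have b2 := congrArg (· • a) F3
        rw [F2, inv_inv] at b2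
        generalize (v * (c * r * c⁻¹ * r⁻¹) * v) • a = w at b1 b2
        rw [mul_smul _ (e * r * e⁻¹ * r⁻¹), a1, mul_smul _ v, mul_smul _ (c⁻¹ * c⁻¹ * e * e), a2]
          at b1
        rw [mul_smul _ (c * c * (c⁻¹ * s * c)), a3, mul_smul s,
          mul_smul _ (e * c⁻¹ * r * (e * c⁻¹)⁻¹ * r⁻¹), a4, mul_smul _ v,
          mul_smul _ (c * c * (e * c⁻¹) * (e * c⁻¹)), a5] at b2
        rw [← b1, mul_smul s, ← b2]
      obtain ⟨n, hn⟩ := (IsPGroup.iff_orderOf.1 hU2) ⟨r, hr⟩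
      rw [Subgroup.orderOf_mk] at hn
      obtain ⟨m, rfl⟩ : ∃ m, n = m + 2 := by
        match n, hn with
        | 0, hn => exact absurd (by rw [orderOf_eq_one_iff.1 hn, one_mul]) hr2
        | 1, hn => exact absurd (by rw [← pow_two, ← pow_one 2, ← hn, pow_orderOf_eq_one]) hr2
        | m + 2, _ => exact ⟨m, rfl⟩
      set s' := r ^ 2 ^ (m + 1) with hs'
      have hs'Q : s' ∈ U := U.pow_mem hr _
      have hs'2 : s' * s' = 1 := by
        rw [hs', ← pow_add, ← two_mul, ← pow_succ', ← hn, pow_orderOf_eq_one]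
      have hs'1 : s' ≠ 1 := by
        intro h1
        have := Nat.le_of_dvd (by positivity) (orderOf_dvd_of_pow_eq_one h1)
        rw [hn] at this
        have := Nat.pow_le_pow_iff_right (a := 2) (by omega) |>.1 this
        omega
      have G2 := congrArg (· ^ 2 ^ (m + 1)) G1
      have hsp : s ^ 2 ^ (m + 1) = 1 := by rw [pow_succ', pow_mul, pow_two, hs2, one_pow]
      have cp : ∀ x ∈ U, ∀ y ∈ U, (x * y) ^ 2 ^ (m + 1) = x ^ 2 ^ (m + 1) * y ^ 2 ^ (m + 1) :=
        fun x hx y hy => Commute.mul_pow (hUab x hx y hy) _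
      have cj : ∀ x : G, (x⁻¹ * r * x) ^ 2 ^ (m + 1) = x⁻¹ * s' * x := fun x => by
        have := conj_pow (a := x⁻¹) (b := r) (i := 2 ^ (m + 1))
        rwa [inv_inv] at this
      rw [cp _ hcr' _ (U.inv_mem (hUn _ hx1.1 r hr)),
        cp _ hsQ _ (U.mul_mem hcr (U.inv_mem (hUn _ hx2.1 r hr))),
        cp _ hcr _ (U.inv_mem (hUn _ hx2.1 r hr)), hsp, one_mul, inv_pow, inv_pow, conj_pow,
        conj_pow, conj_pow, cj, ← hs'] at G2
      obtain ⟨k, hk1, hk2, -, hk⟩ := H4.RO.K_trans hS hs hs1 hs2 (hUle hs'Q) hs'1 hs'2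
      have hkD : k ∈ D := ⟨hk1, hk2⟩
      have he' : e⁻¹ * s' * e = c⁻¹ * s' * c * s' := by
        rw [← hk]
        calc e⁻¹ * (k⁻¹ * s * k) * e = (k * e)⁻¹ * s * (k * e) := by group
          _ = k⁻¹ * (e⁻¹ * s * e) * k := by rw [hcomm k hkD e heD]; group
          _ = (c * k)⁻¹ * s * (c * k) * (k⁻¹ * s * k) := by rw [he]; group
          _ = _ := by rw [hcomm c hcD k hkD]; group
      have hec := hcomm e heD c hcD
      have y1 : c⁻¹ * c⁻¹ * e = e * c⁻¹ * c⁻¹ := by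
        have hcc : Commute e c := hec
        rw [mul_assoc e, (hcc.inv_right.mul_right hcc.inv_right).eq]
      have y2 : c * c * (e * c⁻¹) = e * c := by
        calc c * c * (e * c⁻¹) = c * (c * e) * c⁻¹ := by group
          _ = c * (e * c) * c⁻¹ := by rw [hec]
          _ = c * e := by group
          _ = _ := hec.symm
      have y3 : c⁻¹ * s' * c = (e * c⁻¹ * c⁻¹ * s' * (e * c⁻¹ * c⁻¹)⁻¹) *
          (e * c⁻¹ * s' * (e * c⁻¹)⁻¹) := by
        calc c⁻¹ * s' * c = c⁻¹ * e * (e⁻¹ * s' * e) * (e⁻¹ * c) := by group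
          _ = (c⁻¹ * (e * c) * c⁻¹) * (c⁻¹ * s' * c * s') * (c⁻¹ * (e * c) * c⁻¹)⁻¹ := by
            rw [he']; group
          _ = (c⁻¹ * (c * e) * c⁻¹) * (c⁻¹ * s' * c * s') * (c⁻¹ * (c * e) * c⁻¹)⁻¹ := by
            rw [hec]
          _ = _ := by group
      have y4 : c * s' * c⁻¹ = (e * s' * e⁻¹) * (e * c * s' * (e * c)⁻¹) := by
        calc c * s' * c⁻¹ = (c * e) * (e⁻¹ * s' * e) * (c * e)⁻¹ := by group
          _ = _ := by rw [he', ← hec]; group
      rw [y1, y2, y3, y4, hUab _ (hUn _ (y1 ▸ hx1.1) _ hs'Q) _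
        (hUn _ (D.mul_mem heD (D.inv_mem hcD)).1 _ hs'Q), mul_inv_cancel_right,
        mul_inv_cancel_right] at G2
      apply hc1
      apply H4.RO.K_inj hS (hUle hs'Q) hs'1 hs'2 hc.1 (hinv c hcD) (by group)
      calc c⁻¹ * s' * c = e⁻¹ * (e * c⁻¹ * s' * (e * c⁻¹)⁻¹) * e := by group
        _ = _ := by rw [G2]; group
  subst key
  refine ⟨r, ⟨hr, hs1, by rw [h, hsi]⟩, ?_⟩
  rintro u ⟨hu, hu1, hu2⟩
  apply H4.RO.Q_eq_of_smul_eq hS hu hr hva
  apply H4.RO.fix_unique hS hv1 hv2 _ (H4.RO.struct_fix hS hs h)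
  have := congrArg (· • a) hu2
  simp only [mul_smul] at this
  rw [this, H4.RO.Q_fix hS hu]

end Cfsg.Agent.S1167
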