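import Cfsg.Statements.S1168
import Cfsg.Agent.H4.FieldAut

set_option autoImplicit false
open Cfsg

namespace Cfsg.Agent.S1168

/-- For a finite field `F` of characteristic 2: if `q : F → F` is quadratic over the prime field, i.e. `(x, y) ↦ q (x + y) + q x + q y` is additive in each variable, then `q x = Σ c_{σ,τ} σ(x) τ(x)` for some coefficients indexed by pairs of field automorphisms. -/
theorem result {F : Type*} [Field F] [Fintype F] [CharP F 2]
    (q : F → F)
    (hq : ∀ x y z : F, q (x + y + z) + q (x + y) + q (x + z) + q (y + z) + q x + q y + q z = 0) :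
    ∃ (s : Finset ((F ≃+* F) × (F ≃+* F))) (c : (F ≃+* F) × (F ≃+* F) → F),
      ∀ x : F, q x = ∑ p ∈ s, c p * (p.1 x * p.2 x) := by
  have := H4.finite_ringEquiv (F := F)
  have := Fintype.ofFinite (F ≃+* F)
  let : Algebra (ZMod 2) F := ZMod.algebra F 2
  have h2 : (2 : F) = 0 := CharTwo.two_eq_zero
  have h0 : q 0 = 0 := by
    have := hq 0 0 0
    simp only [add_zero] at this
    linear_combination this - 3 * q 0 * h2
  have hadd : ∀ x y z : F, q (x + y + z) + q (x + y) + q z =
      (q (x + z) + q x + q z) + (q (y + z) + q y + q z) := by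
    intro x y z
    linear_combination hq x y z - (q (x + z) + q x + q z + q (y + z) + q y) * h2
  let B : F →+ F →+ F := AddMonoidHom.mk' (fun x => AddMonoidHom.mk' (fun y => q (x + y) + q x + q y)
    (fun y z => by
      have := hadd y z x
      rw [add_comm (y + z) x, add_comm y x, add_comm z x] at this
      linear_combination this)) (fun x y => by
      ext z
      exact hadd x y z)
  let B' : F →ₗ[ZMod 2] F →ₗ[ZMod 2] F :=
    (((AddMonoidHom.toZModLinearMapEquiv 2).toAddMonoidHom).comp B).toZModLinearMap 2
  let Q : QuadraticMap (ZMod 2) F F :=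
    { toFun := q
      toFun_smul := by
        intro a x
        have ha : a = 0 ∨ a = 1 := by revert a; decide
        rcases ha with rfl | rfl
        · simp [h0]
        · simp
      exists_companion' := ⟨B', fun x y => by
        show q (x + y) = q x + q y + (q (x + y) + q x + q y)
        linear_combination (-q x - q y) * h2⟩ }
  obtain ⟨C, hC⟩ := LinearMap.BilinMap.toQuadraticMap_surjective Q
  obtain ⟨c, hc⟩ := H4.exists_coeff_biadd 2
    (AddMonoidHom.mk' (fun x => (C x).toAddMonoidHom) (fun x y => by ext z; simp))
  refine ⟨Finset.univ, c, fun x => ?_⟩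
  rw [← hc x x]
  show Q x = C x x
  rw [← hC]
  rfl

end Cfsg.Agent.S1168
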