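import Cfsg.Statements.S5632
import Cfsg.Agent.H6.Sub

set_option autoImplicit false
open Cfsg

namespace Cfsg.Agent.S5632

/-- For a finite field F and subspaces 0 < W < U of F^n with dim W + dim U = n, the elements of SL_n(F) stabilising both W and U form a subgroup that is not maximal in SL_n(F): some subgroup lies strictly between it and SL_n(F). -/
theorem result {F : Type*} [Field F] [Fintype F] (n : ℕ) (W U : Submodule F (Fin n → F)) (hW0 : W ≠ ⊥) (hWU : W < U) (hdim : Module.finrank F W + Module.finrank F U = n) : ∃ K : Subgroup (Matrix.GeneralLinearGroup (Fin n) F), Cfsg.Geo.subspaceStabilizer W ⊓ Cfsg.Geo.subspaceStabilizer U ⊓ Cfsg.Geo.specialLinear (Fin n) F < K ∧ K < Cfsg.Geo.specialLinear (Fin n) F := by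
  have hU : U ≠ ⊤ := by
    rintro rfl
    have : Module.finrank F W = 0 := by
      simp at hdim; simpa using hdim
    exact hW0 (Submodule.finrank_eq_zero.1 this)
  have hW1 : W ≠ ⊤ := fun h => by simp [h] at hWU
  refine H6.exists_between_of_core (LinearEquiv.refl F _) _ (H6.stabV W) (fun g hg _ => hg.1) ?_
    (H6.exists_SLV_not_stabV hW0 hW1)
  obtain ⟨u, hu, huW⟩ := SetLike.exists_of_lt hWU
  obtain ⟨x, hx⟩ : ∃ x, x ∉ U := by
    by_contra! h; exact hU (Submodule.eq_top_iff'.2 h)
  obtain ⟨φ, h1, h2, h3⟩ := H6.exists_dual_one₂ (K := W) (u := x) (v := u) (by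
    intro c hc
    by_cases hc0 : c = 0
    · exact huW (by simpa [hc0] using hc)
    · apply hx
      have := U.smul_mem c⁻¹ (U.sub_mem hu (hWU.le hc))
      simpa [smul_smul, inv_mul_cancel₀ hc0] using this)
  obtain ⟨g, hg⟩ := (H6.glEquiv (LinearEquiv.refl F (Fin n → F))).surjective (H6.tv x φ h2)
  refine ⟨g, hg ▸ H6.tv_mem_SLV _ _ _, hg ▸ H6.tv_mem_stabV_of_ker h2 h1, fun h => hx ?_⟩
  have := (((H6.mem_subspaceStabilizer U g).1 h.2) u).1 hu
  rw [hg, H6.tv_apply, h3, one_smul] at this
  simpa using U.sub_mem this hu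

end Cfsg.Agent.S5632
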