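import Cfsg.Statements.S5633
import Cfsg.Agent.H6.Sub

set_option autoImplicit false
open Cfsg

namespace Cfsg.Agent.S5633

/-- For a finite field F and complementary non-zero subspaces W ⊕ U = F^n with dim W < dim U, the elements of SL_n(F) stabilising both W and U form a subgroup that is not maximal in SL_n(F): some subgroup lies strictly between it and SL_n(F). -/
theorem result {F : Type*} [Field F] [Fintype F] (n : ℕ) (W U : Submodule F (Fin n → F)) (hW0 : W ≠ ⊥) (hWU : W ⊓ U = ⊥) (hWU' : W ⊔ U = ⊤) (hdim : Module.finrank F W < Module.finrank F U) : ∃ K : Subgroup (Matrix.GeneralLinearGroup (Fin n) F), Cfsg.Geo.subspaceStabilizer W ⊓ Cfsg.Geo.subspaceStabilizer U ⊓ Cfsg.Geo.specialLinear (Fin n) F < K ∧ K < Cfsg.Geo.specialLinear (Fin n) F := by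
  have hU : U ≠ ⊥ := by
    rintro rfl
    simp at hdim
  have hW1 : W ≠ ⊤ := fun h => by simp [h] at hWU; exact hU hWU
  refine H6.exists_between_of_core (LinearEquiv.refl F _) _ (H6.stabV W) (fun g hg _ => hg.1) ?_
    (H6.exists_SLV_not_stabV hW0 hW1)
  obtain ⟨u, hu, hu0⟩ := Submodule.exists_mem_ne_zero_of_ne_bot hU
  obtain ⟨w, hw, hw0⟩ := Submodule.exists_mem_ne_zero_of_ne_bot hW0
  obtain ⟨φ, h2, h3⟩ := H6.exists_dual_pair (F := F) (u := w) (v := u) (by
    intro c hc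
    apply hu0
    rw [← Submodule.mem_bot F, ← hWU]
    exact ⟨hc ▸ W.smul_mem c hw, hu⟩)
  obtain ⟨g, hg⟩ := (H6.glEquiv (LinearEquiv.refl F (Fin n → F))).surjective (H6.tv w φ h2)
  refine ⟨g, hg ▸ H6.tv_mem_SLV _ _ _, hg ▸ H6.tv_mem_stabV_of_mem h2 hw, fun h => hw0 ?_⟩
  have := (((H6.mem_subspaceStabilizer U g).1 h.2) u).1 hu
  rw [hg, H6.tv_apply, h3, one_smul] at this
  rw [← Submodule.mem_bot F, ← hWU]
  exact ⟨hw, by simpa using U.sub_mem this hu⟩

end Cfsg.Agent.S5633
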