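import Cfsg.Statements.S5655
import Cfsg.Agent.H5.U.Frame4

set_option autoImplicit false
open Cfsg

namespace Cfsg.Agent.S5655

/-- Let F be the field with q² elements and n ≥ 13. Let D be a decomposition of F^n into t ≥ 2 pairwise orthogonal subspaces of equal dimension k, each non-degenerate for the standard unitary form, spanning F^n. Unless k = 2 and q = 2, the elements of SU_n(q) permuting the members of D form a maximal subgroup of SU_n(q). -/
theorem result {F : Type*} [Field F] [Fintype F] (n q : ℕ) (hF : Fintype.card F = q ^ 2) (hn : 13 ≤ n) {t : ℕ} (k : ℕ) (D : Fin t → Submodule F (Fin n → F)) (hD : Cfsg.Geo.IsNondegenerateMDecomposition (Cfsg.hermForm n F q) k D) (hex : ¬ (k = 2 ∧ q = 2)) : Cfsg.Geo.IsMaximalIn (Cfsg.GU n F q ⊓ Cfsg.Geo.specialLinear (Fin n) F) (Cfsg.Geo.decompositionStabilizer D ⊓ (Cfsg.GU n F q ⊓ Cfsg.Geo.specialLinear (Fin n) F)) := by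
    rcases Nat.lt_or_ge k 2 with hk | hk
    · obtain rfl : k = 1 := by have := hD.decomp.pos; omega
      exact H5.U.frame_maximal n q hF D hD (by omega) (Or.inl (by omega))
    · refine H5.U.dec_maximal n q hF k D hD hk ?_
      rcases Nat.lt_or_ge k 3 with h3 | h3
      · obtain rfl : k = 2 := by omega
        have h2 := H5.U.two_le_q hF
        refine Or.inr ⟨?_, by omega⟩
        by_contra ht
        obtain rfl : t = 2 := by have := hD.decomp.two_le; omega
        have h0 : D 0 ⊔ D 1 = ⊤ := by
          rw [← hD.decomp.iSup_eq_top]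
          exact le_antisymm (sup_le (le_iSup D 0) (le_iSup D 1))
            (iSup_le fun i => by fin_cases i <;> simp)
        have h1 := Submodule.finrank_add_le_finrank_add_finrank (D 0) (D 1)
        rw [h0] at h1
        simp [hD.decomp.finrank_eq] at h1
        omega
      · exact Or.inl h3

end Cfsg.Agent.S5655
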