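import Cfsg.Statements.S5656
import Cfsg.Agent.H5.U.NonMax

set_option autoImplicit false
open Cfsg

namespace Cfsg.Agent.S5656

/-- Let F be the field with 4 elements (q = 2) and n ≥ 13. Let D be a decomposition of F^n into t pairwise orthogonal 2-dimensional subspaces, each non-degenerate for the standard unitary form Σ u_i v_i². Then the elements of SU_n(2) permuting the members of D form a subgroup that is not maximal: some subgroup lies strictly between it and SU_n(2). -/
theorem result {F : Type*} [Field F] [Fintype F] (n : ℕ) (hF : Fintype.card F = 4) (hn : 13 ≤ n) {t : ℕ} (D : Fin t → Submodule F (Fin n → F)) (hD : Cfsg.Geo.IsNondegenerateMDecomposition (Cfsg.hermForm n F 2) 2 D) : ∃ K : Subgroup (Matrix.GeneralLinearGroup (Fin n) F), Cfsg.Geo.decompositionStabilizer D ⊓ (Cfsg.GU n F 2 ⊓ Cfsg.Geo.specialLinear (Fin n) F) < K ∧ K < (Cfsg.GU n F 2 ⊓ Cfsg.Geo.specialLinear (Fin n) F) := by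
    have hF' : Fintype.card F = 2 ^ 2 := hF
    letI := H5.U.powStar hF'
    haveI := H5.U.powStar_nstar hF'
    obtain ⟨K, h1, h2, h3⟩ := (H5.U.dec_of_decomp hF' hD).between_F4 (H5.U.F0_of_four hF')
      (by simpa using hD.decomp.two_le)
    exact H5.U.exists_between_of_core (LinearEquiv.refl F _) (H5.U.stdHF (Fin n) F) _ _
      (H5.U.mem_GU_iff hF' n) (H5.U.HF.DecStab D)
      (fun g _ => H5.U.mem_decompositionStabilizer' hD.decomp) K h1 h2 h3

end Cfsg.Agent.S5656
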