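import Cfsg.Statements.S5671
import Cfsg.Agent.H5.U.Ten6

set_option autoImplicit false
open Cfsg

namespace Cfsg.Agent.S5671

/-- Let F be the field with 4 elements (q = 2) and n = 2 n₂ ≥ 13. Suppose the standard unitary form Σ u_i v_i² on F^n is similar, through P and e, to the tensor product of non-degenerate unitary forms f₁ on F^2 and f₂ on F^(n₂). Then the elements of SU_n(2) in the stabiliser of this tensor decomposition form a subgroup that is not maximal: some subgroup lies strictly between it and SU_n(2). -/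
theorem result {F : Type*} [Field F] [Fintype F] (n : ℕ) (hF : Fintype.card F = 4) (hn : 13 ≤ n) (n₂ : ℕ) (e : Fin n ≃ Fin 2 × Fin n₂) (P : Matrix.GeneralLinearGroup (Fin n) F) (f₁ : (Fin 2 → F) → (Fin 2 → F) → F) (f₂ : (Fin n₂ → F) → (Fin n₂ → F) → F) (hf₁ : Cfsg.Geo.IsUnitaryFormPow 2 f₁) (hf₂ : Cfsg.Geo.IsUnitaryFormPow 2 f₂) (hT : Cfsg.Geo.IsTensorFormStructure (fun x : F => x ^ 2) (Cfsg.hermForm n F 2) f₁ f₂ e P) : ∃ K : Subgroup (Matrix.GeneralLinearGroup (Fin n) F), Cfsg.Geo.tensorProductSubgroup 2 n₂ e P ⊓ (Cfsg.GU n F 2 ⊓ Cfsg.Geo.specialLinear (Fin n) F) < K ∧ K < (Cfsg.GU n F 2 ⊓ Cfsg.Geo.specialLinear (Fin n) F) := by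
  have hF' : Fintype.card F = 2 ^ 2 := hF
  letI := H5.U.powStar hF'
  haveI := H5.U.powStar_nstar hF'
  have hn₂ : 2 ≤ n₂ := by
    have := Fintype.card_congr e
    simp at this
    omega
  obtain ⟨h₁, h₂, h, E, t, h1, h2⟩ := H5.U.exists_tp hF' (by omega) (by omega) e P f₁ f₂ hf₁ hf₂ hT
  obtain ⟨K, k1, k2, k3⟩ := t.between (by simp) (by simpa) (H5.U.F0_of_four hF')
  exact H5.U.exists_between_of_core E h _ _ h1 (fun g => g ∈ H5.U.KG F _ _) (fun g _ => h2 g) K k1 k2 k3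

end Cfsg.Agent.S5671
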