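import Cfsg.Statements.S5673
import Cfsg.Agent.H8.OAsch7

set_option autoImplicit false
open Cfsg

namespace Cfsg.Agent.S5673

/-- Subgroup structure of the odd-dimensional orthogonal groups. Let F be a finite field of odd order and m ≥ 3, let Q be the standard quadratic form x₀² + Σ x_i y_i on F^(2m+1), and let Ω be the commutator subgroup of its isometry group, viewed inside GL_(2m+1)(F). Let H be a subgroup of Ω whose product with the scalar matrices in Ω is not all of Ω. Then either H is contained in a member of one of the geometric classes of subgroups of the isometry group (with the conditions built into InOrthogonalOddClass), or H is in the residual class: modulo scalars it is almost simple, and the perfect preimage of its socle acts absolutely irreducibly, is realisable over no proper subfield, and fixes no non-degenerate unitary form. -/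
theorem result {F : Type*} [Field F] [Fintype F] (hodd : Odd (Fintype.card F)) (m : ℕ) (hm : 3 ≤ m) (H : Subgroup (Matrix.GeneralLinearGroup (Unit ⊕ (Fin m ⊕ Fin m)) F)) (hH : H ≤ Cfsg.Geo.omegaGL (Cfsg.quadFormOdd m F)) (hproper : H ⊔ (Cfsg.Geo.scalars (Unit ⊕ (Fin m ⊕ Fin m)) F ⊓ Cfsg.Geo.omegaGL (Cfsg.quadFormOdd m F)) ≠ Cfsg.Geo.omegaGL (Cfsg.quadFormOdd m F)) : (∃ M : Subgroup (Matrix.GeneralLinearGroup (Unit ⊕ (Fin m ⊕ Fin m)) F), Cfsg.Geo.InOrthogonalOddClass m F M ∧ H ≤ M) ∨ Cfsg.Geo.InOrthogonalResidualClass H := by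
  have hQ := Orth.quadFormOdd_nondeg hodd m
  have hc : Fintype.card (Unit ⊕ (Fin m ⊕ Fin m)) = 2 * m + 1 := by simp; omega
  have ho : Odd (Fintype.card (Unit ⊕ (Fin m ⊕ Fin m))) := by rw [hc]; exact ⟨m, rfl⟩
  have hI := hH.trans H8.omega_le
  rcases H8.asch_orth hQ (by omega) (Or.inl ho) hH with ⟨W, h0, hW, hs⟩ | ⟨W, h0, hW, hd, hs⟩ |
    ⟨h, -⟩ | ⟨t, k, D, hD, hs, hk⟩ | ⟨k, D, hk, -⟩ | ⟨r, K, hr, hK, hsa, hs, -, h1, -⟩ |
    ⟨K, -, -, -, -, -, h, -⟩ | ⟨-, a, b, e, P, f₁, f₂, h1, h2, -, -, h3, h4, h5, hs, -⟩ |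
    ⟨-, -, b, e, P, f₁, f₂, h, -⟩ | ⟨k, t, e, P, f₁, h1, h2, -, h3, h4, h5, hs⟩ | h | ⟨h, -⟩ | h
  · exact Or.inl ⟨_, Or.inl ⟨W, h0, hW, rfl⟩, le_inf hs hI⟩
  · refine Or.inl ⟨_, Or.inr (Or.inl ⟨W, h0, fun h => ?_, hW, rfl⟩), le_inf hs hI⟩
    rw [h, finrank_top, Module.finrank_fintype_fun_eq_card] at hd
    omega
  · exact absurd hodd h
  · by_cases h1 : k = 1
    · subst h1
      exact Or.inl ⟨_, Or.inr (Or.inr (Or.inr (Or.inl ⟨t, D, hk rfl, hD, rfl⟩))), le_inf hs hI⟩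
    · have := hD.decomp.decomp.pos
      exact Or.inl ⟨_, Or.inr (Or.inr (Or.inl ⟨t, k, D, by omega, hD, rfl⟩)), le_inf hs hI⟩
  · omega
  · exact Or.inl ⟨_, Or.inr (Or.inr (Or.inr (Or.inr (Or.inl
      ⟨r, K, hr, fun h => h1 ho (by omega), hK, hsa, rfl⟩)))), le_inf hs hI⟩
  · omega
  · exact Or.inl ⟨_, Or.inr (Or.inr (Or.inr (Or.inr (Or.inr (Or.inl
      ⟨a, b, e, P, f₁, f₂, h1, h2, h3, h4, h5, rfl⟩))))), le_inf hs hI⟩
  · omega
  · exact Or.inl ⟨_, Or.inr (Or.inr (Or.inr (Or.inr (Or.inr (Or.inr (Or.inr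
      ⟨k, t, e, P, f₁, h1, h2, h3, h4, h5, rfl⟩)))))), le_inf hs hI⟩
  · obtain ⟨F₀, r, P, hr, hc, hrat, hs⟩ := H8.CSub.odd hQ ho (H8.rational_quadFormOdd m) h
    exact Or.inl ⟨_, Or.inr (Or.inr (Or.inr (Or.inr (Or.inr (Or.inr (Or.inl
      ⟨F₀, r, P, hr, hc, hrat, rfl⟩)))))), le_inf hs hI⟩
  · omega
  · exact Or.inr h

end Cfsg.Agent.S5673
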