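import Cfsg.Statements.S5692
import Cfsg.Agent.Orth.C2f

set_option autoImplicit false
open Cfsg

namespace Cfsg.Agent.S5692

/-- Let F be a finite field with q elements, n ≥ 13 even, Q a non-degenerate quadratic form on F^n of plus type (some subspace of dimension n/2 is totally singular), and Ω the commutator subgroup of the isometry group of Q, viewed inside GL_n(F). Let D be a decomposition of F^n into t ≥ 2 pairwise orthogonal, pairwise Q-isometric subspaces of equal dimension k ≥ 2 on which the polar form is non-degenerate, such that: if k is even, either every member is of plus type or t is even; if k is odd, q is odd and the discriminant of Q is a square. Exclude the cases k = 2 with q = 3, k = 2 with plus-type members and q ∈ {2, 4, 5}, k = 3 with q = 3, and k = 4 with plus-type members and q = 2. Then the elements of Ω permuting the members of D form a maximal subgroup of Ω. -/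
theorem result {F : Type*} [Field F] [Fintype F] {n : ℕ} (hn : 13 ≤ n) (heven : Even n) (Q : (Fin n → F) → F) (hQ : Cfsg.Geo.IsNondegenerateQuadraticForm Q) (hplus : Cfsg.Geo.IsPlusTypeOn Q ⊤) {t : ℕ} (k : ℕ) (hk : 2 ≤ k) (D : Fin t → Submodule F (Fin n → F)) (hD : Cfsg.Geo.IsOrthogonalMDecomposition Q k D) (hke : Even k → ((∀ i, Cfsg.Geo.IsPlusTypeOn Q (D i)) ∨ Even t)) (hko : Odd k → (Odd (Fintype.card F) ∧ Cfsg.Geo.HasSquareDiscriminant Q)) (hex : ¬ ((k = 2 ∧ (Fintype.card F = 3 ∨ ((∀ i, Cfsg.Geo.IsPlusTypeOn Q (D i)) ∧ (Fintype.card F = 2 ∨ Fintype.card F = 4 ∨ Fintype.card F = 5)))) ∨ (k = 3 ∧ Fintype.card F = 3) ∨ (k = 4 ∧ Fintype.card F = 2 ∧ ∀ i, Cfsg.Geo.IsPlusTypeOn Q (D i)))) : Cfsg.Geo.IsMaximalIn (Cfsg.Geo.omegaGL Q) (Cfsg.Geo.decompositionStabilizer D ⊓ Cfsg.Geo.omegaGL Q) := by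
  have hc : Fintype.card (Fin n) = n := Fintype.card_fin n
  by_cases h2 : k = 2
  · subst h2
    refine Orth.max_dec_two hQ hD (by omega) (fun h => hex (Or.inl ⟨rfl, Or.inl h⟩)) fun hp => ?_
    by_contra h7
    have h1 := Fintype.one_lt_card (α := F)
    have h6 : Fintype.card F ≠ 6 := by
      intro h6
      obtain ⟨p, hp⟩ := CharP.exists F
      obtain ⟨m, hp', hm⟩ := FiniteField.card F p
      have h2 : 2 ∣ p := (Nat.prime_two.dvd_of_dvd_pow (n := m) (by rw [← hm, h6]; norm_num))
      have h3 : 3 ∣ p := (Nat.prime_three.dvd_of_dvd_pow (n := m) (by rw [← hm, h6]; norm_num))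
      have e2 := (Nat.prime_dvd_prime_iff_eq Nat.prime_two hp').1 h2
      have e3 := (Nat.prime_dvd_prime_iff_eq Nat.prime_three hp').1 h3
      omega
    by_cases h3 : Fintype.card F = 3
    · exact hex (Or.inl ⟨rfl, Or.inl h3⟩)
    · exact hex (Or.inl ⟨rfl, Or.inr ⟨hp, by omega⟩⟩)
  by_cases h3 : k = 3
  · subst h3
    exact Orth.max_dec_three hQ hD (hko (by decide)).1 (fun h => hex (Or.inr (Or.inl ⟨rfl, h⟩)))
      (by omega)
  · refine Orth.max_dec_four hQ hD (by omega) ?_
    rintro ⟨h4, h, i, hi⟩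
    exact hex (Or.inr (Or.inr ⟨h4, h, fun j => Orth.plus_of_isometric hQ (hD.isometric i j) hi⟩))

end Cfsg.Agent.S5692
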