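import Cfsg.Statements.S5774
import Cfsg.Agent.H8.M3T
import Cfsg.Agent.H7.M3SL
import Cfsg.Agent.H7.Q4

set_option autoImplicit false
open Cfsg

namespace Cfsg.Agent.S5774

/-- Maximal subgroups of SL_3(q) of geometric type, for a finite field F with q elements (any q). Each of the following subgroups of SL_3(F), obtained by intersecting SL_3(F) with the stated subgroup of GL_3(F), is a maximal subgroup of SL_3(F): (1) the stabiliser of any proper non-zero subspace of F^3; (2) for q ≥ 5, the stabiliser of any decomposition of F^3 into three independent lines; (3) for q ≠ 4, the normaliser of any subfield of the 3 × 3 matrix algebra of degree 3 over F (a commutative subalgebra of dimension 3 in which every non-zero element is invertible); (4) for every subfield F₀ with |F| = |F₀|^r, r prime, every subfield group (a conjugate of GL_3(F₀) times the scalars of F); (5) for q = p prime with p ≡ 1 mod 3, the normaliser of any absolutely irreducible 3-subgroup R of exponent 3 with centre of order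 3, all of whose characteristic abelian subgroups are cyclic, of order 3^(1+2m) for some m ≥ 1, with F the smallest field of characteristic p containing the cube roots of unity (so R is extraspecial of order 27); (6) for q odd, the group of similarities of any non-degenerate quadratic form on F^3; (7) the group of similarities of any non-degenerate unitary form on F^3 (these exist exactly when q is a square). -/
theorem result {F : Type*} [Field F] [Fintype F] :
    (∀ W : Submodule F (Fin 3 → F), W ≠ ⊥ → W ≠ ⊤ → Cfsg.Geo.IsMaximalIn (Cfsg.Geo.specialLinear (Fin 3) F) (Cfsg.Geo.subspaceStabilizer W ⊓ Cfsg.Geo.specialLinear (Fin 3) F)) ∧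
    (5 ≤ Fintype.card F → ∀ D : Fin 3 → Submodule F (Fin 3 → F), Cfsg.Geo.IsMDecomposition 1 D → Cfsg.Geo.IsMaximalIn (Cfsg.Geo.specialLinear (Fin 3) F) (Cfsg.Geo.decompositionStabilizer D ⊓ Cfsg.Geo.specialLinear (Fin 3) F)) ∧
    (Fintype.card F ≠ 4 → ∀ K : Subalgebra F (Matrix (Fin 3) (Fin 3) F), Cfsg.Geo.IsFieldSubalgebra 3 K → Cfsg.Geo.IsMaximalIn (Cfsg.Geo.specialLinear (Fin 3) F) (Cfsg.Geo.subalgebraNormalizer K ⊓ Cfsg.Geo.specialLinear (Fin 3) F)) ∧
    (∀ (F₀ : Subfield F) (r : ℕ) (P : Matrix.GeneralLinearGroup (Fin 3) F), r.Prime → Fintype.card F = Nat.card F₀ ^ r → Cfsg.Geo.IsMaximalIn (Cfsg.Geo.specialLinear (Fin 3) F) (Cfsg.Geo.subfieldSubgroup F₀ P ⊓ Cfsg.Geo.specialLinear (Fin 3) F)) ∧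
    (∀ (p : ℕ) (R : Subgroup (Matrix.GeneralLinearGroup (Fin 3) F)), p.Prime → Fintype.card F = p → p % 3 = 1 → Cfsg.Geo.IsLinearSymplecticTypeData 3 R → Cfsg.Geo.IsMaximalIn (Cfsg.Geo.specialLinear (Fin 3) F) (Cfsg.Geo.subgroupNormalizer R ⊓ Cfsg.Geo.specialLinear (Fin 3) F)) ∧
    (Odd (Fintype.card F) → ∀ Q : (Fin 3 → F) → F, Cfsg.Geo.IsNondegenerateQuadraticForm Q → Cfsg.Geo.IsMaximalIn (Cfsg.Geo.specialLinear (Fin 3) F) (Cfsg.Geo.quadSimilarityGroup Q ⊓ Cfsg.Geo.specialLinear (Fin 3) F)) ∧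
    (∀ (σ : F ≃+* F) (f : (Fin 3 → F) → (Fin 3 → F) → F), Cfsg.Geo.IsUnitaryForm σ f → Cfsg.Geo.IsMaximalIn (Cfsg.Geo.specialLinear (Fin 3) F) (Cfsg.Geo.similarityGroup f ⊓ Cfsg.Geo.specialLinear (Fin 3) F)) := by
  refine H7.sl3_geom_max fun H hH hS => ?_
  obtain ⟨p, _, -, hp, -⟩ := FiniteField.card' F
  have := Fact.mk hp
  obtain ⟨P, hc, ⟨-, a, b, c, d⟩ | ⟨a, b, c | ⟨c, d⟩⟩⟩ := H8.M3.lin_cases p hH hS
  · refine Or.inl ⟨a ▸ ?_, d⟩
    by_contra! k
    interval_cases p <;> simp_all (config := {decide := true})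
  · exact Or.inr ⟨Or.inl c, H7.q4 c hH.1.le hc.le hc.normal a⟩
  · refine Or.inr ⟨Or.inr ?_, d⟩
    by_contra! k
    rcases b with ⟨b, e⟩ | ⟨b, e, f⟩ <;> rw [b] at k
    · interval_cases p <;> simp_all (config := {decide := true})
    · have : p < 5 := by nlinarith
      interval_cases p <;> simp_all (config := {decide := true})

end Cfsg.Agent.S5774
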