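import Cfsg.Statements.S5779
import Cfsg.Agent.H8.M3T

set_option autoImplicit false
open Cfsg

namespace Cfsg.Agent.S5779

/-- The maximal subgroups of SU_3(q), q ≥ 3, in the residual class. Let F be the field with q² elements and H a maximal subgroup of SU_3(q) (determinant-one isometries of the standard unitary form on F^3) lying in the residual class of the unitary case. Then q = p is prime and the perfect socle preimage P of H satisfies one of: P modulo scalars is isomorphic to the simple group of order 168 (written PSL_3(2)) and p ≡ 3, 5 or 6 mod 7 with p ≠ 5; or P modulo scalars is isomorphic to A_6 and either p ≡ 11 or 14 mod 15 or p = 5; or P modulo scalars is isomorphic to A_7 and p = 5. -/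
theorem result {F : Type*} [Field F] [Fintype F] (q : ℕ) (hF : Fintype.card F = q ^ 2) (hq : 3 ≤ q) (H : Subgroup (Matrix.GeneralLinearGroup (Fin 3) F)) (hH : Cfsg.Geo.IsMaximalIn (Cfsg.GU 3 F q ⊓ Cfsg.Geo.specialLinear (Fin 3) F) H) (hS : Cfsg.Geo.InUnitaryResidualClass H) :
    ∃ P : Subgroup (Matrix.GeneralLinearGroup (Fin 3) F), Cfsg.Geo.IsResidualCore H P ∧ q.Prime ∧
    ((Nonempty ((P ⧸ (Cfsg.Geo.scalars (Fin 3) F).subgroupOf P) ≃* Matrix.ProjectiveSpecialLinearGroup (Fin 3) (ZMod 2)) ∧ q ≠ 5 ∧ (q % 7 = 3 ∨ q % 7 = 5 ∨ q % 7 = 6)) ∨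
     (Nonempty ((P ⧸ (Cfsg.Geo.scalars (Fin 3) F).subgroupOf P) ≃* alternatingGroup (Fin 6)) ∧ (q % 15 = 11 ∨ q % 15 = 14 ∨ q = 5)) ∨
     (Nonempty ((P ⧸ (Cfsg.Geo.scalars (Fin 3) F).subgroupOf P) ≃* alternatingGroup (Fin 7)) ∧ q = 5)) := by
  obtain ⟨P, hc, hp, -, h⟩ := H8.M3.uni_cases hF hq hH hS
  exact ⟨P, hc, hp, h.imp (fun ⟨a, b, c, _⟩ => ⟨a, b, c⟩) (Or.imp_left fun ⟨a, b, _⟩ => ⟨a, b⟩)⟩

end Cfsg.Agent.S5779
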