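import Cfsg.Statements.S5788
import Cfsg.Agent.H6.S4.Main
import Cfsg.Agent.H1.S4Br
import Cfsg.Agent.H5.S4.W5
import Cfsg.Agent.H2.SP15
import Cfsg.Agent.H2.SP10

set_option autoImplicit false
open Cfsg

namespace Cfsg.Agent.S5788

/-- The maximal subgroups of Sp_4(q), q odd, in the residual class. Let F be a finite field of odd order q and characteristic p, and H a maximal subgroup of Sp_4(F) (isometries of the standard alternating form on F^4) lying in the residual class of the symplectic case. Then the perfect socle preimage P of H satisfies one of: P modulo scalars is isomorphic to A_6 and q = p with p ≥ 5 and p ≠ 7; or P modulo scalars is isomorphic to A_7 and q = 7; or P modulo scalars is isomorphic to PSL_2(F) itself, with p ≥ 5 and q > 7. -/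
theorem result {F : Type*} [Field F] [Fintype F] (hodd : Odd (Fintype.card F)) (H : Subgroup (Matrix.GeneralLinearGroup (Fin 2 ⊕ Fin 2) F)) (hH : Cfsg.Geo.IsMaximalIn (Cfsg.spGL 2 F) H) (hS : Cfsg.Geo.InSymplecticResidualClass H) :
    ∃ (P : Subgroup (Matrix.GeneralLinearGroup (Fin 2 ⊕ Fin 2) F)) (p : ℕ), Cfsg.Geo.IsResidualCore H P ∧ p.Prime ∧ CharP F p ∧
    ((Nonempty ((P ⧸ (Cfsg.Geo.scalars (Fin 2 ⊕ Fin 2) F).subgroupOf P) ≃* alternatingGroup (Fin 6)) ∧ Fintype.card F = p ∧ 5 ≤ p ∧ p ≠ 7) ∨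
     (Nonempty ((P ⧸ (Cfsg.Geo.scalars (Fin 2 ⊕ Fin 2) F).subgroupOf P) ≃* alternatingGroup (Fin 7)) ∧ Fintype.card F = 7) ∨
     (Nonempty ((P ⧸ (Cfsg.Geo.scalars (Fin 2 ⊕ Fin 2) F).subgroupOf P) ≃* Matrix.ProjectiveSpecialLinearGroup (Fin 2) F) ∧ 5 ≤ p ∧ 7 < Fintype.card F)) := by
  obtain ⟨P, hc, -⟩ := hS
  obtain ⟨p, hp⟩ := CharP.exists F
  have : Fact p.Prime := ⟨CharP.char_is_prime F p⟩
  have h2 := H2.SP.two_ne hodd
  exact ⟨P, p, hc, Fact.out, hp, H1.S4.final (AlgebraicClosure F) hodd hH hc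
    (fun π h tv => (H2.SP.toS2 h tv).un) (fun π h => h.main' (H2.SP.ssNu h)) (H5.S4.no_A5 h2 hH hc)
    (fun h7 => H5.S4.no_A6_seven (by subst h7; exact_mod_cast CharP.cast_eq_zero F 7) hH hc)
    fun h5 e => H5.S4.psl_gt h2 hH hc e h5⟩

end Cfsg.Agent.S5788
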