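import Cfsg.Statements.S5790
import Cfsg.Agent.H8.SpMax6

set_option autoImplicit false
open Cfsg

namespace Cfsg.Agent.S5790

/-- Every maximal subgroup of Sp_4(q), q ≥ 4 even, is of one of the listed geometric types or lies in the residual class. Let F be a finite field of even order q ≥ 4, f the standard alternating form on F^4 (coordinates Fin 2 ⊕ Fin 2), and H a maximal subgroup of Sp_4(F) (inside GL_4(F)). Then H is the intersection with Sp_4(F) of one of: the stabiliser of a non-zero totally isotropic subspace; the stabiliser of a decomposition into two orthogonal non-degenerate 2-spaces; the normaliser of a degree-2 subfield K of the matrix algebra, self-adjoint with f(k v, v) = 0; a subfield group whose F₀-structure carries a non-zero multiple of f, |F| = |F₀|^r with r prime; the similarity group of a non-degenerate quadratic form whose polar form is f — or else H lies in the residual class of the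 symplectic case. -/
theorem result {F : Type*} [Field F] [Fintype F] (heven : ¬ Odd (Fintype.card F)) (h4 : 4 ≤ Fintype.card F) (H : Subgroup (Matrix.GeneralLinearGroup (Fin 2 ⊕ Fin 2) F)) (hH : Cfsg.Geo.IsMaximalIn (Cfsg.spGL 2 F) H) :
    (∃ W : Submodule F (Fin 2 ⊕ Fin 2 → F), W ≠ ⊥ ∧ Cfsg.Geo.IsTotallySingularFor (Cfsg.sympForm 2 F) W ∧ H = Cfsg.Geo.subspaceStabilizer W ⊓ Cfsg.spGL 2 F) ∨
    (∃ D : Fin 2 → Submodule F (Fin 2 ⊕ Fin 2 → F), Cfsg.Geo.IsNondegenerateMDecomposition (Cfsg.sympForm 2 F) 2 D ∧ H = Cfsg.Geo.decompositionStabilizer D ⊓ Cfsg.spGL 2 F) ∨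
    (∃ K : Subalgebra F (Matrix (Fin 2 ⊕ Fin 2) (Fin 2 ⊕ Fin 2) F), Cfsg.Geo.IsFieldSubalgebra 2 K ∧ Cfsg.Geo.IsSelfAdjointFor (Cfsg.sympForm 2 F) K ∧ (∀ k ∈ K, ∀ v : (Fin 2 ⊕ Fin 2 → F), (Cfsg.sympForm 2 F) (Matrix.mulVec k v) v = 0) ∧ H = Cfsg.Geo.subalgebraNormalizer K ⊓ Cfsg.spGL 2 F) ∨
    (∃ (F₀ : Subfield F) (r : ℕ) (P : Matrix.GeneralLinearGroup (Fin 2 ⊕ Fin 2) F) (ζ : F), r.Prime ∧ Fintype.card F = Nat.card F₀ ^ r ∧ ζ ≠ 0 ∧ Cfsg.Geo.IsFormRationalStructure (Cfsg.sympForm 2 F) F₀ ζ P ∧ H = Cfsg.Geo.subfieldSubgroup F₀ P ⊓ Cfsg.spGL 2 F) ∨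
    (∃ Q : (Fin 2 ⊕ Fin 2 → F) → F, Cfsg.Geo.IsNondegenerateQuadraticForm Q ∧ (∀ u v : (Fin 2 ⊕ Fin 2 → F), QuadraticMap.polar Q u v = (Cfsg.sympForm 2 F) u v) ∧ H = Cfsg.Geo.quadSimilarityGroup Q ⊓ Cfsg.spGL 2 F) ∨
    Cfsg.Geo.InSymplecticResidualClass H := by
  rcases H8.sp_max (by norm_num) hH with (h | ⟨W, h0, hW, h1, h2, h3⟩ | ⟨t, k, D, h1, h2, h3, h4, hD, h5⟩ |
    ⟨ho, h1, h⟩ | ⟨r, K, hr, h1, h⟩ | ⟨ho, h1, h⟩ | ⟨ho, a, b, e, P, f₁, f₂, h1, h2, h3, h4, h⟩ | h |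
    ⟨k, R, h1, h2, h3, h4, h5, h6, h7, h8, h9, h⟩ | ⟨ho, k, t, e, P, f₁, h1, h2, h3, h4, h⟩ | h) | h
  · exact Or.inl (h)
  · omega
  · have h' : (t = 2 ∧ k = 1) := by
      have : t ≤ 2 := by nlinarith
      interval_cases t <;> omega
    obtain ⟨rfl, rfl⟩ := h'
    exact Or.inr (Or.inl (⟨D, hD, h5⟩))
  · exact absurd ho heven
  · have hr' : r = 2 := by
      have := Nat.le_of_dvd (by norm_num) h1
      interval_cases r <;> first | omega | (exfalso; revert hr; norm_num)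
    subst hr'
    exact Or.inr (Or.inr (Or.inl (⟨K, h⟩)))
  · exact absurd ho heven
  · exact absurd ho heven
  · exact Or.inr (Or.inr (Or.inr (Or.inl (h))))
  · exact absurd h3 heven
  · exact absurd ho heven
  · exact Or.inr (Or.inr (Or.inr (Or.inr (Or.inl (h.2)))))
  · exact Or.inr (Or.inr (Or.inr (Or.inr (Or.inr (h)))))

end Cfsg.Agent.S5790
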