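import Cfsg.Statements.S5791
import Cfsg.Agent.H9.S4.Br

set_option autoImplicit false
open Cfsg

namespace Cfsg.Agent.S5791

/-- The maximal subgroups of Sp_4(q), q ≥ 4 even, in the residual class. Let F be a finite field of even order q ≥ 4 and H a maximal subgroup of Sp_4(F) (isometries of the standard alternating form on F^4) lying in the residual class of the symplectic case. Then q = 2^(2m+1) with m ≥ 1 and the perfect socle preimage P of H is, modulo scalars, isomorphic to the Suzuki group over F (the subgroup Sz(F, θ) of the four-dimensional symplectic group with θ(x) = x^(2^(m+1))). -/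
theorem result {F : Type*} [Field F] [Fintype F] (heven : ¬ Odd (Fintype.card F)) (h4 : 4 ≤ Fintype.card F) (H : Subgroup (Matrix.GeneralLinearGroup (Fin 2 ⊕ Fin 2) F)) (hH : Cfsg.Geo.IsMaximalIn (Cfsg.spGL 2 F) H) (hS : Cfsg.Geo.InSymplecticResidualClass H) :
    ∃ (P : Subgroup (Matrix.GeneralLinearGroup (Fin 2 ⊕ Fin 2) F)) (m : ℕ), Cfsg.Geo.IsResidualCore H P ∧ 1 ≤ m ∧ Fintype.card F = 2 ^ (2 * m + 1) ∧
    Nonempty ((P ⧸ (Cfsg.Geo.scalars (Fin 2 ⊕ Fin 2) F).subgroupOf P) ≃* Cfsg.Lie.Sz F (2 ^ (m + 1))) := by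
  obtain ⟨p, hp⟩ := CharP.exists F
  obtain ⟨n, hpp, hn⟩ := FiniteField.card F p
  obtain rfl : p = 2 := by
    by_contra h
    exact heven (hn ▸ (hpp.odd_of_ne_two h).pow)
  have big : ∃ c : F, c ≠ 0 ∧ c ≠ 1 := by
    classical
    by_contra! h
    have : (Finset.univ : Finset F) ⊆ {0, 1} := fun c _ => by
      by_cases h0 : c = 0 <;> simp [h0, h c]
    have := (Finset.card_le_card this).trans Finset.card_le_two
    rw [Finset.card_univ] at this
    omega
  obtain ⟨P, hP, hQ, -⟩ := hS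
  obtain ⟨φ, ⟨M⟩⟩ := H9.S4.main big hH.1 hP hQ
  obtain ⟨m, hm, hc, rfl⟩ := H9.S4.tits φ M.hφ big
  exact ⟨P, m, hP, hm, hc, H9.S4.model_equiv M (H4.Suz.model hc)⟩

end Cfsg.Agent.S5791
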