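import Cfsg.Statements.S5793
import Cfsg.Agent.H7.AschSL

set_option autoImplicit false
open Cfsg

namespace Cfsg.Agent.S5793

/-- Every maximal subgroup of SL_5(q) is of one of the listed geometric types or lies in the residual class. Let F be a finite field with q elements (p its characteristic) and H a maximal subgroup of SL_5(F) (inside GL_5(F)). Then H is the intersection with SL_5(F) of one of: the stabiliser of a proper non-zero subspace; for q ≥ 5, the stabiliser of a decomposition into 5 independent 1-spaces; the normaliser of a degree-5 subfield of the matrix algebra; a subfield group for a subfield F₀ with |F| = |F₀|^r, r prime; for q = p prime with p ≡ 1 mod 5, the normaliser of an absolutely irreducible 5-subgroup R of exponent 5 and order 5^(1+2m) with centre of order 5, all of whose characteristic abelian subgroups are cyclic, F being the smallest field of characteristic p containing the fifth roots of unity (here R is extraspecial of order 125); for q odd, the similarity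 group of a non-degenerate quadratic form; the similarity group of a non-degenerate unitary form — or else H lies in the residual class of the linear case (modulo scalars H is almost simple, with absolutely irreducible perfect socle preimage realisable over no proper subfield and fixing no non-degenerate quadratic, symplectic or unitary form). -/
theorem result {F : Type*} [Field F] [Fintype F] (H : Subgroup (Matrix.GeneralLinearGroup (Fin 5) F)) (hH : Cfsg.Geo.IsMaximalIn (Cfsg.Geo.specialLinear (Fin 5) F) H) :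
    (∃ W : Submodule F (Fin 5 → F), W ≠ ⊥ ∧ W ≠ ⊤ ∧ H = Cfsg.Geo.subspaceStabilizer W ⊓ Cfsg.Geo.specialLinear (Fin 5) F) ∨
    (5 ≤ Fintype.card F ∧ ∃ D : Fin 5 → Submodule F (Fin 5 → F), Cfsg.Geo.IsMDecomposition 1 D ∧ H = Cfsg.Geo.decompositionStabilizer D ⊓ Cfsg.Geo.specialLinear (Fin 5) F) ∨
    (∃ K : Subalgebra F (Matrix (Fin 5) (Fin 5) F), Cfsg.Geo.IsFieldSubalgebra 5 K ∧ H = Cfsg.Geo.subalgebraNormalizer K ⊓ Cfsg.Geo.specialLinear (Fin 5) F) ∨
    (∃ (F₀ : Subfield F) (r : ℕ) (P : Matrix.GeneralLinearGroup (Fin 5) F), r.Prime ∧ Fintype.card F = Nat.card F₀ ^ r ∧ H = Cfsg.Geo.subfieldSubgroup F₀ P ⊓ Cfsg.Geo.specialLinear (Fin 5) F) ∨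
    ((∃ p : ℕ, p.Prime ∧ Fintype.card F = p ∧ (p % 5 = 1)) ∧ ∃ R : Subgroup (Matrix.GeneralLinearGroup (Fin 5) F), Cfsg.Geo.IsLinearSymplecticTypeData 5 R ∧ H = Cfsg.Geo.subgroupNormalizer R ⊓ Cfsg.Geo.specialLinear (Fin 5) F) ∨
    (Odd (Fintype.card F) ∧ ∃ Q : (Fin 5 → F) → F, Cfsg.Geo.IsNondegenerateQuadraticForm Q ∧ H = Cfsg.Geo.quadSimilarityGroup Q ⊓ Cfsg.Geo.specialLinear (Fin 5) F) ∨
    (∃ (σ : F ≃+* F) (f : (Fin 5 → F) → (Fin 5 → F) → F), Cfsg.Geo.IsUnitaryForm σ f ∧ H = Cfsg.Geo.similarityGroup f ⊓ Cfsg.Geo.specialLinear (Fin 5) F) ∨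
    Cfsg.Geo.InLinearResidualClass H := by
  rcases H7.max_SL (by simp) hH with h | h
  swap
  · exact Or.inr (Or.inr (Or.inr (Or.inr (Or.inr (Or.inr (Or.inr (h)))))))
  rcases h with h | ⟨t, m, D, hD, ht, hm, htm, a1, a2, a3, a4, h⟩ | ⟨r, K, hr, hd, hK, a1, h⟩ |
    ⟨a, b, e, P, ha, hab, hn, a1, h⟩ | h | ⟨r, k, R, hr, hk, hn, hR, h⟩ |
    ⟨m, t, e, P, hm, ht, hn, h⟩ | ⟨f, hf, he, h⟩ | h | h
  · exact Or.inl h
  · rw [Fintype.card_fin] at htm
    have hc : (t = 5 ∧ m = 1) := by
      have : m ≤ 5 := Nat.le_of_dvd (by norm_num) ⟨t, by rw [← htm, mul_comm]⟩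
      interval_cases m <;> omega
    rcases hc with ⟨rfl, rfl⟩
    · exact Or.inr (Or.inl ⟨a1 rfl, D, hD, h⟩)
  · rw [Fintype.card_fin] at hd
    have hc : r = 5 := by
      have : r ≤ 5 := Nat.le_of_dvd (by norm_num) hd
      interval_cases r <;> simp_all (config := {decide := true})
    rcases hc with rfl
    · exact Or.inr (Or.inr (Or.inl ⟨K, hK, h⟩))
  · rw [Fintype.card_fin] at hn
    exfalso
    have : a ≤ 5 := Nat.le_of_dvd (by norm_num) ⟨b, hn.symm⟩
    interval_cases a <;> omega
  · exact Or.inr (Or.inr (Or.inr (Or.inl h)))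
  · rw [Fintype.card_fin] at hn
    obtain rfl := H7.prime_pow_eq hr hk hn (s := 5) (by norm_num) (by norm_num)
    obtain ⟨p, hp, hc, h4⟩ := H7.IsLinearSymplecticTypeData.field_fermat hR (by simp)
    exact Or.inr (Or.inr (Or.inr (Or.inr (Or.inl ⟨⟨p, hp, hc, h4⟩, R, hR, h⟩))))
  · rw [Fintype.card_fin] at hn
    have h1 : m ^ 2 ≤ m ^ t := Nat.pow_le_pow_right (by omega) ht
    have h2 : m = 3 := by nlinarith
    subst h2
    have h3 : t < 3 := (Nat.pow_lt_pow_iff_right (by norm_num : 1 < 3)).1 (by omega)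
    obtain rfl : t = 2 := by omega
    omega
  · exact absurd he (by simp [Nat.even_iff])
  · exact Or.inr (Or.inr (Or.inr (Or.inr (Or.inr (Or.inr (Or.inl h))))))
  · exact Or.inr (Or.inr (Or.inr (Or.inr (Or.inr (Or.inl h)))))

end Cfsg.Agent.S5793
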