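import Cfsg.Statements.S5811
import Cfsg.Agent.H7.AschSUMax

set_option autoImplicit false
open Cfsg

namespace Cfsg.Agent.S5811

/-- Every maximal subgroup of SU_7(q) is of one of the listed geometric types or lies in the residual class. Let F be the field with q² elements (characteristic p), f the standard unitary form Σ u_i v_i^q on F^7, and H a maximal subgroup of SU_7(q) (inside GL_7(F)). Then H is the intersection with SU_7(q) of one of: the stabiliser of a non-zero totally isotropic subspace; the stabiliser of a non-degenerate 1-, 2- or 3-space; the stabiliser of a decomposition into seven mutually orthogonal non-degenerate 1-spaces; the normaliser of an adjoint-closed degree-7 subfield of the matrix algebra; a subfield group of odd prime index whose F₀-structure carries f; for q odd, a subfield group of index 2 whose F₀-structure carries f; for q = p prime with p ≡ 6 mod 7, or q = p³ with p ≡ 3 or 5 mod 7, the normaliser of an absolutely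 irreducible 7-group R of exponent 7, order 343 and centre of order 7, all of whose characteristic abelian subgroups are cyclic, contained in the similarity group of f — or else H lies in the residual class of the unitary case (modulo scalars H is almost simple, with absolutely irreducible perfect socle preimage realisable over no proper subfield and fixing no non-degenerate quadratic or symplectic form). -/
theorem result {F : Type*} [Field F] [Fintype F] (q : ℕ) (hF : Fintype.card F = q ^ 2) (H : Subgroup (Matrix.GeneralLinearGroup (Fin 7) F)) (hH : Cfsg.Geo.IsMaximalIn (Cfsg.GU 7 F q ⊓ Cfsg.Geo.specialLinear (Fin 7) F) H) :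
    (∃ W : Submodule F (Fin 7 → F), W ≠ ⊥ ∧ Cfsg.Geo.IsTotallySingularFor (Cfsg.hermForm 7 F q) W ∧ H = Cfsg.Geo.subspaceStabilizer W ⊓ (Cfsg.GU 7 F q ⊓ Cfsg.Geo.specialLinear (Fin 7) F)) ∨
    (∃ W : Submodule F (Fin 7 → F), W ≠ ⊥ ∧ Cfsg.Geo.IsNondegenerateOn (Cfsg.hermForm 7 F q) W ∧ 2 * Module.finrank F W < 7 ∧ H = Cfsg.Geo.subspaceStabilizer W ⊓ (Cfsg.GU 7 F q ⊓ Cfsg.Geo.specialLinear (Fin 7) F)) ∨
    (∃ D : Fin 7 → Submodule F (Fin 7 → F), Cfsg.Geo.IsNondegenerateMDecomposition (Cfsg.hermForm 7 F q) 1 D ∧ H = Cfsg.Geo.decompositionStabilizer D ⊓ (Cfsg.GU 7 F q ⊓ Cfsg.Geo.specialLinear (Fin 7) F)) ∨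
    (∃ K : Subalgebra F (Matrix (Fin 7) (Fin 7) F), Cfsg.Geo.IsFieldSubalgebra 7 K ∧ Cfsg.Geo.IsAdjointClosedFor (Cfsg.hermForm 7 F q) K ∧ H = Cfsg.Geo.subalgebraNormalizer K ⊓ (Cfsg.GU 7 F q ⊓ Cfsg.Geo.specialLinear (Fin 7) F)) ∨
    (∃ (F₀ : Subfield F) (r : ℕ) (P : Matrix.GeneralLinearGroup (Fin 7) F), r.Prime ∧ Odd r ∧ Fintype.card F = Nat.card F₀ ^ r ∧ Cfsg.Geo.IsFormRationalStructure (Cfsg.hermForm 7 F q) F₀ 1 P ∧ H = Cfsg.Geo.subfieldSubgroup F₀ P ⊓ (Cfsg.GU 7 F q ⊓ Cfsg.Geo.specialLinear (Fin 7) F)) ∨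
    (Odd q ∧ ∃ (F₀ : Subfield F) (P : Matrix.GeneralLinearGroup (Fin 7) F), Fintype.card F = Nat.card F₀ ^ 2 ∧ Cfsg.Geo.IsFormRationalStructure (Cfsg.hermForm 7 F q) F₀ 1 P ∧ H = Cfsg.Geo.subfieldSubgroup F₀ P ⊓ (Cfsg.GU 7 F q ⊓ Cfsg.Geo.specialLinear (Fin 7) F)) ∨
    (∃ (p : ℕ) (R : Subgroup (Matrix.GeneralLinearGroup (Fin 7) F)), p.Prime ∧ CharP F p ∧ ((q = p ∧ p % 7 = 6) ∨ (q = p ^ 3 ∧ (p % 7 = 3 ∨ p % 7 = 5))) ∧ Cfsg.Geo.IsSymplecticTypeGroup 7 R ∧ Cfsg.Geo.ActsAbsolutelyIrreducibly (Cfsg.Geo.matrixSet R) ∧ R ≤ Cfsg.Geo.similarityGroup (Cfsg.hermForm 7 F q) ∧ Nat.card R = 343 ∧ Nat.card (Subgroup.center R) = 7 ∧ H = Cfsg.Geo.subgroupNormalizer R ⊓ (Cfsg.GU 7 F q ⊓ Cfsg.Geo.specialLinear (Fin 7) F)) ∨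
    Cfsg.Geo.InUnitaryResidualClass H := by
  obtain ⟨σ, hσ⟩ := H7.exists_qHom hF
  have hf := H7.hform_hermForm hF hσ 7
  have hq2 := H7.two_le_q hF
  change Geo.IsMaximalIn (H7.SUf (hermForm 7 F q)) H at hH
  rcases H7.max_SU hF hσ hf (by simp) (by simp) hH with h | h
  swap
  · exact Or.inr (Or.inr (Or.inr (Or.inr (Or.inr (Or.inr (Or.inr (h)))))))
  rcases h with h | ⟨W, h0, h1, h2, h⟩ | ⟨t, m, D, hD, ht, hm, htm, a1, h⟩ | ⟨k, D, hk, hD, hts, h⟩ |
    ⟨r, K, hr, ho, hd, hK, hadj, h⟩ | ⟨a, b, e, P, f₁, f₂, ha, hab, hn, a1, u1, u2, hs, h⟩ | h |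
    ⟨R, r, p, e, k, hR, h⟩ | ⟨m, t, e, P, f₁, hm, ht, hn, a1, u1, hs, h⟩
  · exact Or.inl h
  · exact Or.inr (Or.inl ⟨W, h0, h1, by simpa using h2, h⟩)
  · rw [Fintype.card_fin] at htm
    have hc : (t = 7 ∧ m = 1) := by
      have : m ≤ 7 := Nat.le_of_dvd (by norm_num) ⟨t, by rw [← htm, mul_comm]⟩
      interval_cases m <;> omega
    rcases hc with ⟨rfl, rfl⟩
    · exact Or.inr (Or.inr (Or.inl ⟨D, hD, h⟩))
  · rw [Fintype.card_fin] at hk
    omega
  · rw [Fintype.card_fin] at hd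
    have hc : r = 7 := by
      have : r ≤ 7 := Nat.le_of_dvd (by norm_num) hd
      interval_cases r <;> simp_all (config := {decide := true})
    subst hc
    exact Or.inr (Or.inr (Or.inr (Or.inl ⟨K, hK, hadj, h⟩)))
  · rw [Fintype.card_fin] at hn
    exfalso
    have : a ≤ 7 := Nat.le_of_dvd (by norm_num) ⟨b, hn.symm⟩
    interval_cases a <;> omega
  · skip
    rcases h with h | h | ⟨he, h⟩
    · exact Or.inr (Or.inr (Or.inr (Or.inr (Or.inl h))))
    · exact Or.inr (Or.inr (Or.inr (Or.inr (Or.inr (Or.inl h)))))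
    · exact absurd he (by simp [Nat.even_iff])
  · have hn := hR.card.symm
    have hk := hR.pos
    have hr := hR.data.prime
    rw [Fintype.card_fin] at hn
    obtain rfl := H7.prime_pow_eq hr hk hn (s := 7) (by norm_num) (by norm_num)
    obtain rfl : k = 1 := Nat.pow_right_injective (by norm_num : 2 ≤ 7) (hn.trans (by norm_num))
    have s1 := hR.data.isSymplecticTypeGroup (by simp)
    have s2 := H7.absIrr_iff.1 hR.data.abs
    obtain ⟨hp, hch, hz, hc, j, hj0, hj, hd, h1, h2⟩ := hR.field_odd hF (by norm_num)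
    have hj' : j = 1 ∨ j = 3 := by
      have := Nat.le_of_dvd (by norm_num) hd
      have : j ≤ 7 := by omega
      interval_cases j <;> simp_all (config := {decide := true})
    have h4 : p % 7 < 7 := Nat.mod_lt _ (by norm_num)
    refine Or.inr (Or.inr (Or.inr (Or.inr (Or.inr (Or.inr (Or.inl ⟨p, R, hp, hch, ?_, s1, s2, hR.sim, hc, hz, h⟩))))))
    have h3 := h2 1 (by norm_num) (by omega)
    rcases hj' with rfl | rfl
    · refine Or.inl ⟨by rw [hj, pow_one], ?_⟩
      generalize p % 7 = x at h1 h3 h4 ⊢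
      interval_cases x <;> simp_all
    · refine Or.inr ⟨hj, ?_⟩
      have h5 := h2 2 (by norm_num) (by norm_num)
      have h6 := h2 3 (by norm_num) (by norm_num)
      generalize p % 7 = x at h1 h3 h4 h5 h6 ⊢
      interval_cases x <;> simp_all
  · rw [Fintype.card_fin] at hn
    have h1 : m ^ 2 ≤ m ^ t := Nat.pow_le_pow_right (by omega) ht
    nlinarith

end Cfsg.Agent.S5811
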