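import Cfsg.Statements.S5826
import Cfsg.Agent.H8.OAsch7

set_option autoImplicit false
open Cfsg

namespace Cfsg.Agent.S5826

/-- Every maximal subgroup of Ω_8^-(q) is of one of the listed geometric types or lies in the residual class. Let F be a finite field with q elements, Q a non-degenerate quadratic form on F^8 of minus type (no totally singular 4-space), Ω the commutator subgroup of its isometry group, and H a maximal subgroup of Ω (inside GL_8(F)). Then H is the intersection with Ω of one of: the stabiliser of a non-zero totally singular subspace; for q odd, the stabiliser of a non-degenerate subspace of odd dimension; the stabiliser of a non-degenerate 2-space of minus type; for q ≥ 4, the stabiliser of a non-degenerate 2-space of plus type; the stabiliser of a non-degenerate 4-space; for q even, the stabiliser of the span of a non-singular vector; the normaliser of a degree-2 subfield of the matrix algebra; a subfield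 group of odd prime index whose F₀-structure carries a non-zero multiple of Q — or else H lies in the residual class of the orthogonal case (modulo scalars H is almost simple, with absolutely irreducible perfect socle preimage realisable over no proper subfield and fixing no non-degenerate unitary form). -/
theorem result {F : Type*} [Field F] [Fintype F] (Q : (Fin 8 → F) → F) (hQ : Cfsg.Geo.IsNondegenerateQuadraticForm Q) (hminus : ¬ Cfsg.Geo.IsPlusTypeOn Q ⊤) (H : Subgroup (Matrix.GeneralLinearGroup (Fin 8) F)) (hH : Cfsg.Geo.IsMaximalIn (Cfsg.Geo.omegaGL Q) H) :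
    (∃ W : Submodule F (Fin 8 → F), W ≠ ⊥ ∧ Cfsg.Geo.IsTotallySingularQuad Q W ∧ H = Cfsg.Geo.subspaceStabilizer W ⊓ Cfsg.Geo.omegaGL Q) ∨
    (Odd (Fintype.card F) ∧ ∃ W : Submodule F (Fin 8 → F), W ≠ ⊥ ∧ W ≠ ⊤ ∧ Odd (Module.finrank F W) ∧ Cfsg.Geo.IsNondegenerateOn (QuadraticMap.polar Q) W ∧ H = Cfsg.Geo.subspaceStabilizer W ⊓ Cfsg.Geo.omegaGL Q) ∨
    (∃ W : Submodule F (Fin 8 → F), Module.finrank F W = 2 ∧ Cfsg.Geo.IsNondegenerateOn (QuadraticMap.polar Q) W ∧ ¬ Cfsg.Geo.IsPlusTypeOn Q W ∧ H = Cfsg.Geo.subspaceStabilizer W ⊓ Cfsg.Geo.omegaGL Q) ∨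
    (4 ≤ Fintype.card F ∧ ∃ W : Submodule F (Fin 8 → F), Module.finrank F W = 2 ∧ Cfsg.Geo.IsNondegenerateOn (QuadraticMap.polar Q) W ∧ Cfsg.Geo.IsPlusTypeOn Q W ∧ H = Cfsg.Geo.subspaceStabilizer W ⊓ Cfsg.Geo.omegaGL Q) ∨
    (∃ W : Submodule F (Fin 8 → F), Module.finrank F W = 4 ∧ Cfsg.Geo.IsNondegenerateOn (QuadraticMap.polar Q) W ∧ H = Cfsg.Geo.subspaceStabilizer W ⊓ Cfsg.Geo.omegaGL Q) ∨
    (¬ Odd (Fintype.card F) ∧ ∃ v : (Fin 8 → F), Q v ≠ 0 ∧ H = Cfsg.Geo.subspaceStabilizer (Submodule.span F {v}) ⊓ Cfsg.Geo.omegaGL Q) ∨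
    (∃ K : Subalgebra F (Matrix (Fin 8) (Fin 8) F), Cfsg.Geo.IsFieldSubalgebra 2 K ∧ H = Cfsg.Geo.subalgebraNormalizer K ⊓ Cfsg.Geo.omegaGL Q) ∨
    (∃ (F₀ : Subfield F) (r : ℕ) (P : Matrix.GeneralLinearGroup (Fin 8) F) (ζ : F), r.Prime ∧ Odd r ∧ Fintype.card F = Nat.card F₀ ^ r ∧ ζ ≠ 0 ∧ Cfsg.Geo.IsQuadFormRationalStructure (fun v : Fin 8 → F => ζ * Q v) F₀ P ∧ H = Cfsg.Geo.subfieldSubgroup F₀ P ⊓ Cfsg.Geo.omegaGL Q) ∨
    Cfsg.Geo.InOrthogonalResidualClass H := by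
  have hc : Fintype.card (Fin 8) = 8 := Fintype.card_fin _
  have hq := Fintype.one_lt_card (α := F)
  rcases H8.asch_orth hQ (by omega) (Or.inr (by omega)) hH.1.le with ⟨W, h0, hW, hs⟩ |
    ⟨W, h0, hW, hd, hs⟩ | ⟨h, v, hv, hs⟩ | ⟨t, k, D, hD, hs, hk⟩ | h |
    ⟨r, K, hr, hK, hsa, hs, h1, -, h2, h3⟩ | ⟨K, hK, h1, h2, h3, hs, -, h4⟩ |
    ⟨hodd, a, b, e, P, f₁, f₂, h1, h2, h3, h4, h5, h6, h7, hs, h8⟩ |
    ⟨h0, hp, b, e, P, f₁, f₂, h1, h2, h3, h4, h5, h6, hs⟩ | ⟨k, t, e, P, f₁, h1, h2, h3, -⟩ | h |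
    ⟨h, hp⟩ | h
  · exact Or.inl (⟨W, h0, hW, (H8.ts_max hQ (by omega) hH h0 hW hs).1⟩)
  · obtain ⟨h1, h2, h3, h4⟩ := H8.nd_max hQ (by omega) hH h0 hW (by omega) hs
    rcases Nat.even_or_odd (Module.finrank F W) with he | ho
    · by_cases h5 : Module.finrank F W = 2
      · by_cases hp : Cfsg.Geo.IsPlusTypeOn Q W
        · exact Or.inr (Or.inr (Or.inr (Or.inl (⟨h4 h5 hp, W, h5, hW, hp, h1⟩))))
        · exact Or.inr (Or.inr (Or.inl (⟨W, h5, hW, hp, h1⟩)))
      · rw [Nat.even_iff] at he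
        exact Or.inr (Or.inr (Or.inr (Or.inr (Or.inl (⟨W, by omega, hW, h1⟩)))))
    · exact Or.inr (Or.inl (⟨H8.odd_card_of_odd_finrank hQ hW ho, W, h0, h2, ho, hW, h1⟩))
  · exact Or.inr (Or.inr (Or.inr (Or.inr (Or.inr (Or.inl (⟨h, v, hv, H8.line_max hQ (by omega) hH hv hs⟩))))))
  · exfalso
    obtain ⟨-, h2, h3, h4, -⟩ := H8.dec_max hQ (by omega) hH hD hs
    rw [hc] at h2
    have h7 : k ≤ 4 := by nlinarith
    apply hminus
    interval_cases k
    · exact (H8.plus_top_odd hQ hD (by decide) (j := 4) (by omega)).2 (Or.inr (by decide))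
    · obtain rfl : t = 4 := by omega
      exact (H8.plus_top_even hQ hD (by decide) 0).2 (Or.inr (by decide))
    · omega
    · obtain rfl : t = 2 := by omega
      exact (H8.plus_top_even hQ hD (by decide) 0).2 (Or.inr (by decide))
  · exact absurd (H8.CD2.plus hQ h) hminus
  · rw [hc] at h1
    obtain rfl : r = 2 := (Nat.prime_dvd_prime_iff_eq hr Nat.prime_two).1
      (hr.dvd_of_dvd_pow (n := 3) h1)
    exact Or.inr (Or.inr (Or.inr (Or.inr (Or.inr (Or.inr (Or.inl (⟨K, hK, H8.eq_of_max hH hs (H8.not_le_field hQ (by omega) le_rfl hK)⟩)))))))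
  · exact absurd (h4.2 (by rw [hc]; decide)) hminus
  · rw [hc] at h3
    nlinarith
  · exact absurd hp hminus
  · rw [hc] at h3
    have h7 : k ^ 2 ≤ 8 := h3 ▸ Nat.pow_le_pow_right (by omega) h2
    obtain rfl : k = 3 := by nlinarith
    have h8 : 3 ^ t % 2 = 1 := Nat.odd_iff.1 (Odd.pow (by decide))
    omega
  · exact Or.inr (Or.inr (Or.inr (Or.inr (Or.inr (Or.inr (Or.inr (Or.inl (H8.csub_max_minus hQ (by omega) (by rw [hc]; decide) hminus hH h))))))))
  · exact absurd hp hminus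
  · exact Or.inr (Or.inr (Or.inr (Or.inr (Or.inr (Or.inr (Or.inr (Or.inr (h))))))))

end Cfsg.Agent.S5826
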