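import Cfsg.Statements.S5859
import Cfsg.Agent.H8.OAsch7

set_option autoImplicit false
open Cfsg

namespace Cfsg.Agent.S5859

/-- Every maximal subgroup of Ω_11(q), q odd, is of one of the listed geometric types or lies in the residual class. Let F be a finite field of odd order q, Q the standard quadratic form x₀² + Σ x_i y_i on F^11 (coordinates Unit ⊕ (Fin 5 ⊕ Fin 5)), Ω the commutator subgroup of its isometry group, and H a maximal subgroup of Ω (inside GL_11(F)). Then H is the intersection with Ω of one of: the stabiliser of a non-zero totally singular subspace; the stabiliser of a non-zero non-degenerate subspace of even dimension (not a plus-type plane when q = 3); for q prime, the stabiliser of a decomposition into eleven pairwise orthogonal, pairwise isometric non-degenerate 1-spaces; a subfield group (|F| = |F₀|^r, r prime) whose F₀-structure carries Q — or else H lies in the residual class of the orthogonal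 case (modulo scalars H is almost simple, with absolutely irreducible perfect socle preimage realisable over no proper subfield and fixing no non-degenerate unitary form). -/
theorem result {F : Type*} [Field F] [Fintype F] (hodd : Odd (Fintype.card F)) (H : Subgroup (Matrix.GeneralLinearGroup (Unit ⊕ (Fin 5 ⊕ Fin 5)) F)) (hH : Cfsg.Geo.IsMaximalIn (Cfsg.Geo.omegaGL (Cfsg.quadFormOdd 5 F)) H) :
    (∃ W : Submodule F (Unit ⊕ (Fin 5 ⊕ Fin 5) → F), W ≠ ⊥ ∧ Cfsg.Geo.IsTotallySingularQuad (Cfsg.quadFormOdd 5 F) W ∧ H = Cfsg.Geo.subspaceStabilizer W ⊓ Cfsg.Geo.omegaGL (Cfsg.quadFormOdd 5 F)) ∨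
    (∃ W : Submodule F (Unit ⊕ (Fin 5 ⊕ Fin 5) → F), W ≠ ⊥ ∧ Even (Module.finrank F W) ∧ Cfsg.Geo.IsNondegenerateOn (QuadraticMap.polar (Cfsg.quadFormOdd 5 F)) W ∧ ¬ (Fintype.card F = 3 ∧ Module.finrank F W = 2 ∧ Cfsg.Geo.IsPlusTypeOn (Cfsg.quadFormOdd 5 F) W) ∧ H = Cfsg.Geo.subspaceStabilizer W ⊓ Cfsg.Geo.omegaGL (Cfsg.quadFormOdd 5 F)) ∨
    ((Fintype.card F).Prime ∧ ∃ D : Fin 11 → Submodule F (Unit ⊕ (Fin 5 ⊕ Fin 5) → F), Cfsg.Geo.IsOrthogonalMDecomposition (Cfsg.quadFormOdd 5 F) 1 D ∧ H = Cfsg.Geo.decompositionStabilizer D ⊓ Cfsg.Geo.omegaGL (Cfsg.quadFormOdd 5 F)) ∨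
    (∃ (F₀ : Subfield F) (r : ℕ) (P : Matrix.GeneralLinearGroup (Unit ⊕ (Fin 5 ⊕ Fin 5)) F), r.Prime ∧ Fintype.card F = Nat.card F₀ ^ r ∧ Cfsg.Geo.IsQuadFormRationalStructure (Cfsg.quadFormOdd 5 F) F₀ P ∧ H = Cfsg.Geo.subfieldSubgroup F₀ P ⊓ Cfsg.Geo.omegaGL (Cfsg.quadFormOdd 5 F)) ∨
    Cfsg.Geo.InOrthogonalResidualClass H := by
  have hQ := Orth.quadFormOdd_nondeg hodd 5
  have hc : Fintype.card (Unit ⊕ (Fin 5 ⊕ Fin 5)) = 11 := by simp
  have ho : Odd (Fintype.card (Unit ⊕ (Fin 5 ⊕ Fin 5))) := by rw [hc]; decide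
  have hp : Nat.Prime 11 := by norm_num
  rcases H8.asch_orth hQ (by omega) (Or.inl ho) hH.1.le with ⟨W, h0, hW, hs⟩ | ⟨W, h0, hW, hd, hs⟩ |
    ⟨h, -⟩ | ⟨t, k, D, hD, hs, hk⟩ | ⟨k, D, hk, -⟩ | ⟨r, K, hr, hK, hsa, hs, h2, h1, -⟩ |
    ⟨K, -, -, -, -, -, h, -⟩ | ⟨-, a, b, e, P, f₁, f₂, h1, h2, h3, -⟩ |
    ⟨-, -, b, e, P, f₁, f₂, h, -⟩ | ⟨k, t, e, P, f₁, h1, h2, h3, -⟩ | h | ⟨h, -⟩ | h
  · exact Or.inl ⟨W, h0, hW, (H8.ts_max hQ (by omega) hH h0 hW hs).1⟩
  · exact Or.inr (Or.inl (H8.nd_max_odd hQ (by omega) ho hH h0 hW hd hs))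
  · exact absurd hodd h
  · obtain ⟨h1, h2, h3, h4, -⟩ := H8.dec_max hQ (by omega) hH hD hs
    rw [hc] at h2
    obtain rfl : t = 11 := by
      rcases (Nat.dvd_prime hp).1 ⟨k, h2.symm⟩ with h | h <;> omega
    obtain rfl : k = 1 := by omega
    exact Or.inr (Or.inr (Or.inl ⟨hk rfl, D, hD, h1⟩))
  · omega
  · rw [hc] at h1 h2
    exact absurd ((Nat.prime_dvd_prime_iff_eq hr hp).1 h2) (h1 (by decide))
  · omega
  · rw [hc] at h3
    rcases (Nat.dvd_prime hp).1 ⟨b, h3.symm⟩ with h | h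
    · omega
    · subst h; omega
  · omega
  · rw [hc] at h3
    have := (hp.pow_eq_iff (a := k) (k := t)).1 h3
    omega
  · exact Or.inr (Or.inr (Or.inr (Or.inl
      (H8.csub_max_odd hQ (by omega) ho (H8.rational_quadFormOdd 5) hH h))))
  · omega
  · exact Or.inr (Or.inr (Or.inr (Or.inr h)))

end Cfsg.Agent.S5859
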