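import Cfsg.Statements.S5876
import Cfsg.Agent.H8.Eig

set_option autoImplicit false
open Cfsg
open scoped commutatorElement

namespace Cfsg.Agent.S5876

/-- Fixed-point spaces in primitive soluble linear groups. Let F be a finite field and G a soluble subgroup of GL_n(F) that acts irreducibly on F^n and primitively (G preserves no decomposition of F^n into two or more independent subspaces of equal dimension). Then every non-identity element g of G has fixed-point space {v : g v = v} of dimension at most 3n/4. -/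
theorem result {F : Type*} [Field F] [Fintype F] {n : ℕ} (G : Subgroup (Matrix.GeneralLinearGroup (Fin n) F)) (hsol : IsSolvable G) (hirr : Cfsg.Geo.ActsIrreducibly (Cfsg.Geo.matrixSet G)) (hprim : ∀ (m t : ℕ) (D : Fin t → Submodule F (Fin n → F)), 2 ≤ t → Cfsg.Geo.IsMDecomposition m D → ¬ G ≤ Cfsg.Geo.decompositionStabilizer D) (g : Matrix.GeneralLinearGroup (Fin n) F) (hg : g ∈ G) (hg1 : g ≠ 1) :
    4 * Module.finrank F (Module.End.eigenspace (Matrix.toLin' (g : Matrix (Fin n) (Fin n) F)) 1) ≤ 3 * n := by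
  classical
  rcases Nat.eq_zero_or_pos n with rfl | hn
  · exact absurd (Subsingleton.elim _ _) hg1
  have : Nonempty (Fin n) := ⟨⟨0, hn⟩⟩
  have hirr' := H7.irr_iff.mpr hirr
  -- abelian normal subgroups act without fixed points
  have hfpf : ∀ A : Subgroup G, A.Normal → (∀ a ∈ A, ∀ b ∈ A, a * b = b * a) → ∀ a ∈ A, a ≠ 1 →
      Module.finrank F (H8.Eig (a : Matrix.GeneralLinearGroup (Fin n) F) 1) = 0 := by
    intro A hAn hAc a ha ha1
    have hN : H7.NormG G (A.map G.subtype) := by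
      rintro h hh _ ⟨x, hx, rfl⟩
      exact ⟨_, hAn.conj_mem x hx ⟨h, hh⟩, rfl⟩
    have hc : ∀ x ∈ H7.spanAlg (A.map G.subtype), ∀ y ∈ H7.spanAlg (A.map G.subtype),
        x * y = y * x := by
      intro x hx y hy
      refine H7.comm_spanAlg ?_ hy
      rintro _ ⟨u, hu, rfl⟩
      refine (H7.comm_spanAlg ?_ hx).symm
      rintro _ ⟨v, hv, rfl⟩
      rw [← Units.val_mul, ← Units.val_mul, ← map_mul, ← map_mul, hAc u hu v hv]
    have hZ := hN.normA
    rcases hirr'.idem_or_field hZ hc with ⟨e, he, hee, h0, h1⟩ | hinv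
    · exfalso
      obtain ⟨e, he, h0, h1, -, horth⟩ := H7.exists_orth_idem (H := G)
        (E := {e | e ∈ H7.spanAlg (A.map G.subtype) ∧ e * e = e}) (fun e he => he.2)
        (fun e he f hf => ⟨Subalgebra.mul_mem _ he.1 hf.1, by
          rw [mul_assoc, ← mul_assoc f, ← hc e he.1 f hf.1, mul_assoc, hf.2, ← mul_assoc, he.2]⟩)
        (fun e he f hf => hc e he.1 f hf.1)
        (fun h hh e he => ⟨hZ h hh e he.1, by rw [← map_mul, he.2]⟩) ⟨e, ⟨he, hee⟩, h0, h1⟩
      obtain ⟨t, m, D, E, hD, hH, -⟩ := hirr'.exists_decomp he.2 h0 h1 horth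
      exact hprim m t D hD.two_le hD hH
    · obtain ⟨y, hy, hy'⟩ := hinv (((a : Matrix.GeneralLinearGroup (Fin n) F) : Matrix (Fin n) (Fin n) F) - 1)
        (Subalgebra.sub_mem _ (H7.mem_spanAlg ⟨a, ha, rfl⟩) (Subalgebra.one_mem _))
        (fun h => ha1 (Subtype.ext (Units.ext (sub_eq_zero.mp h))))
      rw [Submodule.finrank_eq_zero, eq_bot_iff]
      intro v hv
      rw [H8.mem_Eig, one_smul] at hv
      rw [mul_eq_one_comm] at hy'
      rw [Submodule.mem_bot, ← Matrix.one_mulVec v, ← hy', ← Matrix.mulVec_mulVec, Matrix.sub_mulVec,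
        hv, Matrix.one_mulVec, sub_self, Matrix.mulVec_zero]
  have hsol' : Group.IsSolvable G := hsol
  obtain ⟨A, B, hAn, hBn, hAc, hAB, hBA, hCB⟩ := H8.exists_metabelian_self_centralizing G
  have hcen : ∀ y : G, y ≠ 1 → (∀ b ∈ B, b * y = y * b) →
      Module.finrank F (H8.Eig (y : Matrix.GeneralLinearGroup (Fin n) F) 1) = 0 := by
    intro y hy1 hy
    exact hfpf (B ⊓ Subgroup.centralizer (B : Set G)) inferInstance
      (fun a ha b hb => hb.2 a ha.1) y ⟨hCB y hy, hy⟩ hy1
  have hne : ∀ y b : G, b * y ≠ y * b → y⁻¹ * (b * y * b⁻¹) ≠ 1 := by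
    intro y b h hc
    apply h
    rw [inv_mul_eq_one, eq_mul_inv_iff_mul_eq] at hc
    exact hc.symm
  have hB : ∀ y ∈ B, y ≠ 1 →
      2 * Module.finrank F (H8.Eig (y : Matrix.GeneralLinearGroup (Fin n) F) 1) ≤ n := by
    intro y hyB hy1
    by_cases hy : ∀ b ∈ B, b * y = y * b
    · rw [hcen y hy1 hy]; omega
    · push Not at hy
      obtain ⟨b, hb, hb'⟩ := hy
      have h1 := H8.two_mul_finrank_Eig_le' (y : Matrix.GeneralLinearGroup (Fin n) F) b 1
      have h2 := hfpf A hAn hAc (y⁻¹ * (b * y * b⁻¹)) (by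
        have := hBA _ (B.inv_mem hyB) _ hb
        simpa [commutatorElement_def, mul_assoc] using this) (hne y b hb')
      simp only [Subgroup.coe_mul, Subgroup.coe_inv] at h2
      rw [h2, Fintype.card_fin] at h1
      omega
  obtain ⟨y, rfl⟩ : ∃ y : G, (y : Matrix.GeneralLinearGroup (Fin n) F) = g := ⟨⟨g, hg⟩, rfl⟩
  have hg1' : y ≠ 1 := fun h => hg1 (by rw [h]; rfl)
  change 4 * Module.finrank F (H8.Eig (y : Matrix.GeneralLinearGroup (Fin n) F) 1) ≤ 3 * n
  by_cases hy : ∀ b ∈ B, b * y = y * b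
  · have := hcen _ hg1' hy
    omega
  · push Not at hy
    obtain ⟨b, hb, hb'⟩ := hy
    have h1 := H8.two_mul_finrank_Eig_le' (y : Matrix.GeneralLinearGroup (Fin n) F) b 1
    have h3 : y⁻¹ * (b * y * b⁻¹) ∈ B := by
      have := B.mul_mem (hBn.conj_mem' b hb y) (B.inv_mem hb)
      simpa only [mul_assoc] using this
    have h2 := hB _ h3 (hne _ b hb')
    simp only [Subgroup.coe_mul, Subgroup.coe_inv] at h2
    rw [Fintype.card_fin] at h1
    omega

end Cfsg.Agent.S5876
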