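import Cfsg.Statements.S5877
import Cfsg.Agent.H3.ExtraEig

set_option autoImplicit false
open Cfsg

namespace Cfsg.Agent.S5877

open Module Module.End Cfsg.Agent.H3 in
theorem extra_main {F V : Type*} [Field F] [AddCommGroup V] [Module F V] [FiniteDimensional F V]
    {Γ : Type*} [Group Γ] (ρ : Γ →* End F V) (s : Fˣ →* Γ) (hs : ∀ c v, ρ (s c) v = (c : F) • v)
    (hinj : Function.Injective s) (hz : ∀ c u, s c * u = u * s c)
    (E : Subgroup Γ) {g : Γ} (hg : ∀ u ∈ E, g * u * g⁻¹ ∈ E) {ϖ r : ℕ} (hr : r.Prime) (hϖ : ϖ.Prime)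
    (hgm : g ^ ϖ = 1) (hcomm : ∀ u ∈ E, ∀ v ∈ E, ∃ c, c ^ r = 1 ∧ u * v = s c * (v * u))
    (hnd : ∀ u ∈ E, (∀ v ∈ E, u * v = v * u) → u ∈ s.range) {ζ : F} (hζ : IsPrimitiveRoot ζ r)
    (hns : ∃ x ∈ E, g * x ≠ x * g) (c : F) :
    (ϖ = 2 → 4 * finrank F ((ρ g).eigenspace c) ≤ 3 * finrank F V) ∧
    (ϖ = 3 → 3 * finrank F ((ρ g).eigenspace c) ≤ 2 * finrank F V) ∧
    (3 < ϖ → 2 * finrank F ((ρ g).eigenspace c) ≤ finrank F V) ∧
    (ϖ = 3 → ¬ 3 ∣ finrank F V → 2 * finrank F ((ρ g).eigenspace c) ≤ finrank F V) := by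
  have hN : ∀ x ∈ E, cN g x ∈ E := fun x hx => E.mul_mem (E.inv_mem hx) (hg x hx)
  have hsc : ∀ x l, cN g x = s l → l ≠ 1 → 2 * finrank F ((ρ g).eigenspace c) ≤ finrank F V := by
    intro x l h hl
    refine two_mul_finrank_eig_le ρ s hs (x := x) ?_ hl c
    rw [← mul_assoc, hz, ← h, cN]
    group
  by_cases hhalf : 2 * finrank F ((ρ g).eigenspace c) ≤ finrank F V
  · refine ⟨fun _ => ?_, fun _ => ?_, fun _ => hhalf, fun _ _ => hhalf⟩ <;> omega
  obtain ⟨x, hx, hxN⟩ : ∃ x ∈ E, cN g x ∉ s.range := by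
    by_contra hcon
    push Not at hcon
    obtain ⟨x, hx, hne⟩ := hns
    obtain ⟨l, hl⟩ := hcon x hx
    refine hhalf (hsc x l hl.symm ?_)
    rintro rfl
    rw [map_one, cN, eq_inv_mul_iff_mul_eq, mul_one, eq_mul_inv_iff_mul_eq] at hl
    exact hne hl.symm
  have hS : ∀ y ∈ E, y ∉ s.range → (∀ b, r * finrank F ((ρ y).eigenspace b) ≤ finrank F V) ∧
      r ∣ finrank F V := by
    intro y hy hy'
    obtain ⟨v, hv, hne⟩ : ∃ v ∈ E, y * v ≠ v * y := by
      by_contra hcon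
      push Not at hcon
      exact hy' (hnd y hy hcon)
    obtain ⟨l, hl, e⟩ := hcomm y hy v hv
    have hl1 : l ≠ 1 := by
      rintro rfl
      exact hne (by simpa using e)
    refine ⟨mul_finrank_eig_le ρ s hs e (inj_of_prime hr hl hl1), ?_⟩
    have : Fact r.Prime := ⟨hr⟩
    rw [← orderOf_eq_prime hl hl1, orderOf_dvd_iff_pow_eq_one]
    have h1 := congrArg (fun z => LinearMap.det (ρ z)) e
    have h2 : ρ (s l) = (l : F) • (1 : End F V) := LinearMap.ext (hs l)
    have h3 : ∀ z, LinearMap.det (ρ z) ≠ 0 := fun z =>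
      (((Group.isUnit z).map ρ).map LinearMap.det).ne_zero
    simp only [map_mul, h2, LinearMap.det_smul, map_one, mul_one] at h1
    rw [mul_comm (LinearMap.det (ρ v))] at h1
    apply Units.ext
    rw [Units.val_pow_eq_pow_val, Units.val_one]
    exact mul_right_cancel₀ (mul_ne_zero (h3 y) (h3 v)) (by rw [← h1, one_mul])
  have h1 := two_mul_le_add_cN ρ g x c
  obtain ⟨h2, h3⟩ := hS _ (hN x hx) hxN
  have h4 := h2 1
  have hr2 := hr.two_le
  have hodd : ϖ ≠ 2 → r = ϖ ∧ ∀ x ∈ E, cN g (cN g (cN g x)) ∈ s.range := by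
    intro hne
    rcases extra_cases s hinj hz E hg (hϖ.odd_of_ne_two hne) hgm hcomm hnd with ⟨y, hy, h⟩ | ⟨h, h'⟩
    · exfalso
      obtain ⟨l, -, e⟩ := hcomm _ (hN y hy) _ (hg _ (hN y hy))
      refine hhalf (two_mul_le_of_noncomm ρ s hs (l := l) ?_ e c)
      rintro rfl
      exact h (by simpa using e)
    · refine ⟨?_, h⟩
      by_contra hne'
      exact hxN (h' ((Nat.coprime_primes hϖ hr).mpr (Ne.symm hne')) x hx)
  refine ⟨fun _ => by nlinarith, fun e => ?_, fun e => ?_, fun e e' => ?_⟩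
  · rw [(hodd (by omega)).1, e] at h4
    omega
  · obtain ⟨rfl, h5⟩ := hodd (by omega)
    have h6 : 5 ≤ r := by
      by_contra hlt
      have : r = 4 := by omega
      subst this
      exact absurd hr (by decide)
    obtain ⟨z, hz', hz1, l, hz2⟩ : ∃ z ∈ E, cN g z ∉ s.range ∧ cN g (cN g z) ∈ s.range := by
      by_cases h : cN g (cN g x) ∈ s.range
      · exact ⟨x, hx, hxN, h⟩
      · exact ⟨_, hN x hx, h, h5 x hx⟩
    by_cases hl : l = 1
    · subst hl
      rw [map_one, cN, eq_inv_mul_iff_mul_eq, mul_one, eq_mul_inv_iff_mul_eq] at hz2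
      obtain ⟨μ, hμ, e⟩ := hcomm _ (hN z hz') z hz'
      refine two_mul_le_weil ρ s hs hr h6 hζ hz2.symm (x := z) (by rw [cN]; group) hμ e ?_
        (hS _ (hN z hz') hz1).1 c
      have hc : Commute (cN g z) g := hz2
      have := hc.mul_pow r
      rw [hgm, mul_one, show cN g z * g = z⁻¹ * g * z⁻¹⁻¹ by rw [cN]; group, conj_pow, hgm] at this
      simpa using this.symm
    · exact hsc _ l hz2.symm hl
  · rw [(hodd (by omega)).1, e] at h3
    exact absurd h3 e'

/-- Eigenspaces of elements normalising an absolutely irreducible extraspecial group. Let F be a finite field, r a prime, and R ≤ GL_n(F) an absolutely irreducible extraspecial r-group (an r-group whose centre equals its derived subgroup and has order r) of exponent r or 4. Let g ∈ GL_n(F) normalise the product of R with the scalar matrices, have prime order ϖ and not be scalar, and let W be the eigenspace of g for any c ∈ F (W may be the zero subspace). Then dim W ≤ 3n/4 if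 ϖ = 2, dim W ≤ 2n/3 if ϖ = 3, and dim W ≤ n/2 if ϖ > 3; moreover if ϖ = 3 and 3 does not divide n then dim W ≤ n/2. -/
theorem result {F : Type*} [Field F] [Fintype F] {n r ϖ : ℕ} (R : Subgroup (Matrix.GeneralLinearGroup (Fin n) F)) (hr : r.Prime) (hR : IsPGroup r R) (hZ : Nat.card (Subgroup.center R) = r) (hext : commutator R = Subgroup.center R) (hexp : Monoid.exponent R = r ∨ Monoid.exponent R = 4) (hirr : Cfsg.Geo.ActsAbsolutelyIrreducibly (Cfsg.Geo.matrixSet R)) (g : Matrix.GeneralLinearGroup (Fin n) F) (hg : g ∈ Cfsg.Geo.subgroupNormalizer (R ⊔ Cfsg.Geo.scalars (Fin n) F)) (hϖ : ϖ.Prime) (hord : orderOf g = ϖ) (hns : g ∉ Cfsg.Geo.scalars (Fin n) F) (c : F) :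
    (ϖ = 2 → 4 * Module.finrank F (Module.End.eigenspace (Matrix.toLin' (g : Matrix (Fin n) (Fin n) F)) c) ≤ 3 * n) ∧
    (ϖ = 3 → 3 * Module.finrank F (Module.End.eigenspace (Matrix.toLin' (g : Matrix (Fin n) (Fin n) F)) c) ≤ 2 * n) ∧
    (3 < ϖ → 2 * Module.finrank F (Module.End.eigenspace (Matrix.toLin' (g : Matrix (Fin n) (Fin n) F)) c) ≤ n) ∧
    (ϖ = 3 → ¬ 3 ∣ n → 2 * Module.finrank F (Module.End.eigenspace (Matrix.toLin' (g : Matrix (Fin n) (Fin n) F)) c) ≤ n) := by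
  rcases Nat.eq_zero_or_pos n with rfl | hn
  · exact absurd (Subsingleton.elim 1 g ▸ Subgroup.one_mem _) hns
  have : Nonempty (Fin n) := ⟨⟨0, hn⟩⟩
  have : Fact r.Prime := ⟨hr⟩
  let s : Fˣ →* GL (Fin n) F := Units.map (Matrix.scalar (Fin n) : F →+* Matrix (Fin n) (Fin n) F).toMonoidHom
  have hsv : ∀ c, (s c : Matrix (Fin n) (Fin n) F) = (c : F) • (1 : Matrix (Fin n) (Fin n) F) := fun c => by
    simp [s, Matrix.smul_one_eq_diagonal]
  have hinj : Function.Injective s := Units.map_injective (fun a b h => Matrix.scalar_inj.mp h)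
  have hz : ∀ c u, s c * u = u * s c := fun c u => Units.ext (by simp [hsv])
  have hsc : ∀ u : GL (Fin n) F, (∀ v ∈ R, u * v = v * u) → u ∈ s.range := by
    intro u hu
    obtain ⟨c, hc⟩ := hirr.2 u (by
      rintro _ ⟨v, hv, rfl⟩
      exact congrArg Units.val (hu v hv))
    have hc0 : c ≠ 0 := by
      rintro rfl
      exact u.ne_zero (by rw [hc, zero_smul])
    exact ⟨Units.mk0 c hc0, Units.ext (by rw [hsv, hc]; rfl)⟩
  have hcen : ∀ z : R, z ∈ Subgroup.center R → ∃ l, l ^ r = 1 ∧ s l = z := by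
    intro z hz'
    obtain ⟨l, hl⟩ := hsc z (fun v hv =>
      (congrArg Subtype.val (Subgroup.mem_center_iff.mp hz' ⟨v, hv⟩)).symm)
    refine ⟨l, hinj ?_, hl⟩
    have := pow_card_eq_one' (G := Subgroup.center R) (x := ⟨z, hz'⟩)
    rw [hZ] at this
    rw [map_pow, map_one, hl]
    exact congrArg (fun w : Subgroup.center R => ((w : R) : GL (Fin n) F)) this
  obtain ⟨ζ, hζ⟩ : ∃ ζ : F, IsPrimitiveRoot ζ r := by
    have : Nontrivial (Subgroup.center R) := Finite.one_lt_card_iff_nontrivial.mp (hZ ▸ hr.one_lt)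
    obtain ⟨z, hz1⟩ := exists_ne (1 : Subgroup.center R)
    obtain ⟨l, hl, e⟩ := hcen z z.2
    refine ⟨l, isPrimitiveRoot_of_mem_nthRootsFinset hr ((Polynomial.mem_nthRootsFinset hr.pos _).mpr
      (by simpa using congrArg Units.val hl)) (fun h => hz1 ?_)⟩
    rw [Units.val_eq_one.mp h, map_one] at e
    exact Subtype.ext (Subtype.ext e.symm)
  have := extra_main (V := Fin n → F)
    ((Matrix.toLinAlgEquiv' (R := F) (n := Fin n)).toMonoidHom.comp (Units.coeHom _)) s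
    (fun c v => by simp [hsv]) hinj hz (R ⊔ Cfsg.Geo.scalars (Fin n) F) (g := g)
    (fun u hu => (hg u).mp hu) hr hϖ (hord ▸ pow_orderOf_eq_one g) (fun u hu v hv => by
      obtain ⟨x, hx, _, ⟨a, rfl⟩, rfl⟩ := Subgroup.mem_sup_of_normal_right.mp hu
      obtain ⟨y, hy, _, ⟨b, rfl⟩, rfl⟩ := Subgroup.mem_sup_of_normal_right.mp hv
      obtain ⟨l, hl, e⟩ := hcen ((⟨x, hx⟩ : R) * ⟨y, hy⟩ * (⟨x, hx⟩ : R)⁻¹ * (⟨y, hy⟩ : R)⁻¹) (hext ▸ Subgroup.commutator_mem_commutator
        (Subgroup.mem_top _) (Subgroup.mem_top _))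
      refine ⟨l, hl, ?_⟩
      rw [e]
      change x * s a * (y * s b) = x * y * x⁻¹ * y⁻¹ * (y * s b * (x * s a))
      rw [mul_assoc x, ← mul_assoc (s a), hz a y, mul_assoc y (s b), ← mul_assoc (s b), hz b x,
        mul_assoc x (s b), ← hz a (s b)]
      group)
    (fun u _ h => hsc u (fun v hv => h v (Subgroup.mem_sup_left hv))) hζ (by
      by_contra hcon
      push Not at hcon
      exact hns (hsc g (fun v hv => hcon v (Subgroup.mem_sup_left hv)))) c
  rw [Module.finrank_fintype_fun_eq_card, Fintype.card_fin] at this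
  exact this

end Cfsg.Agent.S5877
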