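import Cfsg.Statements.S5938
import Cfsg.Agent.H3.PglMax

set_option autoImplicit false
open Cfsg

namespace Cfsg.Agent.S5938



/-- Let p be a prime with p ≡ ±1 (mod 8) and F a field with p elements. Then PSL_2(F) has a maximal subgroup isomorphic to the symmetric group S_4. -/
theorem result {F : Type*} [Field F] [Fintype F] (p : ℕ) [Fact p.Prime] (hF : Fintype.card F = p) (hp : p % 8 = 1 ∨ p % 8 = 7) : ∃ H : Subgroup (Matrix.ProjectiveSpecialLinearGroup (Fin 2) F), IsCoatom H ∧ Nonempty (H ≃* Equiv.Perm (Fin 4)) := by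
  open Cfsg.Agent.H3 Cfsg.Agent.H8 in
  have hq : Nat.card F = p := by rw [Nat.card_eq_fintype_card, hF]
  have hpp : p.Prime := Fact.out
  have h2 : (2 : F) ≠ 0 := odd_card_iff.mp (by rw [hq, Nat.odd_iff]; omega)
  have h5 : 5 ≤ p := by
    have := hpp.two_le
    omega
  obtain ⟨i, j, hK, hi, hj, -⟩ := exists_std_klein h2
  have e := iso_NV h2 hK hi hj
  have hs : IsSquare (2 : F) := isSquare_two_iff_mod.mpr (by omega)
  exact exists_coatom_of_maxIn (maxIn_S4 (hq ▸ hpp) (hq ▸ h5) (S4_le_Lsub hs e) e) e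

end Cfsg.Agent.S5938
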