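import Cfsg.Statements.S5941
import Cfsg.Agent.H3.PglMax

set_option autoImplicit false
open Cfsg

namespace Cfsg.Agent.S5941



/-- Let K and F be finite fields of odd characteristic with #F = (#K)². Then PSL_2(F) has a maximal subgroup isomorphic to PGL_2(K). -/
theorem result {F K : Type*} [Field F] [Fintype F] [Field K] [Fintype K] (q : ℕ) (hK : Fintype.card K = q) (hF : Fintype.card F = q ^ 2) (hq : Odd q) : ∃ H : Subgroup (Matrix.ProjectiveSpecialLinearGroup (Fin 2) F), IsCoatom H ∧ Nonempty (H ≃* Matrix.ProjGenLinGroup (Fin 2) K) := by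
  open Cfsg.Agent.H3 Cfsg.Agent.H8 in
  rw [← Nat.card_eq_fintype_card] at hK hF
  obtain ⟨k, ⟨e⟩⟩ := exists_subfield_equiv (F := F) (K := K) (hK ▸ hF)
  have hk : Nat.card k = q := by rw [← hK, Nat.card_congr e.toEquiv]
  have h2 : (2 : F) ≠ 0 := odd_card_iff.mp (hF ▸ hq.pow)
  exact exists_coatom_of_maxIn (maxIn_PG h2 (hk ▸ hF)) ⟨(pgEquiv k).symm.trans (pglCongr e).symm⟩

end Cfsg.Agent.S5941
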