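import Cfsg.Statements.S5943
import Cfsg.Agent.H3.PglMax

set_option autoImplicit false
open Cfsg

namespace Cfsg.Agent.S5943



/-- Let K and F be finite fields of characteristic 2 with #K = q > 2 and #F = q^r for a prime r. Then PSL_2(F) has a maximal subgroup isomorphic to PSL_2(K) (which equals PGL_2(K) in characteristic 2). -/
theorem result {F K : Type*} [Field F] [Fintype F] [Field K] [Fintype K] (q r : ℕ) (hK : Fintype.card K = q) (hF : Fintype.card F = q ^ r) (hq : Even q) (hq2 : q ≠ 2) (hr : r.Prime) : ∃ H : Subgroup (Matrix.ProjectiveSpecialLinearGroup (Fin 2) F), IsCoatom H ∧ Nonempty (H ≃* Matrix.ProjectiveSpecialLinearGroup (Fin 2) K) := by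
  open Cfsg.Agent.H3 Cfsg.Agent.H8 in
  rw [← Nat.card_eq_fintype_card] at hK hF
  obtain ⟨k, ⟨e⟩⟩ := exists_subfield_equiv (F := F) (K := K) (hK ▸ hF)
  have hk : Nat.card k = q := by rw [← hK, Nat.card_congr e.toEquiv]
  have h3 : 3 ≤ Nat.card k := by
    have : 1 < Nat.card k := Finite.one_lt_card
    omega
  have h2 : (2 : F) = 0 := by
    by_contra h
    have := odd_card_iff.mpr h
    rw [hF] at this
    exact (Nat.not_even_iff_odd.mpr this) ((Nat.even_pow' hr.ne_zero).mpr hq)
  exact exists_coatom_of_maxIn (maxIn_PS h3 hr (hk ▸ hF) (Or.inl h2))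
    ⟨(psEquiv k).symm.trans (pslCongr e).symm⟩

end Cfsg.Agent.S5943
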