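import Cfsg.Statements.S5945
import Cfsg.Agent.H9.SymSix

set_option autoImplicit false
open Cfsg

namespace Cfsg.Agent.S5945

/-- The symmetric group S_6 has exactly 12 subgroups of index 6; each of them is isomorphic to S_5, and at least one of them is not the stabilizer of any point. -/
theorem result : Nat.card {H : Subgroup (Equiv.Perm (Fin 6)) // H.index = 6} = 12 ∧ (∀ H : Subgroup (Equiv.Perm (Fin 6)), H.index = 6 → Nonempty (H ≃* Equiv.Perm (Fin 5))) ∧ ∃ H : Subgroup (Equiv.Perm (Fin 6)), H.index = 6 ∧ ∀ a : Fin 6, H ≠ MulAction.stabilizer (Equiv.Perm (Fin 6)) a := by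
  have h6 : Fintype.card (Fin 6) = 6 := by simp
  obtain ⟨ψ, h1, h2⟩ := Cfsg.Agent.H9.exists_outer_six h6
  have hi1 : ∀ a : Fin 6, (MulAction.stabilizer (Equiv.Perm (Fin 6)) a).index = 6 := fun a => by
    rw [Cfsg.Agent.H9.index_stabilizer_perm, h6]
  have hi2 : ∀ a : Fin 6,
      ((MulAction.stabilizer (Equiv.Perm (Fin 6)) a).map ψ.toMonoidHom).index = 6 := fun a => by
    rw [MulEquiv.toMonoidHom_eq_coe, Subgroup.index_map_equiv, hi1]
  have hinj := Cfsg.Agent.H9.stabilizer_perm_injective (Ω := Fin 6) (by simp)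
  have hiso : ∀ a : Fin 6,
      Nonempty (MulAction.stabilizer (Equiv.Perm (Fin 6)) a ≃* Equiv.Perm (Fin 5)) := fun a => by
    obtain ⟨e⟩ := Cfsg.Agent.H9.stabilizer_perm_equiv a
    have : Fintype.card {x : Fin 6 // x ≠ a} = 5 := by simp
    exact ⟨e.trans (Fintype.equivFinOfCardEq this).permCongrHom⟩
  refine ⟨?_, ?_, ?_⟩
  · let f : Fin 6 ⊕ Fin 6 → {H : Subgroup (Equiv.Perm (Fin 6)) // H.index = 6} :=
      Sum.elim (fun a => ⟨_, hi1 a⟩) (fun a => ⟨_, hi2 a⟩)
    have hf : Function.Bijective f := by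
      constructor
      · rintro (a | a) (b | b) h
        · exact congrArg _ (hinj (congrArg Subtype.val h))
        · exact absurd (congrArg Subtype.val h).symm (h1 _ _)
        · exact absurd (congrArg Subtype.val h) (h1 _ _)
        · exact congrArg _ (hinj (Subgroup.map_injective ψ.injective (congrArg Subtype.val h)))
      · rintro ⟨H, hH⟩
        obtain ⟨b, hb | hb⟩ := h2 H hH
        · exact ⟨Sum.inl b, Subtype.ext hb.symm⟩
        · exact ⟨Sum.inr b, Subtype.ext hb.symm⟩
    rw [← Nat.card_eq_of_bijective f hf]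
    simp
  · intro H hH
    obtain ⟨b, rfl | rfl⟩ := h2 H hH
    · exact hiso b
    · obtain ⟨e⟩ := hiso b
      exact ⟨(Subgroup.equivMapOfInjective _ _ ψ.injective).symm.trans e⟩
  · exact ⟨_, hi2 0, h1 0⟩

end Cfsg.Agent.S5945
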