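import Cfsg.Statements.S5950
import Cfsg.Agent.H6.El5

set_option autoImplicit false
open scoped MatrixGroups
open Cfsg

namespace Cfsg.Agent.S5950

/-- Elements of prime order of PSL_n(q) fixing no decomposition `F^n = U ⊕ W` with `dim U = m`. Here `T = PSL_n(F)` for a field `F` with `q = p^f` elements (`n ≥ 2`, `(n, q) ≠ (2, 2), (2, 3)`); an element of `T` of prime order `r` is represented by a matrix `x` of determinant 1 with `x^r` scalar and `x` not scalar; `i` denotes the multiplicative order of `q` modulo `r` (when `r ≠ p`), and `(a)_r` the `r`-part of `a`. Let `n ≥ 3`, `1 ≤ m < n/2`, and let `r` be a prime dividing the number of such decompositions (unordered pairs `{U, W}` of complementary subspaces with `dim U = m`; since `m ≠ n − m` these are the ordered pairs with `dim U = m`). Then every element of `T` of order `r` fixes such a pair (fixes both `U` and `W` for some complementary `U, W` with `dim U = m`) if and only if one of: (i) `r = p > 2` and every partition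 of `n` into parts of size at most `p` contains, as a sub-multiset, a partition of `m`; (ii) `r = p = 2` and `n` is odd or `m` is even; (iii) `r ≠ p`, `i = 1`, and `r ∣ m` or `(q−1)_r ≥ (n)_r` (with `q ≡ 1 (mod 4)` required when `r = 2` and `n` is even); (iv) `r ≠ p`, `2 ≤ i ≤ m` and `n mod i ≥ m mod i`. -/
theorem result {F : Type*} [Field F] [Fintype F] {p : ℕ} [Fact p.Prime] [CharP F p] {q : ℕ} (hq : Fintype.card F = q)
    (n m : ℕ) (hn : 3 ≤ n) (hm : 1 ≤ m) (hmn : 2 * m < n)
    (r : ℕ) [Fact r.Prime]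
    (hrΩ : r ∣ Nat.card {P : Submodule F (Fin n → F) × Submodule F (Fin n → F) // IsCompl P.1 P.2 ∧ Module.finrank F ↥P.1 = m}) :
    (∀ x : Matrix.SpecialLinearGroup (Fin n) F,
      (∃ c : F, ((x ^ r : Matrix.SpecialLinearGroup (Fin n) F) : Matrix (Fin n) (Fin n) F) = c • (1 : Matrix (Fin n) (Fin n) F)) →
      (∀ c : F, (x : Matrix (Fin n) (Fin n) F) ≠ c • (1 : Matrix (Fin n) (Fin n) F)) →
      ∃ U W : Submodule F (Fin n → F), IsCompl U W ∧ Module.finrank F ↥U = m ∧
        U.map (Matrix.toLin' (x : Matrix (Fin n) (Fin n) F)) ≤ U ∧ W.map (Matrix.toLin' (x : Matrix (Fin n) (Fin n) F)) ≤ W) ↔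
    ((r = p ∧ 2 < p ∧ (∀ μ : Multiset ℕ, (∀ a ∈ μ, 0 < a ∧ a ≤ p) → μ.sum = n → ∃ ν : Multiset ℕ, ν ≤ μ ∧ ν.sum = m)) ∨
     (r = p ∧ p = 2 ∧ (Odd n ∨ Even m)) ∨
     (r ≠ p ∧
      ((orderOf (q : ZMod r) = 1 ∧ (r ∣ m ∨ (padicValNat r n ≤ padicValNat r (q - 1) ∧ (r = 2 → Even n → q % 4 = 1)))) ∨
       (2 ≤ orderOf (q : ZMod r) ∧ orderOf (q : ZMod r) ≤ m ∧ m % orderOf (q : ZMod r) ≤ n % orderOf (q : ZMod r))))) := by
  subst hq
  have hn' : Module.finrank F (Fin n → F) = n := by simp
  rw [H6.El.forall_SL_iff (fun f => ∃ U W : Submodule F (Fin n → F), IsCompl U W ∧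
    Module.finrank F U = m ∧ U.map f ≤ U ∧ W.map f ≤ W)]
  simp only [Submodule.map_le_iff_le_comap]
  by_cases hrp : r = p
  · subst hrp
    refine (H6.El.forall_char_iff (by omega)).trans ?_
    rw [hn']
    have := (Fact.out : r.Prime).two_le
    by_cases h2 : r = 2
    · subst h2
      rw [H6.El.partition_two_iff hmn]
      simp
    · simp [h2, show 2 < r by omega]
  have hr := H6.El.cast_ne_zero_of_ne (F := F) hrp
  rw [H6.El.card_pairs] at hrΩ
  replace hrΩ := ((Fact.out : r.Prime).dvd_mul.1 hrΩ).resolve_right fun h =>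
    H6.El.not_dvd_card hr ((Fact.out : r.Prime).dvd_of_dvd_pow h)
  have h1 := H6.El.card_sub (F := F) (V := Fin n → F) (m := m) (by simp; omega)
  obtain ⟨j, h2, h3, h4⟩ := H6.El.exists_of_dvd_qP Fact.out Fintype.one_lt_card (Nat.sub_le _ m)
    h1.dvd (hrΩ.mul_right _)
  simp only [hrp, false_and, false_or, ne_eq, not_false_eq_true, true_and]
  refine ⟨fun H => hn' ▸ H6.El.cond_of_forall hr h2 h3 h4 fun f hf => ?_,
    fun H f hf => H6.El.forall_of_cond hr (by omega) (hn'.symm ▸ H) hf⟩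
  obtain ⟨U, -, -, h5, h6, -⟩ := H f hf
  exact ⟨U, h5, h6⟩

end Cfsg.Agent.S5950
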