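import Cfsg.Statements.S5952
import Cfsg.Agent.H9.LinBasic


set_option autoImplicit false
open Cfsg

namespace Cfsg.Agent.S5952

theorem finrank_inf_aux {F V : Type*} [Field F] [AddCommGroup V] [Module F V]
    [FiniteDimensional F V] (f : V →ₗ[F] V) (A U W : Submodule F V) (hA : A.map f ≤ A)
    (hU : U.map f ≤ U) (hW : W.map f ≤ W) (hd : Disjoint A U)
    (hirr : ∀ X : Submodule F V, X ≤ U → X.map f ≤ X → X = ⊥ ∨ X = U) :
    Module.finrank F ↥(W ⊓ (A ⊔ U)) = Module.finrank F ↥(W ⊓ A) ∨
    Module.finrank F ↥(W ⊓ (A ⊔ U)) = Module.finrank F ↥(W ⊓ A) + Module.finrank F U := by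
  set W' := W ⊓ (A ⊔ U) with hW'
  have hW'f : W'.map f ≤ W' := by
    refine le_inf ((Submodule.map_mono inf_le_left).trans hW)
      ((Submodule.map_mono inf_le_right).trans ?_)
    rw [Submodule.map_sup]
    exact sup_le_sup hA hU
  have hX : ((W' ⊔ A) ⊓ U).map f ≤ (W' ⊔ A) ⊓ U := by
    refine le_inf ((Submodule.map_mono inf_le_left).trans ?_)
      ((Submodule.map_mono inf_le_right).trans hU)
    rw [Submodule.map_sup]
    exact sup_le_sup hW'f hA
  have h1 : W' ⊓ A = W ⊓ A := by rw [hW', inf_assoc, inf_eq_right.2 (le_sup_left : A ≤ A ⊔ U)]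
  have h2 := Submodule.finrank_sup_add_finrank_inf_eq W' A
  have h3 : W' ⊔ A = A ⊔ ((W' ⊔ A) ⊓ U) := by
    rw [inf_comm, ← sup_inf_assoc_of_le _ (le_sup_right : A ≤ W' ⊔ A)]
    exact (inf_eq_right.2 (sup_le inf_le_right le_sup_left)).symm
  have h4 := Submodule.finrank_sup_add_finrank_inf_eq A U
  rw [hd.eq_bot, finrank_bot] at h4
  rw [h1, h3] at h2
  rcases hirr _ inf_le_right hX with h | h
  · rw [h, sup_bot_eq] at h2
    left; omega
  · rw [h] at h2
    right; omega


/-- Which dimensions of invariant subspaces a semisimple linear map has. Let `V` be a finite-dimensional vector space over a field `F` and `f` an invertible semisimple linear map of `V`. Suppose `V` is the internal direct sum of the fixed space `C_V(f)` (the eigenspace for 1) and subspaces `U_1, …, U_s`, each `f`-invariant of dimension `a ≥ 1` on which `f` acts irreducibly (no `f`-invariant subspaces other than 0 and `U_j`). Let `0 < m < dim V` and `ℓ = m mod a`. Then `f` leaves some `m`-dimensional subspace invariant if and only if `dim C_V(f)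 ≥ m`, or `a ≤ m` and `dim C_V(f) ≥ ℓ`. -/
theorem result {F V : Type*} [Field F] [AddCommGroup V] [Module F V]
    [FiniteDimensional F V] (f : V →ₗ[F] V) (hf : Function.Bijective f) (hss : Module.End.IsSemisimple f)
    {s a : ℕ} (ha : 1 ≤ a) (U : Fin s → Submodule F V)
    (hUinv : ∀ j, (U j).map f ≤ U j) (hUdim : ∀ j, Module.finrank F ↥(U j) = a)
    (hUirr : ∀ j, ∀ W : Submodule F V, W ≤ U j → W.map f ≤ W → W = ⊥ ∨ W = U j)
    (hdec : DirectSum.IsInternal (fun o : Option (Fin s) => o.elim (Module.End.eigenspace f 1) U))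
    (m : ℕ) (hm : 0 < m) (hmV : m < Module.finrank F V) :
    (∃ W : Submodule F V, Module.finrank F ↥W = m ∧ W.map f ≤ W) ↔
    (m ≤ Module.finrank F ↥(Module.End.eigenspace f 1) ∨
      (a ≤ m ∧ m % a ≤ Module.finrank F ↥(Module.End.eigenspace f 1))) := by
  classical
  set C := Module.End.eigenspace f 1 with hC
  have hCf : ∀ X : Submodule F V, X ≤ C → X.map f ≤ X := by
    rintro X hX _ ⟨x, hx, rfl⟩
    have := Module.End.mem_eigenspace_iff.1 (hX hx)
    rw [this, one_smul]; exact hx
  have hind := hdec.submodule_iSupIndep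
  have htop := hdec.submodule_iSup_eq_top
  have hsupf : ∀ (X : Submodule F V) (T : Finset (Fin s)), X ≤ C →
      (X ⊔ T.sup U).map f ≤ X ⊔ T.sup U := by
    intro X T hX
    induction T using Finset.induction_on with
    | empty => simpa using hCf X hX
    | insert j T hj ih =>
      rw [Finset.sup_insert, sup_left_comm, Submodule.map_sup]
      exact sup_le_sup (hUinv j) ih
  have hdisj : ∀ (X : Submodule F V) (T : Finset (Fin s)) (j : Fin s), X ≤ C → j ∉ T →
      Disjoint (X ⊔ T.sup U) (U j) := by
    intro X T j hX hj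
    refine (hind (some j)).symm.mono_left (sup_le ?_ (Finset.sup_le fun k hk => ?_))
    · exact hX.trans (le_iSup₂_of_le (f := fun (o : Option (Fin s)) (_ : o ≠ some j) =>
        o.elim C U) none (by simp) le_rfl)
    · exact le_iSup₂_of_le (f := fun (o : Option (Fin s)) (_ : o ≠ some j) =>
        o.elim C U) (some k) (by rintro h; cases h; exact hj hk) le_rfl
  have hdim : ∀ (X : Submodule F V) (T : Finset (Fin s)), X ≤ C →
      Module.finrank F ↥(X ⊔ T.sup U) = Module.finrank F X + T.card * a := by
    intro X T hX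
    induction T using Finset.induction_on with
    | empty => rw [Finset.sup_empty, sup_bot_eq]; simp
    | insert j T hj ih =>
      have := Submodule.finrank_sup_add_finrank_inf_eq (X ⊔ T.sup U) (U j)
      rw [(hdisj X T j hX hj).eq_bot, finrank_bot, ih, hUdim] at this
      rw [Finset.sup_insert, sup_left_comm, sup_comm, Finset.card_insert_of_notMem hj]
      rw [add_zero] at this
      rw [this]; ring
  have htop' : C ⊔ (Finset.univ : Finset (Fin s)).sup U = ⊤ := by
    rw [eq_top_iff, ← htop, iSup_le_iff]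
    rintro (_ | j)
    · exact le_sup_left
    · exact le_sup_of_le_right (Finset.le_sup (f := U) (Finset.mem_univ j))
  have hV : Module.finrank F V = Module.finrank F C + s * a := by
    have := hdim C Finset.univ le_rfl
    rwa [htop', finrank_top, Finset.card_univ, Fintype.card_fin] at this
  constructor
  · rintro ⟨W, hWm, hW⟩
    have key : ∀ T : Finset (Fin s), ∃ j : ℕ,
        Module.finrank F ↥(W ⊓ (C ⊔ T.sup U)) = Module.finrank F ↥(W ⊓ C) + j * a := by
      intro T
      induction T using Finset.induction_on with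
      | empty => exact ⟨0, by rw [Finset.sup_empty, sup_bot_eq]; simp⟩
      | insert k T hk ih =>
        obtain ⟨j, hj⟩ := ih
        rw [Finset.sup_insert, sup_left_comm, sup_comm (U k)]
        rcases finrank_inf_aux f _ (U k) W (hsupf C T le_rfl) (hUinv k) hW
          (hdisj C T k le_rfl hk) (hUirr k) with h | h
        · exact ⟨j, by rw [h, hj]⟩
        · exact ⟨j + 1, by rw [h, hj, hUdim]; ring⟩
    obtain ⟨j, hj⟩ := key Finset.univ
    rw [htop', inf_top_eq, hWm] at hj
    have hle : Module.finrank F ↥(W ⊓ C) ≤ Module.finrank F C :=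
      Submodule.finrank_mono inf_le_right
    rcases Nat.eq_zero_or_pos j with rfl | hj0
    · left; omega
    · right
      refine ⟨by nlinarith, ?_⟩
      rw [hj, Nat.add_mul_mod_self_right]
      exact (Nat.mod_le _ _).trans hle
  · intro h
    obtain ⟨c, j, hc, hj, hcj⟩ : ∃ c j : ℕ, c ≤ Module.finrank F C ∧ j ≤ s ∧ c + j * a = m := by
      rcases h with h | ⟨h1, h2⟩
      · exact ⟨m, 0, h, Nat.zero_le _, by simp⟩
      · by_cases hs : m / a ≤ s
        · exact ⟨m % a, m / a, h2, hs, by rw [mul_comm]; exact Nat.mod_add_div m a⟩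
        · have : s * a ≤ m := (Nat.le_div_iff_mul_le ha).1 (not_le.1 hs).le
          exact ⟨m - s * a, s, by omega, le_rfl, by omega⟩
    obtain ⟨X, hX, hXc⟩ := Cfsg.Agent.H9.exists_le_finrank_eq C hc
    obtain ⟨T, -, hT⟩ := Finset.exists_subset_card_eq (s := (Finset.univ : Finset (Fin s)))
      (n := j) (by simpa using hj)
    exact ⟨X ⊔ T.sup U, by rw [hdim X T hX, hXc, hT, hcj], hsupf X T hX⟩

end Cfsg.Agent.S5952
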