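import Cfsg.Statements.S5954
import Cfsg.Agent.H6.U8

set_option autoImplicit false
open scoped MatrixGroups
open Cfsg

namespace Cfsg.Agent.S5954

/-- Elements of prime order of PSU_n(q) with no fixed nondegenerate `m`-space. Here `T = PSU_n(q)` (`n ≥ 3`, `(n, q) ≠ (3, 2)`), realised through the matrices of determinant 1 over the field `F` with `q²` elements preserving the Hermitian form `h(u, v) = Σ u_i v_i^q`; an element of `T` of prime order `r` is such a matrix `x` with `x^r` scalar and `x` not scalar. For `r ≠ p` let `i` be the multiplicative order of `q` modulo `r`, `b = i/2` for `i` even and `b = i` for `i` odd, `c = i, i/2, 2i` according as `i ≡ 0, 2 (mod 4)` or `i` odd, and write `k = n mod c`, `ℓ = m mod b`, `ℓ' = m mod c`, `n' = ⌊n/b⌋`, `m' = ⌊m/b⌋`, `s = (r−1)/b`; `(a)_r` is the `r`-part of `a`. Let `1 ≤ m < n/2` and let `r` be a prime dividing the number of nondegenerate `m`-spaces. Then every element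 of `T` of order `r` fixes a nondegenerate `m`-space if and only if one of: (i) `r = p > 2` and every partition of `n` into parts of size at most `p` contains (as a sub-multiset) a partition of `m`; (ii) `r = p = 2` and (`n` is odd or `m` is even); (iii) `r = 2 ≠ p` and (`n` is odd, or `m` is even, or `(q+1)_2 ≥ (n)_2` and `q ≡ 3 (mod 4)`); (iv) `r ≠ p`, `r > 2`, and either `i ≠ 2`, `c ≤ m` and `k ≥ ℓ'`, or `i = 2` and (`r ∣ m` or `(q+1)_r ≥ (n)_r`). -/
theorem result {F : Type*} [Field F] [Fintype F] {p : ℕ} [Fact p.Prime] [CharP F p] {q : ℕ} (hq : Fintype.card F = q ^ 2)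
    (n m : ℕ) (hn : 3 ≤ n) (hT : (n, q) ≠ (3, 2)) (hm : 1 ≤ m) (hmn : 2 * m < n)
    (r : ℕ) [Fact r.Prime]
    (hrΩ : r ∣ Nat.card {W : Submodule F (Fin n → F) // Module.finrank F ↥W = m ∧ (∀ u ∈ W, u ≠ 0 → ∃ v ∈ W, Cfsg.hermForm n F q u v ≠ 0)})
    (i b c : ℕ) (hi : i = orderOf (q : ZMod r)) (hb : b = if Even i then i / 2 else i)
    (hc : c = if i % 4 = 0 then i else if i % 4 = 2 then i / 2 else 2 * i) :
    (∀ x : Matrix.SpecialLinearGroup (Fin n) F, x ∈ Cfsg.SU n F q →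
      (∃ z : F, ((x ^ r : Matrix.SpecialLinearGroup (Fin n) F) : Matrix (Fin n) (Fin n) F) = z • (1 : Matrix (Fin n) (Fin n) F)) →
      (∀ z : F, (x : Matrix (Fin n) (Fin n) F) ≠ z • (1 : Matrix (Fin n) (Fin n) F)) →
      ∃ W : Submodule F (Fin n → F), Module.finrank F ↥W = m ∧ (∀ u ∈ W, u ≠ 0 → ∃ v ∈ W, Cfsg.hermForm n F q u v ≠ 0) ∧
        W.map (Matrix.toLin' (x : Matrix (Fin n) (Fin n) F)) ≤ W) ↔
    ((r = p ∧ 2 < p ∧ (∀ μ : Multiset ℕ, (∀ a ∈ μ, 0 < a ∧ a ≤ p) → μ.sum = n → ∃ ν : Multiset ℕ, ν ≤ μ ∧ ν.sum = m)) ∨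
     (r = p ∧ p = 2 ∧ (Odd n ∨ Even m)) ∨
     (r = 2 ∧ p ≠ 2 ∧ (Odd n ∨ Even m ∨ (padicValNat 2 n ≤ padicValNat 2 (q + 1) ∧ q % 4 = 3))) ∨
     (r ≠ p ∧ 2 < r ∧ ((i ≠ 2 ∧ c ≤ m ∧ m % c ≤ n % c) ∨ (i = 2 ∧ (r ∣ m ∨ padicValNat r n ≤ padicValNat r (q + 1)))))) := by
  obtain ⟨σ, B, hσ, h, hB⟩ := H6.El.herm_bridge hq n
  have hn' : Module.finrank F (Fin n → F) = n := by simp
  rw [H6.El.forall_SU_iff hB fun f => ∃ W : Submodule F (Fin n → F), Module.finrank F W = m ∧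
    (∀ u ∈ W, u ≠ 0 → ∃ v ∈ W, Cfsg.hermForm n F q u v ≠ 0) ∧ W.map f ≤ W]
  have h0 : ∀ W : Submodule F (Fin n → F), (∀ u ∈ W, u ≠ 0 → ∃ v ∈ W, B u v ≠ 0) ↔
      ∀ v ∈ W, (∀ u ∈ W, B u v = 0) → v = 0 := fun W => forall₂_congr fun v _ => by
    rw [← not_imp_not]
    push Not
    exact ⟨fun k l => k fun u hu => h.symm_zero (l u hu),
      fun k l => k fun u hu => h.symm_zero (l u hu)⟩
  simp only [hB, Submodule.map_le_iff_le_comap, h0] at hrΩ ⊢
  have h8 := (Fact.out : r.Prime).two_le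
  by_cases hrp : r = p
  · subst hrp
    refine (H6.El.ni_char_iff (H6.El.exists_ne_of_unit hq hσ) h (by omega)).trans ?_
    rw [hn']
    by_cases h2 : r = 2
    · subst h2
      rw [H6.El.partition_two_iff hmn]
      simp
    · simp [h2, show 2 < r by omega]
  have hr := H6.El.cast_ne_zero_of_ne (F := F) hrp
  by_cases hr2 : r = 2
  · subst hr2
    refine (H6.El.ni_two_iff hq hσ h (by rw [ringChar.eq F p]; exact Ne.symm hrp) (by omega)).trans ?_
    simp [hrp, Ne.symm hrp]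
  obtain ⟨j, h1, h2, h3⟩ := H6.El.exists_of_dvd_nd hq hσ h (by omega) hr hrΩ
  refine (H6.El.ni_odd_iff hq hσ h hr hr2 (by omega) h1 h2 h3).trans ?_
  have h4 := H6.El.c_pos hq hr
  obtain ⟨-, h6, -⟩ := H6.El.order_cases hr2 (x := q) (fun e => by simp [e] at h4) hi hb hc
  rw [h6, hn'] at *
  have h9 : c = 1 ↔ i = 2 := by split_ifs at hc <;> omega
  simp [h9, hrp, hr2, show 2 < r by omega]

end Cfsg.Agent.S5954
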