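import Cfsg.Statements.S5956
import Cfsg.Agent.H9.Sp.Re7

set_option autoImplicit false
open scoped MatrixGroups
open Cfsg

namespace Cfsg.Agent.S5956

/-- Elements of prime order of PSp_n(q) with no fixed nondegenerate `m`-space. Here `T = PSp_n(q)` with `n = 2d ≥ 4`, `(n, q) ≠ (4, 2)`, realised through the symplectic matrices over the field `F` with `q` elements (preserving the standard alternating form); an element of `T` of prime order `r` is such a matrix `x` with `x^r` scalar and `x` not scalar. For `r ≠ p` let `i` be the multiplicative order of `q` modulo `r`, `c = i` for `i` even and `c = 2i` for `i` odd, and write `k = n mod c`, `ℓ = m mod i`, `ℓ' = m mod c`, `n' = ⌊n/i⌋`, `m' = ⌊m/i⌋`, `t = (r−1)/i`. Let `m` be even with `2 ≤ m < n/2` and let `r` be a prime dividing the number of nondegenerate `m`-spaces. Then every element of `T` of order `r` fixes a nondegenerate `m`-space if and only if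 one of: (i) `r = p > 2` and every partition of `n` into parts of size at most `p` in which every odd part has even multiplicity contains (as a sub-multiset) a partition of `m` in which every odd part has even multiplicity; (ii) `r = p = 2` and (`n ≡ 2 (mod 4)` or `m ≡ 0 (mod 4)`); (iii) `r = 2 ≠ p`; (iv) `r ≠ p`, `r > 2`, `c ≤ m` and `k ≥ ℓ'`. -/
theorem result {F : Type*} [Field F] [Fintype F] {p : ℕ} [Fact p.Prime] [CharP F p] {q : ℕ} (hq : Fintype.card F = q)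
    (d m : ℕ) (hd : 2 ≤ d) (hT : (d, q) ≠ (2, 2)) (hm : 2 ≤ m) (hme : Even m) (hmd : m < d)
    (r : ℕ) [Fact r.Prime]
    (hrΩ : r ∣ Nat.card {W : Submodule F (Fin d ⊕ Fin d → F) // Module.finrank F ↥W = m ∧ (∀ u ∈ W, u ≠ 0 → ∃ v ∈ W, Cfsg.sympForm d F u v ≠ 0)})
    (i c : ℕ) (hi : i = orderOf (q : ZMod r)) (hc : c = if Even i then i else 2 * i) :
    (∀ x : ↥(Matrix.symplecticGroup (Fin d) F),
      (∃ z : F, ((x ^ r : ↥(Matrix.symplecticGroup (Fin d) F)) : Matrix (Fin d ⊕ Fin d) (Fin d ⊕ Fin d) F) = z • (1 : Matrix (Fin d ⊕ Fin d) (Fin d ⊕ Fin d) F)) →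
      (∀ z : F, (x : Matrix (Fin d ⊕ Fin d) (Fin d ⊕ Fin d) F) ≠ z • (1 : Matrix (Fin d ⊕ Fin d) (Fin d ⊕ Fin d) F)) →
      ∃ W : Submodule F (Fin d ⊕ Fin d → F), Module.finrank F ↥W = m ∧ (∀ u ∈ W, u ≠ 0 → ∃ v ∈ W, Cfsg.sympForm d F u v ≠ 0) ∧
        W.map (Matrix.toLin' (x : Matrix (Fin d ⊕ Fin d) (Fin d ⊕ Fin d) F)) ≤ W) ↔
    ((r = p ∧ 2 < p ∧ (∀ μ : Multiset ℕ, (∀ a ∈ μ, 0 < a ∧ a ≤ p) → (∀ a : ℕ, Odd a → Even (μ.count a)) → μ.sum = 2 * d →
        ∃ ν : Multiset ℕ, ν ≤ μ ∧ ν.sum = m ∧ ∀ a : ℕ, Odd a → Even (ν.count a))) ∨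
     (r = p ∧ p = 2 ∧ ((2 * d) % 4 = 2 ∨ m % 4 = 0)) ∨
     (r = 2 ∧ p ≠ 2) ∨
     (r ≠ p ∧ 2 < r ∧ c ≤ m ∧ m % c ≤ (2 * d) % c)) := by
  subst hq hi
  have hB := H9.Sp.symp_B0 d F
  have hV := H9.Sp.finrank_V (m := d) (F := F)
  obtain ⟨m, rfl⟩ := hme.two_dvd
  refine Iff.trans ((forall₃_congr fun x _ _ => ⟨fun ⟨U, a, b, c⟩ => ⟨U, ⟨b,
    H9.Sp.map_le_iff.1 c⟩, a⟩, fun ⟨U, a, b⟩ => ⟨U, b, a.nd, H9.Sp.map_le_iff.2 a.iv⟩⟩).trans
    (H9.Sp.forall_Sp_iff (fun f => ∃ W, H9.Sp.NI (H9.Sp.B0 d F) f W ∧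
      Module.finrank F W = 2 * m))) ?_
  have h2 := (Fact.out : r.Prime).two_le
  by_cases hp : r = p
  · subst hp
    by_cases hr : r = 2
    · subst hr
      rw [H9.Sp.nd_two_iff hB hV hmd, Nat.odd_iff, Nat.even_iff]
      simp
      omega
    · rw [H9.Sp.nd_char_iff hB hr (by omega), hV]
      simp [hr, show 2 < r by omega]
  have h0 := H6.El.cast_ne_zero_of_ne (F := F) hp
  by_cases hr : r = 2
  · subst hr
    refine iff_of_true (fun f hf => ?_) (by simp [Ne.symm hp])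
    obtain ⟨n, h1, h3⟩ := hf.os_two hB (by exact_mod_cast h0)
    obtain ⟨W, -, h4⟩ := h1.sub_unit hB (fun _ h => h) (m := m) (by omega)
    exact ⟨W, h4⟩
  · obtain ⟨j, h1, h3, h4⟩ := H9.Sp.exists_of_dvd_nd hB h0 hV (by omega) hrΩ
    rw [H9.Sp.nd_odd_iff hB h0 hr hV hmd h1 h3 h4, hc]
    simp [hr, hp, show 2 < r by omega, H9.Sp.cv]

end Cfsg.Agent.S5956
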