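import Cfsg.Statements.S5964
import Cfsg.Agent.H6.El9

set_option autoImplicit false
open scoped MatrixGroups
open Cfsg

namespace Cfsg.Agent.S5964

/-- Involutions of PSL_n(q) and subfield subgroups. Here `T = PSL_n(F)` for a field `F` with `q = p^f` elements (`n ≥ 2`, `(n, q) ≠ (2, 2), (2, 3)`), `F₀` is the subfield with `q₀` elements where `q = q₀^k` for a prime `k`, and `H` is the subgroup of matrices of determinant 1 lying in the subfield group of `F₀` (invertible matrices over `F₀` times scalars) — a maximal subgroup of type GL_n(q₀) (the case `n = 2`, `q₀ = 2` is excluded); Ω is the set of `T`-conjugates of `H` (cosets of `H`), so an element of `T` of prime order `r` (a matrix `x` of determinant 1 with `x^r` scalar, `x` not scalar) fixes a point of Ω when some conjugate of `x` by a matrix of determinant 1 lies in `H`. Suppose the index of `H` is even. Then every involution of `T` is conjugate in `T` into `H` if and only if either `q` is even, or `k = 2` and `(n)_2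 ≤ (q − 1)_2`. (For `q` odd and `k` odd the index of `H` is odd, so that case does not arise.) -/
theorem result {F : Type*} [Field F] [Fintype F] {p : ℕ} [Fact p.Prime] [CharP F p] {q : ℕ} (hq : Fintype.card F = q)
    (n : ℕ) (hn : 2 ≤ n) (hT : (n, q) ≠ (2, 2) ∧ (n, q) ≠ (2, 3))
    (F₀ : Subfield F) (k q₀ : ℕ) (hk : k.Prime) (hF₀ : Nat.card ↥F₀ = q₀) (hqk : q = q₀ ^ k) (hC5 : ¬ (n = 2 ∧ q₀ = 2)) (hΩ : 2 ∣ ((Cfsg.Geo.subfieldSubgroup F₀ 1).comap (Matrix.SpecialLinearGroup.toGL : Matrix.SpecialLinearGroup (Fin n) F →* GL (Fin n) F)).index) :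
    (∀ x : Matrix.SpecialLinearGroup (Fin n) F,
      (∃ z : F, ((x ^ 2 : Matrix.SpecialLinearGroup (Fin n) F) : Matrix (Fin n) (Fin n) F) = z • (1 : Matrix (Fin n) (Fin n) F)) →
      (∀ z : F, (x : Matrix (Fin n) (Fin n) F) ≠ z • (1 : Matrix (Fin n) (Fin n) F)) →
      ∃ P : Matrix.SpecialLinearGroup (Fin n) F, P⁻¹ * x * P ∈ ((Cfsg.Geo.subfieldSubgroup F₀ 1).comap (Matrix.SpecialLinearGroup.toGL : Matrix.SpecialLinearGroup (Fin n) F →* GL (Fin n) F))) ↔
    (Odd q → (k = 2 ∧ padicValNat 2 n ≤ padicValNat 2 (q - 1))) := by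
  subst hq
  have := Fintype.ofFinite F₀
  rw [Nat.card_eq_fintype_card] at hF₀
  subst hF₀
  have : Nonempty (Fin n) := ⟨⟨0, by omega⟩⟩
  rw [H6.El.forall_SL_conj_iff]
  rw [H6.El.index_comap_toGL] at hΩ
  by_cases h2 : ((2 : ℕ) : F) = 0
  · have : CharP F 2 := (CharP.charP_iff_prime_eq_zero Nat.prime_two).2 h2
    have h3 := FiniteField.even_card_of_char_two (ringChar.eq F 2)
    refine iff_of_true (fun f hf => ?_) fun h => by rw [Nat.odd_iff] at h; omega
    obtain ⟨γ, m, h4, h5, -⟩ := hf.jd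
    exact (h5.subP h4).ci hf.injective hf.cd_two
  have h3 : ((2 : ℕ) : F₀) ≠ 0 := fun e => h2 (congrArg Subtype.val e)
  have h4 := H6.El.ord_two h2
  have h5 := H6.El.ord_two h3
  obtain ⟨j, -, -, -, h6⟩ := H6.El.subf_index hqk (by omega) h2 hΩ
  obtain rfl := (Nat.prime_dvd_prime_iff_eq Nat.prime_two hk).1
    (h6 ((H6.El.dvd_pow_sub_one_iff _ _ Fintype.card_pos).2 (h5 ▸ one_dvd _)))
  have h7 := H6.El.not_dvd_card h3
  have h8 : Fintype.card F % 4 = 1 := by
    obtain ⟨c, hc⟩ : Odd (Fintype.card F₀) := Nat.odd_iff.2 (by omega)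
    rw [hqk, hc, show (2 * c + 1) ^ 2 = 1 + 4 * (c * c + c) by ring]
    omega
  have h9 := H6.El.irrEx_iff h4 (n := n) (by omega)
  simp only [h8, implies_true, and_true] at h9
  simp only [Nat.odd_iff.2 (show Fintype.card F % 2 = 1 by omega), true_and, forall_true_left]
  refine ⟨fun H => ?_, fun H f => H6.El.subf_of_ord_eq h2 (h5.trans h4.symm) (by simp [h9, H])⟩
  by_contra h10
  obtain ⟨f, c, s, k1, k2, k3⟩ := H6.El.IrrEx.exists_pe (V := Fin n → F) (F := F) (r := 2)
    (by simpa using h9.2 h10)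
  exact H6.El.not_subP_irr k2 k3 (H6.El.exists_sq_of_mem hqk) (H f k1).subP

end Cfsg.Agent.S5964
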