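import Cfsg.Statements.S5965
import Cfsg.Agent.H6.El9

set_option autoImplicit false
open scoped MatrixGroups
open Cfsg

namespace Cfsg.Agent.S5965

/-- Elements of odd prime order r ≠ p of PSL_n(q) and subfield subgroups. Here `T = PSL_n(F)` for a field `F` with `q = p^f` elements (`n ≥ 2`, `(n, q) ≠ (2, 2), (2, 3)`), `F₀` is the subfield with `q₀` elements where `q = q₀^k` for a prime `k`, and `H` is the subgroup of matrices of determinant 1 lying in the subfield group of `F₀` (invertible matrices over `F₀` times scalars) — a maximal subgroup of type GL_n(q₀) (the case `n = 2`, `q₀ = 2` is excluded); Ω is the set of `T`-conjugates of `H` (cosets of `H`), so an element of `T` of prime order `r` (a matrix `x` of determinant 1 with `x^r` scalar, `x` not scalar) fixes a point of Ω when some conjugate of `x` by a matrix of determinant 1 lies in `H`. Let `r ≠ p` be an odd prime dividing the index of `H`, with `(n, r) ≠ (6, 3)` and, when `r = k` divides `q₀ − 1`, with `(n)_r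 ≤ (q − 1)_r`. Then every element of `T` of order `r` is conjugate in `T` into `H` if and only if `r = k`, or `k = 2`, `r = n ∈ {3, 5}` and `(q₀ + 1)_r = r`. The two excluded cases, `(n, r) = (6, 3)` and `r = k ∣ q₀ − 1` with `(n)_r > (q − 1)_r`, are ones where this criterion can fail, so they are left out. -/
theorem result {F : Type*} [Field F] [Fintype F] {p : ℕ} [Fact p.Prime] [CharP F p] {q : ℕ} (hq : Fintype.card F = q)
    (n : ℕ) (hn : 2 ≤ n) (hT : (n, q) ≠ (2, 2) ∧ (n, q) ≠ (2, 3))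
    (F₀ : Subfield F) (k q₀ : ℕ) (hk : k.Prime) (hF₀ : Nat.card ↥F₀ = q₀) (hqk : q = q₀ ^ k) (hC5 : ¬ (n = 2 ∧ q₀ = 2)) (r : ℕ) [Fact r.Prime] (hr2 : r ≠ 2) (hrp : r ≠ p) (hgap : ¬ (n = 6 ∧ r = 3)) (hgapk : r = k → r ∣ q₀ - 1 → padicValNat r n ≤ padicValNat r (q - 1)) (hΩ : r ∣ ((Cfsg.Geo.subfieldSubgroup F₀ 1).comap (Matrix.SpecialLinearGroup.toGL : Matrix.SpecialLinearGroup (Fin n) F →* GL (Fin n) F)).index) :
    (∀ x : Matrix.SpecialLinearGroup (Fin n) F,
      (∃ z : F, ((x ^ r : Matrix.SpecialLinearGroup (Fin n) F) : Matrix (Fin n) (Fin n) F) = z • (1 : Matrix (Fin n) (Fin n) F)) →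
      (∀ z : F, (x : Matrix (Fin n) (Fin n) F) ≠ z • (1 : Matrix (Fin n) (Fin n) F)) →
      ∃ P : Matrix.SpecialLinearGroup (Fin n) F, P⁻¹ * x * P ∈ ((Cfsg.Geo.subfieldSubgroup F₀ 1).comap (Matrix.SpecialLinearGroup.toGL : Matrix.SpecialLinearGroup (Fin n) F →* GL (Fin n) F))) ↔
    (r = k ∨ (k = 2 ∧ r = n ∧ (n = 3 ∨ n = 5) ∧ padicValNat r (q₀ + 1) = 1)) := by
  classical
  subst hq
  have := Fintype.ofFinite F₀
  rw [Nat.card_eq_fintype_card] at hF₀
  subst hF₀
  have : Nonempty (Fin n) := ⟨⟨0, by omega⟩⟩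
  have hr : r.Prime := Fact.out
  have hr3 : 3 ≤ r := by have := hr.two_le; omega
  have h1 := H6.El.cast_ne_zero_of_ne (F := F) hrp
  have h2 : (r : F₀) ≠ 0 := fun e => h1 (congrArg Subtype.val e)
  rw [H6.El.forall_SL_conj_iff]
  rw [H6.El.index_comap_toGL] at hΩ
  obtain ⟨j, h3, h4, h5, h6⟩ := H6.El.subf_index hqk (by omega) h1 hΩ
  rw [H6.El.dvd_pow_sub_one_iff _ _ Fintype.card_pos] at h5 h6
  rw [Nat.prime_dvd_prime_iff_eq hr hk] at h6
  have h7 : ((Fintype.card F : ℕ) : ZMod r) = ((Fintype.card F₀ : ℕ) : ZMod r) ^ k := by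
    rw [hqk, Nat.cast_pow]
  by_cases hrk : r = k
  · subst hrk
    rw [ZMod.pow_card] at h7
    refine iff_of_true (fun f => H6.El.subf_of_ord_eq h1 (by rw [h7]) fun h => ?_) (Or.inl rfl)
    exact (H6.El.irrEx_iff h.ord_eq (by simp; omega)).1 h ⟨by
      simpa using hgapk rfl (H6.El.ord_eq_one_iff.1 (h7 ▸ h.ord_eq)), fun h => absurd h hr2⟩
  have h8 := mt h6 hrk
  have h9 : orderOf ((Fintype.card F₀ : ℕ) : ZMod r) ≠ 1 := fun e => h8 (e ▸ one_dvd _)
  have h10 : k = 2 → padicValNat r (Fintype.card F - 1) = padicValNat r (Fintype.card F₀ + 1) := by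
    rintro rfl
    have := Fintype.one_lt_card (α := F₀)
    rw [hqk, ← one_pow 2, Nat.sq_sub_sq, padicValNat.mul (by omega) (by omega), one_pow,
      padicValNat.eq_zero_of_not_dvd (mt H6.El.ord_eq_one_iff.2 h9), add_zero]
  simp only [hrk, false_or]
  by_cases hi : orderOf ((Fintype.card F : ℕ) : ZMod r) = 1
  swap
  · refine iff_of_false (fun H => ?_) fun H => hi (H6.El.ord_eq_one_iff.2
      (dvd_of_one_le_padicValNat (by rw [h10 H.1, H.2.2.2])))
    obtain ⟨f, π, -, -, -, k1, k2⟩ := H6.El.exists_pe_min (V := Fin n → F) h1 hi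
      (by simpa using (Nat.le_of_dvd (by omega) h5).trans h4)
    exact k1.not_subP h1 hi (fun e => h8 (e ▸ h5)) (H f k2).subP
  obtain ⟨ζ, hζ⟩ := H6.El.exists_prim hi
  have z1 := hζ.ne_one hr.one_lt
  have z0 := hζ.ne_zero hr.ne_zero
  have hv := one_le_padicValNat_of_dvd (Nat.sub_pos_of_lt Fintype.one_lt_card).ne'
    (H6.El.ord_eq_one_iff.1 hi)
  by_cases h11 : padicValNat r n < padicValNat r (Fintype.card F - 1)
  · refine iff_of_false ?_ fun H => ?_
    swap
    · rw [h10 H.1, H.2.2.2, ← H.2.1, padicValNat_self] at h11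
      omega
    obtain ⟨γ, hγ⟩ := (H6.El.exists_pow_mul_prim_iff hζ (by omega)).2 h11
    by_cases hn2 : n = 2
    · subst hn2
      obtain rfl : j = 2 := by omega
      intro H
      obtain ⟨y, k1, k2, k3⟩ := H6.El.exists_pe_dg (ι := Fin 2) (k := F₀) (r := r) (B := {1, ζ})
        (γ := γ) (u := 1) (v := ζ) (by simp) (by simp [hζ.pow_eq_one]) (by simpa using hγ) (by simp)
        (by simp) z1.symm
      obtain ⟨c, k4, k5⟩ := k1.subP_iff.1 (k3 (H _ k2).subP)
      apply h8
      rw [← H6.El.dvd_pow_sub_one_iff _ _ Fintype.card_pos, ← hζ.pow_eq_one_iff_dvd]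
      apply mul_right_cancel₀ z0
      rw [← pow_succ, Nat.sub_add_cancel (Nat.one_le_pow _ _ Fintype.card_pos), sq, pow_mul, one_mul]
      simp only [Multiset.insert_eq_cons, Multiset.map_cons, Multiset.map_singleton, mul_one, one_pow,
        mul_pow, Multiset.cons_eq_cons, Multiset.singleton_inj, Multiset.singleton_eq_cons_iff] at k5
      rcases k5 with ⟨k5, k6⟩ | ⟨-, _, ⟨k5, -⟩, k6, -⟩
      · rw [k5, mul_right_inj' k4] at k6
        rw [k6, k6]
      · rw [← k6, mul_assoc, mul_eq_left₀ k4] at k5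
        rw [eq_inv_of_mul_eq_one_right k5, inv_pow, eq_inv_of_mul_eq_one_right k5, inv_inv]
    refine H6.El.exists_der h9 (B := Multiset.replicate (n - 1) 1 + {ζ}) (γ := γ) (u := 1) (v := ζ)
      (by simp; omega) (by simp [Multiset.mem_replicate, or_imp, forall_and, hζ.pow_eq_one]) (by simpa using hγ)
      (by simp [Multiset.mem_replicate]; omega) (by simp) z1.symm ?_ ?_ <;>
    · intro x
      simp only [Multiset.count_add, Multiset.count_replicate, Multiset.count_singleton]
      grind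
  have h12 : r ∣ n := dvd_of_one_le_padicValNat (by omega)
  by_cases h13 : r = n ∧ (n = 3 ∨ n = 5)
  · obtain ⟨rfl, h13⟩ := h13
    rw [padicValNat_self] at h11
    have h14 : orderOf ((Fintype.card F₀ : ℕ) : ZMod r) = k :=
      ((Nat.dvd_prime hk).1 (orderOf_dvd_of_pow_eq_one (h7 ▸ orderOf_eq_one_iff.1 hi))).resolve_left h9
    have h15 := H6.El.ord_dvd h2
    obtain rfl : k = 2 := by
      rw [h14] at h15
      refine (Nat.prime_dvd_prime_iff_eq hk Nat.prime_two).1 (hk.dvd_of_dvd_pow (n := 2) ?_)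
      rcases h13 with rfl | rfl
      exacts [h15.trans (by norm_num), h15]
    have h16 := h10 rfl
    exact iff_of_true (fun f => H6.El.subf_of_small h1 (by simp) h13
      (dvd_of_one_le_padicValNat (by omega)) (by omega)) ⟨rfl, rfl, h13, by omega⟩
  refine iff_of_false ?_ fun H => h13 ⟨H.2.1, H.2.2.1⟩
  by_cases h14 : r = 3
  · subst h14
    refine H6.El.exists_der h9 (B := Multiset.replicate (n - 3) 1 + Multiset.replicate 3 ζ) (γ := 1)
      (u := 1) (v := ζ) (by simp; omega) (by simp [Multiset.mem_replicate, or_imp, forall_and, hζ.pow_eq_one])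
      (by simpa [-Multiset.replicate_succ] using hζ.pow_eq_one)
      (by simp [Multiset.mem_replicate]; omega) (by simp) z1.symm ?_ ?_ <;>
    · intro x
      simp only [Multiset.count_add, Multiset.count_replicate, Multiset.count_singleton]
      grind
  have h15 : 5 ≤ r := by
    by_contra h
    obtain rfl : r = 4 := by omega
    norm_num at hr
  have h16 : 6 ≤ n := by
    have := Nat.le_of_dvd (by omega) h12
    omega
  have z2 : (ζ ^ 2)⁻¹ ≠ 1 := by simpa using hζ.pow_ne_one_of_pos_of_lt two_ne_zero (by omega)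
  have z3 : (ζ ^ 2)⁻¹ ≠ ζ := fun e => hζ.pow_ne_one_of_pos_of_lt three_ne_zero (by omega)
    (by rw [pow_succ, mul_eq_one_iff_inv_eq₀ (pow_ne_zero _ z0), e])
  refine H6.El.exists_der h9 (B := Multiset.replicate (n - 3) 1 + Multiset.replicate 2 ζ +
    {(ζ ^ 2)⁻¹}) (γ := 1) (u := 1) (v := ζ) (by simp; omega)
    (by simp [Multiset.mem_replicate, or_imp, forall_and, hζ.pow_eq_one, pow_right_comm ζ 2])
    (by simp [-Multiset.replicate_succ, z0]) (by simp [Multiset.mem_replicate]; omega) (by simp) z1.symm ?_ ?_ <;>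
  · intro x
    simp only [Multiset.count_add, Multiset.count_replicate, Multiset.count_singleton]
    grind

end Cfsg.Agent.S5965
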