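import Cfsg.Statements.S5967
import Cfsg.Agent.H6.El16

set_option autoImplicit false
open scoped MatrixGroups
open Cfsg

namespace Cfsg.Agent.S5967

/-- Involutions of PSL_n(q) and the symplectic-type subgroups. Here `T = PSL_n(F)` for a field `F` with `q` elements, `n ≥ 4` even, `f` is a nondegenerate alternating form on `F^n`, and `H` is the subgroup of matrices of determinant 1 preserving `f` up to a scalar — a maximal subgroup of type Sp_n(q); Ω is the set of `T`-conjugates of `H` (cosets of `H`), so an element of `T` of prime order `r` (a matrix `x` of determinant 1 with `x^r` scalar, `x` not scalar) fixes a point of Ω when some conjugate of `x` by a matrix of determinant 1 preserves `f` up to a scalar. Suppose the index of `H` is even. Then every involution of `T` is conjugate in `T` into `H` if and only if `(q − 1)_2 ≤ (n)_2`. -/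
theorem result {F : Type*} [Field F] [Fintype F] {p : ℕ} [Fact p.Prime] [CharP F p] {q : ℕ} (hq : Fintype.card F = q)
    (n : ℕ) (hn : 4 ≤ n) (he : Even n) (f : (Fin n → F) → (Fin n → F) → F) (hf : Cfsg.Geo.IsSymplecticForm f)
    (hΩ : 2 ∣ ((Cfsg.Geo.similarityGroup f).comap (Matrix.SpecialLinearGroup.toGL : Matrix.SpecialLinearGroup (Fin n) F →* GL (Fin n) F)).index) :
    (∀ x : Matrix.SpecialLinearGroup (Fin n) F,
      (∃ z : F, ((x ^ 2 : Matrix.SpecialLinearGroup (Fin n) F) : Matrix (Fin n) (Fin n) F) = z • (1 : Matrix (Fin n) (Fin n) F)) →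
      (∀ z : F, (x : Matrix (Fin n) (Fin n) F) ≠ z • (1 : Matrix (Fin n) (Fin n) F)) →
      ∃ P : Matrix.SpecialLinearGroup (Fin n) F, P⁻¹ * x * P ∈ ((Cfsg.Geo.similarityGroup f).comap (Matrix.SpecialLinearGroup.toGL : Matrix.SpecialLinearGroup (Fin n) F →* GL (Fin n) F))) ↔
    padicValNat 2 (q - 1) ≤ padicValNat 2 n := by
  classical
  subst hq
  obtain ⟨B, h1, h2, hH⟩ := H6.El.sp_bridge hf
  obtain ⟨m, hm⟩ := he.two_dvd
  have hm' : Module.finrank F (Fin n → F) = 2 * m := by simpa using hm
  rw [H6.El.forall_SL_conj_iff]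
  by_cases hr : ((2 : ℕ) : F) = 0
  · have : CharP F 2 := (CharP.charP_iff_prime_eq_zero Nat.prime_two).2 hr
    have h3 := FiniteField.even_card_of_char_two (ringChar.eq F 2)
    have := Fintype.one_lt_card (α := F)
    refine iff_of_true (fun f hf => H6.El.FormP.ci hH ?_ hf.injective hf.cd_two)
      (by rw [padicValNat.eq_zero_of_not_dvd (by omega)]; omega)
    obtain ⟨γ, μ, k1, k2, k3, -⟩ := hf.jd
    have k4 := k2.finrank
    have k5 := H6.El.eq_replicate_two k2.pos k3
    rw [k5] at k2 k4
    simp only [Multiset.sum_add, Multiset.sum_replicate, smul_eq_mul] at k4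
    refine (H6.El.hs_sp h1 h2 (m := μ.count 2) (by omega)).formP_jd rfl k1 ?_
    rwa [show Module.finrank F (Fin n → F) - 2 * μ.count 2 = μ.count 1 by omega]
  have hi := H6.El.ord_two hr
  have hζ : IsPrimitiveRoot (-1 : F) 2 := IsPrimitiveRoot.neg_one p (by
    rintro rfl
    exact hr (CharP.cast_eq_zero F 2))
  have z1 := hζ.ne_one one_lt_two
  have h4 := H6.El.exists_pow_mul_prim_iff hζ (n := n) (by omega)
  refine ⟨fun H => ?_, fun H f hf => H6.El.FormP.ci hH ?_ hf.injective hf.cd_two⟩
  · by_contra! h5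
    obtain ⟨γ, hγ⟩ := h4.2 h5
    obtain ⟨f, k1, k2, k3, -⟩ := H6.El.exists_pe_dg' (V := Fin n → F) (r := 2)
      (B := Multiset.replicate (n - 1) 1 + {-1}) (γ := γ) (u := 1) (v := -1) (by simp; omega)
      (by simp +contextual [Multiset.mem_replicate, or_imp]) (by simpa using hγ)
      (by simp [Multiset.mem_replicate]; omega) (by simp) z1.symm
    obtain ⟨g, μ, k4, k5, k6⟩ := (H f k1).formP hH
    replace k3 : H6.El.Dg g _ := H6.El.Ty.of_sim k3 k6
    have k7 := k5.eig h1 k4 k2
    have k8 := (k3.pow_eq_iff (r := 2) (c := γ ^ 2)).2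
      (by simp +contextual [Multiset.mem_replicate, or_imp])
    have k9 : -γ ≠ γ := fun e => z1 (mul_right_cancel₀ k2 (by simpa using e))
    have k10 : Module.finrank F (LinearMap.ker (g - γ • 1)) = n - 1 := by
      simp [k3.finrank_ker, k9.symm]
    rw [k10, k3.finrank_ker] at k7
    simp only [Multiset.map_add, Multiset.map_replicate, Multiset.map_singleton, Multiset.count_add,
      Multiset.count_replicate, Multiset.count_singleton, RingHom.id_apply, mul_one] at k7
    have k11 : γ = μ / γ := by grind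
    refine h1.not_rank_one (T := g - γ • 1) (fun u => ?_) (by simp [k10]; omega)
    have k12 := k5 (g u) u
    rw [← Module.End.mul_apply, ← sq, k8, h1.herm (g u)] at k12
    rw [eq_div_iff k2] at k11
    simp [← k11, h2, h1.herm (g u) u] at k12 ⊢
    exact mul_left_cancel₀ (mul_ne_zero hr (pow_ne_zero 2 k2)) (by push_cast; linear_combination k12)
  rcases hf.cases hr with ⟨γ, k1, y, e, ν, rfl, k2, -⟩ | ⟨c, s, k1, k2⟩
  swap
  · obtain ⟨g, k3, k4⟩ := H6.El.exists_sp_sq h1 h2 hm' c
    obtain rfl : s = m := by have := k2.finrank_irr; omega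
    exact ⟨g, -c, neg_ne_zero.2 fun e => k1 0 (by simp [e]), k3, k4.sim k2⟩
  refine H6.El.FormP.smul ?_ k1
  have k3 := k2.finrank hr
  have k4 := hf.det
  have k5 := k2.ty
  rw [k2.eq_replicate hr hi] at k5
  rw [LinearMap.det_smul, k5.det] at k4
  simp [hi, -map_one, ← Polynomial.C_1] at k3 k4
  obtain ⟨s, hs⟩ : Even (Multiset.card ν) := by
    by_contra k5
    rw [Odd.neg_one_pow (Nat.not_even_iff_odd.1 k5)] at k4
    exact absurd (h4.1 ⟨γ, k4⟩) (by omega)
  refine (H6.El.hs_sp h1 h2 (m := s) (by omega)).formP_dg h1.σσ (A := Multiset.replicate s (-1))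
    (by simp) (by simp +contextual [Multiset.mem_replicate]) ?_
  rw [show Module.finrank F (Fin n → F) - 2 * s = e by omega, add_comm]
  simpa [H6.El.Dg, hs, Multiset.replicate_add] using k5

end Cfsg.Agent.S5967
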