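import Cfsg.Statements.S5968
import Cfsg.Agent.H6.El16

set_option autoImplicit false
open scoped MatrixGroups
open Cfsg

namespace Cfsg.Agent.S5968

/-- Derangements of odd prime order of PSL_n(q) on the cosets of a symplectic-type subgroup. Here `T = PSL_n(F)` for a field `F` with `q` elements, `n ≥ 4` even, `f` is a nondegenerate alternating form on `F^n`, and `H` is the subgroup of matrices of determinant 1 preserving `f` up to a scalar — a maximal subgroup of type Sp_n(q); Ω is the set of `T`-conjugates of `H` (cosets of `H`), so an element of `T` of prime order `r` (a matrix `x` of determinant 1 with `x^r` scalar, `x` not scalar) fixes a point of Ω when some conjugate of `x` by a matrix of determinant 1 preserves `f` up to a scalar. For every odd prime `r` dividing the index of `H`, with `(n, r) ≠ (6, 3)`, there is an element of `T` of order `r` with no conjugate in `H`. (For `n = 6`, `r = 3` this can fail: when `(q − 1)_3 = 3` every element of order 3 is conjugate into `H`.) -/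
theorem result {F : Type*} [Field F] [Fintype F] {p : ℕ} [Fact p.Prime] [CharP F p] {q : ℕ} (hq : Fintype.card F = q)
    (n : ℕ) (hn : 4 ≤ n) (he : Even n) (f : (Fin n → F) → (Fin n → F) → F) (hf : Cfsg.Geo.IsSymplecticForm f)
    (r : ℕ) [Fact r.Prime] (hr2 : r ≠ 2) (hgap : ¬ (n = 6 ∧ r = 3)) (hΩ : r ∣ ((Cfsg.Geo.similarityGroup f).comap (Matrix.SpecialLinearGroup.toGL : Matrix.SpecialLinearGroup (Fin n) F →* GL (Fin n) F)).index) :
    ∃ x : Matrix.SpecialLinearGroup (Fin n) F,
      (∃ z : F, ((x ^ r : Matrix.SpecialLinearGroup (Fin n) F) : Matrix (Fin n) (Fin n) F) = z • (1 : Matrix (Fin n) (Fin n) F)) ∧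
      (∀ z : F, (x : Matrix (Fin n) (Fin n) F) ≠ z • (1 : Matrix (Fin n) (Fin n) F)) ∧
      ∀ P : Matrix.SpecialLinearGroup (Fin n) F, P⁻¹ * x * P ∉ ((Cfsg.Geo.similarityGroup f).comap (Matrix.SpecialLinearGroup.toGL : Matrix.SpecialLinearGroup (Fin n) F →* GL (Fin n) F)) := by
  subst hq
  obtain ⟨B, h1, h2, hH⟩ := H6.El.sp_bridge hf
  obtain ⟨m, hm⟩ := he.two_dvd
  rw [H6.El.index_comap_toGL] at hΩ
  refine H6.El.exists_SL_of_not (H6.El.not_forall_ci hH ?_)
  have hr3 : 3 ≤ r := by have := (Fact.out : r.Prime).two_le; omega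
  by_cases hrp : r = p
  · subst hrp
    exact H6.El.exists_not_jd (k := 2) (by rwa [Odd.neg_one_pow (by decide)]) hr2 two_pos hr3
      (by simp; omega)
  have h3 := H6.El.cast_ne_zero_of_ne (F := F) hrp
  by_cases hi : orderOf ((Fintype.card F : ℕ) : ZMod r) = 1
  · exact H6.El.exists_not_one h1 hi hr2 (by simp; omega) (by simpa using hgap) (by simp; omega)
      fun _ _ => rfl
  have h4 := H6.El.relIndex_dvd_isoG hH
  rw [H6.El.card_GL] at h4
  exact H6.El.exists_not_sp h1 h2 (by simpa using hm) h3 hr2 hi hΩ (by simpa using h4)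

end Cfsg.Agent.S5968
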