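import Cfsg.Statements.S5969
import Cfsg.Agent.H6.El10
import Cfsg.Agent.H6.El9
import Cfsg.Agent.H6.El7

set_option autoImplicit false
open scoped MatrixGroups
open Cfsg

namespace Cfsg.Agent.S5969

/-- Involutions of PSL_n(q) and extension-field subgroups of degree 2. Here `T = PSL_n(F)` for a field `F` with `q = p^f` elements (`n ≥ 2`, `(n, q) ≠ (2, 2), (2, 3)`), `k` is a prime dividing `n`, `K` is a subalgebra of the `n × n` matrices that is a field of degree `k` over `F` (an extension-field structure F_{q^k} on `F^n`), and `H` is the subgroup of matrices of determinant 1 normalizing `K` — a subgroup of type GL_{n/k}(q^k) (maximal except in some small cases; maximality is not assumed); Ω is the set of cosets of `H` in `T`, so an element of `T` of prime order `r` (a matrix `x` of determinant 1 with `x^r` scalar, `x` not scalar) fixes a point of Ω when some conjugate of `x` by a matrix of determinant 1 normalizes `K`. Take `k = 2` and suppose the index of `H` is even. Then every involution of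 `T` is conjugate in `T` into `H` if and only if `n = 2`, or `q` is odd and `(q − 1)_2 ≤ (n)_2`. -/
theorem result {F : Type*} [Field F] [Fintype F] {p : ℕ} [Fact p.Prime] [CharP F p] {q : ℕ} (hq : Fintype.card F = q)
    (n : ℕ) (hn : 2 ≤ n) (hT : (n, q) ≠ (2, 2) ∧ (n, q) ≠ (2, 3))
    (k : ℕ) (hk : k.Prime) (hkn : k ∣ n) (K : Subalgebra F (Matrix (Fin n) (Fin n) F)) (hK : Cfsg.Geo.IsFieldSubalgebra k K) (hk2 : k = 2) (hΩ : 2 ∣ ((Cfsg.Geo.subalgebraNormalizer K).comap (Matrix.SpecialLinearGroup.toGL : Matrix.SpecialLinearGroup (Fin n) F →* GL (Fin n) F)).index) :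
    (∀ x : Matrix.SpecialLinearGroup (Fin n) F,
      (∃ z : F, ((x ^ 2 : Matrix.SpecialLinearGroup (Fin n) F) : Matrix (Fin n) (Fin n) F) = z • (1 : Matrix (Fin n) (Fin n) F)) →
      (∀ z : F, (x : Matrix (Fin n) (Fin n) F) ≠ z • (1 : Matrix (Fin n) (Fin n) F)) →
      ∃ P : Matrix.SpecialLinearGroup (Fin n) F, P⁻¹ * x * P ∈ ((Cfsg.Geo.subalgebraNormalizer K).comap (Matrix.SpecialLinearGroup.toGL : Matrix.SpecialLinearGroup (Fin n) F →* GL (Fin n) F))) ↔
    (n = 2 ∨ (Odd q ∧ padicValNat 2 (q - 1) ≤ padicValNat 2 n)) := by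
  classical
  subst hq hk2
  obtain ⟨L, _, _, _, _, h1, hH⟩ := H6.El.ext_bridge hk.pos hK
  have : Module.Finite F L := Module.finite_of_finrank_pos (h1 ▸ hk.pos)
  have : Module.Finite L (Fin n → F) := Module.Finite.of_restrictScalars_finite F L _
  have h2 : 2 * Module.finrank L (Fin n → F) = n := by
    simpa [h1] using Module.finrank_mul_finrank F L (Fin n → F)
  rw [H6.El.forall_SL_conj_iff]
  have key : ∀ (f : Module.End F (Fin n → F)) (γ : F), H6.El.PE 2 f → γ ≠ 0 →
      Module.finrank F (LinearMap.ker (f - γ • 1)) = n - 1 → n ≠ 2 →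
      ¬ ∀ f, H6.El.PE 2 f → H6.El.CI (Geo.subalgebraNormalizer K) f := fun f γ k1 k2 k3 k4 H => by
    rcases ((H f k1).extP hH).eig (h1 ▸ hk) k2 k3 with k5 | k5
    · rw [h1] at k5
      omega
    · simp at k5
      omega
  by_cases hr : ((2 : ℕ) : F) = 0
  · have : CharP F 2 := (CharP.charP_iff_prime_eq_zero Nat.prime_two).2 hr
    have h3 := FiniteField.even_card_of_char_two (ringChar.eq F 2)
    by_cases hn2 : n = 2
    · subst hn2
      refine iff_of_true (fun f hf => H6.El.ExtP.ci hH ?_ hf.cd_two) (Or.inl rfl)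
      obtain ⟨γ, m, k1, k2, k3, k, k4, k5⟩ := hf.jd
      obtain rfl : k = 2 := le_antisymm (k3 k k4) k5
      obtain rfl := k2.eq_singleton k4 (by simp)
      obtain ⟨g, k6, k7, k8⟩ := H6.El.exists_frob (F := F) (L := L) (V := Fin 2 → F) (by omega)
      obtain ⟨m, k9⟩ := H6.El.exists_jd (f := (g : Module.End F (Fin 2 → F))) (γ := 1) (N := 2) (by
        rw [h1] at k8
        rw [H6.El.X_sub_C_pow_char, one_pow, Polynomial.C_1, ← k8,
          LinearMap.aeval_self_charpoly])
      have k10 := k9.aeval_iff (N := 1)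
      rw [← minpoly.dvd_iff, k7, h1] at k10
      obtain ⟨k, k11, k12⟩ : ∃ k ∈ m, 2 ≤ k := by
        by_contra! k11
        have := Polynomial.natDegree_le_of_dvd (k10.2 fun k hk => Nat.le_of_lt_succ (k11 k hk))
          (by simpa using Polynomial.X_sub_C_ne_zero (1 : F))
        rw [← Polynomial.C_1, Polynomial.natDegree_X_pow_sub_C] at this
        simp [-map_one] at this
      obtain rfl := k9.eq_singleton k11 (by simpa using k12)
      obtain rfl : k = 2 := by simpa using k9.finrank.symm
      obtain ⟨g, k13, k14⟩ := H6.El.ExtP.smul ⟨g, k6, H6.El.Sim.refl _⟩ k1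
      refine ⟨g, k13, k14.trans (H6.El.Ty.sim ?_ k2.ty)⟩
      simpa using (k9.smul k1).ty
    obtain ⟨f, hf⟩ := H6.El.exists_jd_model (V := Fin n → F)
      (m := 2 ::ₘ Multiset.replicate (n - 2) 1) (1 : F)
      (by simp +contextual [Multiset.mem_replicate, or_imp]) (by simp; omega)
    refine iff_of_false (key f 1 (hf.pe (k := 2) (by simp +contextual [Multiset.mem_replicate, or_imp])
      (by simp) le_rfl) one_ne_zero ?_ hn2) (by simp [hn2, Nat.odd_iff, h3])
    have := hf.finrank_ker 1
    rw [pow_one, H6.El.aeval_X_sub_C] at this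
    simp at this ⊢
    omega
  have hi := H6.El.ord_two hr
  have h3 := H6.El.not_dvd_card hr
  by_cases hn2 : n = 2
  · exact iff_of_true (fun f hf => (hf.extP_singer hr h1 (by omega) hi).ci hH hf.cd_two)
      (Or.inl hn2)
  have hζ : IsPrimitiveRoot (-1 : F) 2 := IsPrimitiveRoot.neg_one p (by
    rintro rfl
    exact hr (CharP.cast_eq_zero F 2))
  have z1 := hζ.ne_one one_lt_two
  have h4 := H6.El.exists_pow_mul_prim_iff hζ (n := n) (by omega)
  simp only [hn2, false_or, Nat.odd_iff.2 (show Fintype.card F % 2 = 1 by omega), true_and]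
  refine ⟨fun H => ?_, fun H f hf => H6.El.ExtP.ci hH ?_ hf.cd_two⟩
  · by_contra! h5
    obtain ⟨γ, hγ⟩ := h4.2 h5
    obtain ⟨f, k1, k2, -, k3⟩ := H6.El.exists_pe_dg' (V := Fin n → F) (r := 2)
      (B := Multiset.replicate (n - 1) 1 + {-1}) (γ := γ) (u := 1) (v := -1) (by simp; omega)
      (by simp +contextual [Multiset.mem_replicate, or_imp]) (by simpa using hγ)
      (by simp [Multiset.mem_replicate]; omega) (by simp) z1.symm
    exact key f (γ * 1) k1 (by simpa using k2) ((k3 1).trans (by simp [z1.symm])) hn2 H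
  rcases hf.cases hr with ⟨γ, k1, y, e, ν, rfl, k2, -⟩ | ⟨c, s, k1, k2⟩
  swap
  · exact hf.extP_irr h1 k1 k2
  refine H6.El.ExtP.smul ?_ k1
  have k3 := k2.finrank hr
  have k4 := hf.det
  rw [LinearMap.det_smul, k2.ty.det, k2.eq_replicate hr hi] at k4
  simp [hi, -map_one, ← Polynomial.C_1] at k3 k4
  obtain ⟨s, hs⟩ : Even (Multiset.card ν) := by
    by_contra k5
    rw [Odd.neg_one_pow (Nat.not_even_iff_odd.1 k5)] at k4
    exact absurd (h4.1 ⟨γ, k4⟩) (by omega)
  obtain ⟨y', hy⟩ := H6.El.exists_dg (F := L) (V := Fin n → F)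
    (A := Multiset.replicate (e / 2) 1 + Multiset.replicate s (-1)) (by simp; omega)
  obtain ⟨e', ν', k5⟩ := H6.El.exists_spl (f := y'.restrictScalars F) hr (by
    have := (hy.pow_eq_iff (r := 2) (c := 1)).2
      (by simp +contextual [Multiset.mem_replicate, or_imp])
    exact LinearMap.ext fun v => by simpa [sq] using LinearMap.congr_fun this v)
  have k6 := hy.finrank_ker 1
  have k7 := H6.El.finrank_ker_rs (F := F) (y' - (1 : L) • 1)
  have z2 : (-1 : L) ≠ 1 := fun e => z1 ((algebraMap F L).injective (by simpa using e))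
  rw [k6, h1, one_smul] at k7
  obtain rfl : e' = e := by
    have := (k5.finrank_ker hr).symm.trans k7
    simp [Multiset.count_replicate, z2] at this
    omega
  exact H6.El.extP_of_linear y' (k5.sim k2 hr hi rfl)
    (fun a b h => hf.injective (by simp [h]))

end Cfsg.Agent.S5969
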