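import Cfsg.Statements.S5970
import Cfsg.Agent.H6.El10

set_option autoImplicit false
open scoped MatrixGroups
open Cfsg

namespace Cfsg.Agent.S5970

/-- Elements of order `n` of PSL_n(q), `n` prime, and the normalizer of a Singer cycle. Here `T = PSL_n(F)` for a field `F` with `q = p^f` elements (`n ≥ 2`, `(n, q) ≠ (2, 2), (2, 3)`), `k` is a prime dividing `n`, `K` is a subalgebra of the `n × n` matrices that is a field of degree `k` over `F` (an extension-field structure F_{q^k} on `F^n`), and `H` is the subgroup of matrices of determinant 1 normalizing `K` — a subgroup of type GL_{n/k}(q^k) (maximal except in some small cases; maximality is not assumed); Ω is the set of cosets of `H` in `T`, so an element of `T` of prime order `r` (a matrix `x` of determinant 1 with `x^r` scalar, `x` not scalar) fixes a point of Ω when some conjugate of `x` by a matrix of determinant 1 normalizes `K`. Take `k = n > 3` prime with `n ≠ p` (so `H` is the normalizer of a Singer cycle), and suppose `n` divides the index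 of `H`. Then every element of `T` of order `n` is conjugate in `T` into `H` if and only if the multiplicative order of `q` modulo `n` is `n − 1`. -/
theorem result {F : Type*} [Field F] [Fintype F] {p : ℕ} [Fact p.Prime] [CharP F p] {q : ℕ} (hq : Fintype.card F = q)
    (n : ℕ) (hn : 2 ≤ n) (hT : (n, q) ≠ (2, 2) ∧ (n, q) ≠ (2, 3))
    (k : ℕ) (hk : k.Prime) (hkn : k ∣ n) (K : Subalgebra F (Matrix (Fin n) (Fin n) F)) (hK : Cfsg.Geo.IsFieldSubalgebra k K) (hkn' : k = n) (hn3 : 3 < n) (hnp : n ≠ p) (hΩ : n ∣ ((Cfsg.Geo.subalgebraNormalizer K).comap (Matrix.SpecialLinearGroup.toGL : Matrix.SpecialLinearGroup (Fin n) F →* GL (Fin n) F)).index) :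
    (∀ x : Matrix.SpecialLinearGroup (Fin n) F,
      (∃ z : F, ((x ^ n : Matrix.SpecialLinearGroup (Fin n) F) : Matrix (Fin n) (Fin n) F) = z • (1 : Matrix (Fin n) (Fin n) F)) →
      (∀ z : F, (x : Matrix (Fin n) (Fin n) F) ≠ z • (1 : Matrix (Fin n) (Fin n) F)) →
      ∃ P : Matrix.SpecialLinearGroup (Fin n) F, P⁻¹ * x * P ∈ ((Cfsg.Geo.subalgebraNormalizer K).comap (Matrix.SpecialLinearGroup.toGL : Matrix.SpecialLinearGroup (Fin n) F →* GL (Fin n) F))) ↔
    orderOf (q : ZMod n) = n - 1 := by
  classical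
  subst hq hkn'
  have := Fact.mk hk
  obtain ⟨L, _, _, _, _, h1, hH⟩ := H6.El.ext_bridge hk.pos hK
  have : Module.Finite F L := Module.finite_of_finrank_pos (h1 ▸ hk.pos)
  have h2 : Module.finrank L (Fin k → F) = 1 := by
    have := Module.finrank_mul_finrank F L (Fin k → F)
    rw [h1, Module.finrank_fin_fun] at this
    exact (Nat.mul_eq_left hk.ne_zero).1 this
  have hr := H6.El.cast_ne_zero_of_ne (F := F) hnp
  rw [H6.El.forall_SL_conj_iff]
  refine ⟨fun H => ?_, fun hi f hf => (hf.extP_singer hr h1 h2 hi).ci hH (hf.cd hr)⟩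
  by_contra hi
  suffices ∃ (f : Module.End F (Fin k → F)) (d : ℕ), H6.El.PE k f ∧
      Module.finrank F (LinearMap.ker (f - (1 : F) • 1)) = d ∧ 2 ≤ d ∧ d < k by
    obtain ⟨f, d, k1, k2, k3, k4⟩ := this
    rcases ((H f k1).extP hH).eig (h1 ▸ hk) one_ne_zero k2 with k5 | k5
    · exact absurd (Nat.le_of_dvd (by omega) k5) (by omega)
    · exact absurd (k5.2 h2) (by omega)
  have h3 := H6.El.ord_dvd hr
  have h4 := H6.El.ord_pos hr
  have h5 := Nat.le_of_dvd (by omega) h3
  by_cases h6 : orderOf ((Fintype.card F : ℕ) : ZMod k) = 1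
  · obtain ⟨ζ, hζ⟩ := H6.El.exists_prim h6
    have z1 := hζ.ne_one hk.one_lt
    obtain ⟨f, k1, -, -, k2⟩ := H6.El.exists_pe_dg' (V := Fin k → F) (r := k)
      (B := Multiset.replicate (k - 2) 1 + {ζ, ζ⁻¹}) (γ := 1) (u := 1) (v := ζ) (by simp; omega)
      (by simp [Multiset.mem_replicate, or_imp, forall_and, hζ.pow_eq_one])
      (by simp [hζ.ne_zero hk.ne_zero]) (by simp [Multiset.mem_replicate]; omega) (by simp) z1.symm
    refine ⟨f, k - 2, k1, ?_, by omega, by omega⟩
    have := k2 1
    rw [mul_one] at this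
    exact this.trans (by simp [z1.symm, (inv_ne_one.2 z1).symm])
  · obtain ⟨f, π, -, -, -, k1, k2⟩ := H6.El.exists_pe_min (V := Fin k → F) hr h6 (by simp; omega)
    obtain ⟨c, hc⟩ := h3
    rw [Module.finrank_fin_fun] at k1
    refine ⟨f, k - orderOf ((Fintype.card F : ℕ) : ZMod k), k2,
      by rw [one_smul]; exact k1.finrank_ker hr, ?_, by omega⟩
    rcases c with _ | _ | c
    · omega
    · omega
    · rw [mul_add, mul_add] at hc
      omega

end Cfsg.Agent.S5970
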