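import Cfsg.Statements.S5971
import Cfsg.Agent.H6.El10
import Cfsg.Agent.H6.El9
import Cfsg.Agent.H6.El7

set_option autoImplicit false
open scoped MatrixGroups
open Cfsg

namespace Cfsg.Agent.S5971

/-- Elements of order 3 of PSL_3(q) and the normalizer of a Singer cycle. Here `T = PSL_n(F)` for a field `F` with `q = p^f` elements (`n ≥ 2`, `(n, q) ≠ (2, 2), (2, 3)`), `k` is a prime dividing `n`, `K` is a subalgebra of the `n × n` matrices that is a field of degree `k` over `F` (an extension-field structure F_{q^k} on `F^n`), and `H` is the subgroup of matrices of determinant 1 normalizing `K` — a subgroup of type GL_{n/k}(q^k) (maximal except in some small cases; maximality is not assumed); Ω is the set of cosets of `H` in `T`, so an element of `T` of prime order `r` (a matrix `x` of determinant 1 with `x^r` scalar, `x` not scalar) fixes a point of Ω when some conjugate of `x` by a matrix of determinant 1 normalizes `K`. Take `n = k = 3` and suppose 3 divides the index of `H`.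 Then every element of `T` of order 3 is conjugate in `T` into `H` if and only if `q ≡ 4, 7` or `8 (mod 9)`. -/
theorem result {F : Type*} [Field F] [Fintype F] {p : ℕ} [Fact p.Prime] [CharP F p] {q : ℕ} (hq : Fintype.card F = q)
    (n : ℕ) (hn : n = 3) (k : ℕ) (hk : k.Prime) (hkn : k ∣ n) (K : Subalgebra F (Matrix (Fin n) (Fin n) F)) (hK : Cfsg.Geo.IsFieldSubalgebra k K) (hk3 : k = 3) (hΩ : 3 ∣ ((Cfsg.Geo.subalgebraNormalizer K).comap (Matrix.SpecialLinearGroup.toGL : Matrix.SpecialLinearGroup (Fin n) F →* GL (Fin n) F)).index) :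
    (∀ x : Matrix.SpecialLinearGroup (Fin n) F,
      (∃ z : F, ((x ^ 3 : Matrix.SpecialLinearGroup (Fin n) F) : Matrix (Fin n) (Fin n) F) = z • (1 : Matrix (Fin n) (Fin n) F)) →
      (∀ z : F, (x : Matrix (Fin n) (Fin n) F) ≠ z • (1 : Matrix (Fin n) (Fin n) F)) →
      ∃ P : Matrix.SpecialLinearGroup (Fin n) F, P⁻¹ * x * P ∈ ((Cfsg.Geo.subalgebraNormalizer K).comap (Matrix.SpecialLinearGroup.toGL : Matrix.SpecialLinearGroup (Fin n) F →* GL (Fin n) F))) ↔
    (q % 9 = 4 ∨ q % 9 = 7 ∨ q % 9 = 8) := by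
  classical
  subst hq hn hk3
  obtain ⟨L, _, _, _, _, h1, hH⟩ := H6.El.ext_bridge hk.pos hK
  have : Module.Finite F L := Module.finite_of_finrank_pos (h1 ▸ hk.pos)
  have h2 : Module.finrank L (Fin 3 → F) = 1 := by
    have := Module.finrank_mul_finrank F L (Fin 3 → F)
    rw [h1, Module.finrank_fin_fun] at this
    omega
  rw [H6.El.forall_SL_conj_iff]
  have key : ∀ (f : Module.End F (Fin 3 → F)) (γ : F), H6.El.PE 3 f → γ ≠ 0 →
      Module.finrank F (LinearMap.ker (f - γ • 1)) = 2 →
      ¬ ∀ f, H6.El.PE 3 f → H6.El.CI (Geo.subalgebraNormalizer K) f := fun f γ k1 k2 k3 H => by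
    rcases ((H f k1).extP hH).eig (h1 ▸ hk) k2 k3 with k5 | k5
    · simp [h1] at k5
    · simpa using k5.2 h2
  by_cases hr : ((3 : ℕ) : F) = 0
  · have : CharP F 3 := (CharP.charP_iff_prime_eq_zero Nat.prime_three).2 hr
    obtain ⟨j, -, hj⟩ := FiniteField.card F 3
    have h3 : 3 ∣ Fintype.card F := hj ▸ dvd_pow_self 3 j.ne_zero
    obtain ⟨f, hf⟩ := H6.El.exists_jd_model (V := Fin 3 → F) (m := {2, 1}) (1 : F) (by simp)
      (by simp)
    refine iff_of_false (key f 1 (hf.pe (k := 2) (by simp) (by simp) le_rfl) one_ne_zero ?_)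
      (by omega)
    have := hf.finrank_ker 1
    rwa [pow_one, H6.El.aeval_X_sub_C] at this
  have h3 := H6.El.not_dvd_card hr
  have h4 := Fintype.one_lt_card (α := F)
  by_cases hi : orderOf ((Fintype.card F : ℕ) : ZMod 3) = 1
  · obtain ⟨ζ, hζ⟩ := H6.El.exists_prim hi
    have z1 := hζ.ne_one hk.one_lt
    have h5 := H6.El.ord_eq_one_iff.1 hi
    have h6 := padicValNat_dvd_iff_le (p := 3) (a := Fintype.card F - 1) (n := 2) (by omega)
    by_cases h7 : 3 ^ 2 ∣ Fintype.card F - 1
    · obtain ⟨γ, hγ⟩ := (H6.El.exists_pow_mul_prim_iff hζ three_ne_zero).2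
        (by simpa using Nat.lt_of_succ_le (h6.1 h7))
      obtain ⟨f, k1, k2, -, k3⟩ := H6.El.exists_pe_dg' (V := Fin 3 → F) (r := 3)
        (B := {1, 1, ζ}) (γ := γ) (u := 1) (v := ζ) (by simp) (by simp [hζ.pow_eq_one])
        (by simpa using hγ) (by simp) (by simp) z1.symm
      exact iff_of_false (key f (γ * 1) k1 (by simpa using k2)
        ((k3 1).trans (by simp [z1.symm]))) (by omega)
    refine iff_of_true (fun f hf => H6.El.ExtP.ci hH ?_ (hf.cd hr)) (by omega)
    rcases hf.cases hr with ⟨γ, k1, y, e, ν, rfl, k2, -⟩ | ⟨c, s, k1, k2⟩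
    swap
    · exact hf.extP_irr h1 k1 k2
    refine (H6.El.extP_of_charpoly h2 (h1 ▸ hr) ?_).smul k1
    obtain ⟨B, hB⟩ := k2.dg hr hi
    have k3 := (hB.pow_eq_iff (r := 3) (c := 1)).1 (by simp [k2.pow])
    have k4 : B.prod = 1 := by
      by_contra k4
      have k5 := hf.det
      rw [LinearMap.det_smul, hB.det] at k5
      have := (H6.El.exists_pow_mul_prim_iff (ζ := B.prod) (IsPrimitiveRoot.iff_orderOf.2
        (orderOf_eq_prime (by rw [← hB.det, ← map_pow, k2.pow, map_one]) k4)) (by simp)).1 ⟨γ, k5⟩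
      simp at this
      omega
    have k5 : ∀ a b c : F, a ^ 3 = 1 → b ^ 3 = 1 → a * (b * c) = 1 → a ≠ b →
        (Polynomial.X - Polynomial.C a) * ((Polynomial.X - Polynomial.C b) *
          (Polynomial.X - Polynomial.C c)) = Polynomial.X ^ 3 - 1 := fun a b c ha hb hc hab => by
      have e1 : a ^ 2 + a * b + b ^ 2 = 0 :=
        mul_left_cancel₀ (sub_ne_zero.2 hab) (by linear_combination ha - hb)
      obtain rfl : c = a ^ 2 * b ^ 2 := by
        linear_combination a ^ 2 * b ^ 2 * hc - c * b ^ 3 * ha - c * hb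
      replace e1 := congrArg Polynomial.C e1
      replace ha := congrArg Polynomial.C ha
      replace hb := congrArg Polynomial.C hb
      simp only [map_add, map_mul, map_pow, map_one, map_zero] at e1 ha hb ⊢
      linear_combination (Polynomial.X - Polynomial.C b ^ 2 * Polynomial.X ^ 2) * e1 +
        (Polynomial.C b ^ 2 * Polynomial.X - Polynomial.C b ^ 3) * ha +
        ((Polynomial.C a + Polynomial.C b) * Polynomial.X ^ 2 + Polynomial.C a ^ 2 * Polynomial.X - 1) * hb
    obtain ⟨a, b, c, rfl⟩ := Multiset.card_eq_three.1 (hB.finrank.symm.trans (by simp))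
    simp only [Multiset.insert_eq_cons, Multiset.mem_cons, Multiset.mem_singleton, forall_eq_or_imp,
      forall_eq, Multiset.prod_cons, Multiset.prod_singleton] at k3 k4
    rw [hB.charpoly, h1]
    simp only [Multiset.insert_eq_cons, Multiset.map_cons, Multiset.map_singleton,
      Multiset.prod_cons, Multiset.prod_singleton]
    by_cases hab : a = b
    · subst hab
      rw [← k5 c a a k3.2.2 k3.1 (by linear_combination k4) (by
        rintro rfl
        refine hf.ns (γ * c) ?_
        rw [mul_smul, ← (hB.pow_eq_iff (r := 1)).2 (by simp), pow_one])]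
      ring
    · exact k5 a b c k3.1 k3.2.1 k4 hab
  have h5 : orderOf ((Fintype.card F : ℕ) : ZMod 3) = 3 - 1 :=
    ((Nat.dvd_prime Nat.prime_two).1 (H6.El.ord_dvd hr)).resolve_left hi
  have H : ∀ f, H6.El.PE 3 f → H6.El.CI (Geo.subalgebraNormalizer K) f := fun f hf =>
    (hf.extP_singer hr h1 h2 h5).ci hH (hf.cd hr)
  refine iff_of_true H ?_
  obtain ⟨f, π, -, -, -, k1, k2⟩ := H6.El.exists_pe_min (V := Fin 3 → F) hr hi (by simp [h5])
  obtain ⟨g, k3, k4⟩ := (H f k2).sim
  have k5 : orderOf g = 3 := orderOf_eq_prime (H6.gl0.injective (LinearEquiv.ext fun v =>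
    (by simpa [pow_succ] using LinearMap.congr_fun (k1.of_sim k4).pow v))) (by
      rintro rfl
      exact k2.ns 1 (LinearMap.ext (k4.symm.scalar (by simp))))
  have k6 : 3 ∣ Nat.card (Geo.subalgebraNormalizer K ⊓ Geo.specialLinear (Fin 3) F :
      Subgroup (GL (Fin 3) F)) := k5.symm.dvd.trans (Subgroup.orderOf_dvd_natCard _
    (Subgroup.mem_inf.2 ⟨k3, (H6.glEquiv_mem_SLV _ g).1 (H6.mem_SLV'.2 (k4.det_eq.trans k2.det))⟩))
  rw [H6.El.index_comap_toGL] at hΩ
  have k7 := mul_dvd_mul hΩ k6
  rw [H6.El.relIndex_mul_card, H6.El.card_SL] at k7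
  rw [H6.El.ord_eq_one_iff] at hi
  simp only [Finset.prod_range_succ, Finset.sum_range_succ, Finset.range_zero, Finset.sum_empty,
    Finset.prod_empty] at k7
  rw [← ZMod.natCast_eq_zero_iff] at k7
  push_cast [Nat.cast_sub (Nat.one_le_pow _ _ Fintype.card_pos)] at k7
  rw [← Nat.mod_add_div (Fintype.card F) 9] at k7
  push_cast at k7
  rw [show (9 : ZMod (3 * 3)) = 0 from rfl, zero_mul, add_zero] at k7
  obtain k8 | k8 | k8 : Fintype.card F % 9 = 2 ∨ Fintype.card F % 9 = 5 ∨
    Fintype.card F % 9 = 8 := by omega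
  · exact absurd k7 (by rw [k8]; decide)
  · exact absurd k7 (by rw [k8]; decide)
  · omega

end Cfsg.Agent.S5971
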