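import Cfsg.Statements.S5972
import Cfsg.Agent.H2.Oel12

set_option autoImplicit false
open scoped MatrixGroups
open Cfsg

namespace Cfsg.Agent.S5972

open Cfsg.Agent.H2.Oel Cfsg.Agent.Orth Cfsg.Agent.H8

/-- Elements of prime order of Ω_n(q), n = 2d+1 ≥ 7, q odd, with no fixed totally singular `m`-space. Here `T = Ω_n(q)` is realised as the commutator subgroup of the isometry group of the quadratic form `x₀² + Σ xᵢyᵢ` over the field `F` with `q` elements (it has trivial centre, so its elements of prime order `r` are used directly); let `1 ≤ m ≤ d` and let `r` be a prime dividing the number of totally singular `m`-spaces. For `r ≠ p` let `i` be the multiplicative order of `q` modulo `r`, `c = i` for `i` even and `c = 2i` for `i` odd, and write `k = n mod c`, `ℓ = m mod i`, `n' = ⌊n/i⌋`, `m' = ⌊m/i⌋`, `t = (r−1)/i`. Then every element of `T` of order `r` fixes some totally singular `m`-space if and only if either (i)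 `r = 2` and (`m < (n−1)/2` or `q ≡ 1 (mod 4)`); or (ii) `r ≠ p` is odd, `i ≤ m`, `k > 2ℓ`, and (`i` is odd or `n' − 2m' ≥ t`). -/
theorem result {F : Type*} [Field F] [Fintype F] {p : ℕ} [Fact p.Prime] [CharP F p] {q : ℕ} (hq : Fintype.card F = q) (hqodd : Odd q)
    (d m : ℕ) (hd : 3 ≤ d) (hm : 1 ≤ m) (hmd : m ≤ d)
    (r : ℕ) [Fact r.Prime]
    (hrΩ : r ∣ Nat.card {W : Submodule F (Unit ⊕ (Fin d ⊕ Fin d) → F) // Module.finrank F ↥W = m ∧ (∀ w ∈ W, Cfsg.quadFormOdd d F w = 0)})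
    (i c : ℕ) (hi : i = orderOf (q : ZMod r)) (hc : c = if Even i then i else 2 * i) :
    (∀ x : GL (Unit ⊕ (Fin d ⊕ Fin d)) F, x ∈ Cfsg.Geo.omegaGL (Cfsg.quadFormOdd d F) → orderOf x = r →
      ∃ W : Submodule F (Unit ⊕ (Fin d ⊕ Fin d) → F), Module.finrank F ↥W = m ∧ (∀ w ∈ W, Cfsg.quadFormOdd d F w = 0) ∧
        W.map (Matrix.toLin' (x : Matrix (Unit ⊕ (Fin d ⊕ Fin d)) (Unit ⊕ (Fin d ⊕ Fin d)) F)) ≤ W) ↔
    ((r = 2 ∧ (m < d ∨ q % 4 = 1)) ∨
     (r ≠ p ∧ 2 < r ∧ i ≤ m ∧ 2 * (m % i) < (2 * d + 1) % c ∧ (Odd i ∨ (r - 1) / i + 2 * (m / i) ≤ (2 * d + 1) / i))) := by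
  have hQ0 := quadFormOdd_nondeg (F := F) (hq ▸ hqodd) d
  have hQ := nd_toQF hQ0
  have hn := fr_odd (F := F) d
  have hp : Plus (toQF hQ0) ⊤ ↔ False := iff_false_intro (odd_not_plus (by simp [hn]))
  change r ∣ Nat.card {W // STS (toQF hQ0) m W} at hrΩ
  rw [oe_bridge hQ0 (by simp; omega) r _ (FixIn (STS (toQF hQ0) m))
    fun x => by simp only [FixIn, STS, map_le_iff, and_assoc]; rfl]
  rcases tri hq hi with rfl | ⟨rfl, -, h2⟩ | ⟨h1, h2, h3, H⟩
  · exact absurd hrΩ (ts_not_dvd hQ (by omega))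
  · obtain ⟨-, e, -⟩ := eta hq h2
    rw [oe_two hQ (by omega) h2 (by simp [hn]), allD_ts hQ (by omega) h2, hn, hp,
      cd_odd (by omega) hmd, e]
    simp
  · have h0 := H.ts_le hQ (sts_ne hQ (by omega)) hrΩ
    rw [oe_odd hQ (by omega) H.pr h3]
    rw [H.ts_iff hQ, hn, hp] at h0 ⊢
    rw [ar5972 H.pos hc H.t_pos hmd h0]
    simp [h1, h2, H.ne2]

end Cfsg.Agent.S5972
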