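import Cfsg.Statements.S5979
import Cfsg.Agent.H6.El11
import Cfsg.Agent.H6.El7

set_option autoImplicit false
open scoped MatrixGroups
open Cfsg

namespace Cfsg.Agent.S5979

/-- Elements of prime order of PSL_n(q) and the stabilizers of tensor decompositions with factors of different dimensions. Here `T = PSL_n(F)` for a field `F` with `q` elements and `n = a·b` with `2 ≤ a < b`; a tensor decomposition `F^n ≅ F^a ⊗ F^b` is given by a bijection `e` of index sets and a change of basis `P`, and `H` is the subgroup of matrices of determinant 1 in its stabilizer (the conjugate by `P` of the group of Kronecker products `g₁ ⊗ g₂`) — a subgroup of type GL_a(q) ⊗ GL_b(q) (maximality is not assumed); Ω is the set of cosets of `H` in `T`, so an element of `T` of prime order `r` (a matrix `x` of determinant 1 with `x^r` scalar, `x` not scalar) fixes a point of Ω exactly when some conjugate of `x` by a matrix of determinant 1 lies in `H`. Let `r` be a prime dividing the index of `H`. Then every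 element of `T` of order `r` fixes a point of Ω if and only if `r = 2`, `a = 2`, `q` is odd and `(q − 1)_2 ≤ (n)_2` (2-parts). -/
theorem result {F : Type*} [Field F] [Fintype F] {p : ℕ} [Fact p.Prime] [CharP F p] {q : ℕ} (hq : Fintype.card F = q)
    (n a b : ℕ) (hab : n = a * b) (ha : 2 ≤ a) (hlt : a < b) (e : Fin n ≃ Fin a × Fin b) (P : GL (Fin n) F)
    (r : ℕ) [Fact r.Prime]
    (hΩ : r ∣ (Cfsg.Geo.tensorProductSubgroup a b e P).relIndex (Cfsg.Geo.specialLinear (Fin n) F)) :
    (∀ x ∈ Cfsg.Geo.specialLinear (Fin n) F, (∃ z : F, ((x ^ r : GL (Fin n) F) : Matrix (Fin n) (Fin n) F) = z • (1 : Matrix (Fin n) (Fin n) F)) →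
      (∀ z : F, (x : Matrix (Fin n) (Fin n) F) ≠ z • (1 : Matrix (Fin n) (Fin n) F)) →
      ∃ g ∈ Cfsg.Geo.specialLinear (Fin n) F, g⁻¹ * x * g ∈ Cfsg.Geo.tensorProductSubgroup a b e P) ↔
    (r = 2 ∧ a = 2 ∧ Odd q ∧ padicValNat 2 (q - 1) ≤ padicValNat 2 n) := by
  classical
  subst hq
  have hr : r.Prime := Fact.out
  have hb : b + b ≤ n := by nlinarith
  have : Nontrivial (Fin b → F) := Module.finrank_pos_iff.1
    (by simp; omega : 0 < Module.finrank F _)
  rw [H6.El.forall_GL_conj_iff]
  have key : ∀ (f : Module.End F (Fin n → F)) (γ δ : F), H6.El.PE r f → γ ≠ 0 →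
      n < Module.finrank F (LinearMap.ker (f - γ • 1)) + b →
      ¬ a ∣ Module.finrank F (LinearMap.ker (f - δ • 1)) →
      ¬ ∀ f, H6.El.PE r f → H6.El.CI (Geo.tensorProductSubgroup a b e P) f :=
    fun f γ δ k1 k2 k3 k4 H => by
    obtain ⟨B, hB⟩ := (H f k1).tenP.tenR_of_codim k2 (by simpa using k3)
    have := hB.dvd (Polynomial.irreducible_X_sub_C δ)
    rw [H6.El.aeval_X_sub_C] at this
    exact k4 (by simpa using this)
  have h0 : ¬ a ∣ n - 1 := fun h => by
    have := (Nat.dvd_sub_iff_right (by omega) ⟨b, hab⟩).1 h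
    rw [Nat.dvd_one] at this
    omega
  by_cases hrp : r = p
  · subst hrp
    obtain ⟨f, hf⟩ := H6.El.exists_jd_model (V := Fin n → F)
      (m := 2 ::ₘ Multiset.replicate (n - 2) 1) (1 : F)
      (by simp +contextual [Multiset.mem_replicate, or_imp]) (by simp; omega)
    have h1 := hf.finrank_ker 1
    rw [pow_one, H6.El.aeval_X_sub_C, show Multiset.sum _ = n - 1 by simp; omega] at h1
    refine iff_of_false (key f 1 1 (hf.pe (k := 2) (by
      simp +contextual [Multiset.mem_replicate, or_imp, hr.two_le, hr.one_le]) (by simp) le_rfl)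
      one_ne_zero (by omega) (h1 ▸ h0)) ?_
    rintro ⟨rfl, -, h, -⟩
    simp [Nat.odd_iff, FiniteField.even_card_of_char_two (ringChar.eq F 2)] at h
  have hr' := H6.El.cast_ne_zero_of_ne (F := F) hrp
  by_cases hi : orderOf ((Fintype.card F : ℕ) : ZMod r) = 1
  swap
  · refine iff_of_false (fun H => ?_) (by rintro ⟨rfl, -⟩; exact hi (H6.El.ord_two hr'))
    have h1 := H6.El.ord_le_of_dvd_relIndex hr' hΩ
    obtain ⟨f, π, -, k1, k2, k3, k4⟩ := H6.El.exists_pe_min (V := Fin n → F) hr' hi (by simpa)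
    obtain ⟨B, hB⟩ : ∃ B : Module.End F (Fin b → F), H6.El.TenR (Fin a → F) B f := by
      by_cases h2 : a < orderOf ((Fintype.card F : ℕ) : ZMod r)
      · exact (H f k4).tenP.tenR_of_ord hr' hi k3.pow (by simpa)
      · refine (H f k4).tenP.tenR_of_codim one_ne_zero ?_
        rw [one_smul, k3.finrank_ker hr']
        simp
        omega
    have k5 := hB.dvd k1
    rw [k3.ty.finrank_ker, Multiset.map_add, Multiset.map_replicate, Multiset.map_singleton,
      H6.El.finrank_ker_mr_irred (Polynomial.monic_X_sub_C 1) (Polynomial.irreducible_X_sub_C 1),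
      H6.El.finrank_ker_mr_irred (k3.ty.monic π (by simp)) k1, if_pos dvd_rfl,
      if_neg fun h => H6.El.not_dvd_of_dvd_cyc hr' k1 k2
        ((Polynomial.irreducible_X_sub_C 1).associated_of_dvd k1 h).symm.dvd] at k5
    have := Nat.le_of_dvd (by simpa using k1.natDegree_pos) k5
    simp at this
    nlinarith [k1.natDegree_pos]
  obtain ⟨ζ, hζ⟩ := H6.El.exists_prim hi
  have z1 := hζ.ne_one hr.one_lt
  obtain ⟨f, k1, -, -, k2⟩ := H6.El.exists_pe_dg' (V := Fin n → F) (r := r)
    (B := Multiset.replicate (n - 2) 1 + {ζ, ζ⁻¹}) (γ := 1) (u := 1) (v := ζ) (by simp; omega)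
    (by simp [Multiset.mem_replicate, or_imp, forall_and, hζ.pow_eq_one])
    (by simp [hζ.ne_zero hr.ne_zero]) (by simp [Multiset.mem_replicate]; omega) (by simp) z1.symm
  have k3 : Module.finrank F (LinearMap.ker (f - ((1 : F) * 1) • 1)) = n - 2 :=
    (k2 1).trans (by simp [z1.symm, (inv_ne_one.2 z1).symm])
  by_cases hr2 : r = 2
  swap
  · refine iff_of_false (key f (1 * 1) (1 * ζ) k1 (by simp) (by rw [k3]; omega) ?_) fun h => hr2 h.1
    have : ζ ≠ ζ⁻¹ := fun e => hζ.pow_ne_one_of_pos_of_lt two_ne_zero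
      (by have := hr.two_le; omega) (by rw [sq, mul_eq_one_iff_eq_inv₀ (hζ.ne_zero hr.ne_zero), ← e])
    rw [k2]
    simp [Multiset.count_replicate, z1.symm, this]
    omega
  subst hr2
  by_cases ha2 : a = 2
  swap
  · refine iff_of_false (key f (1 * 1) (1 * 1) k1 (by simp) (by rw [k3]; omega) ?_) fun h => ha2 h.2.1
    rw [k3]
    intro h
    have := Nat.le_of_dvd two_pos ((Nat.dvd_sub_iff_right (by omega) ⟨b, hab⟩).1 h)
    omega
  subst ha2
  obtain rfl := hζ.eq_neg_one_of_two_right
  have h3 := H6.El.not_dvd_card hr'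
  have h4 := H6.El.exists_pow_mul_prim_iff hζ (n := n) (by omega)
  simp only [Nat.odd_iff.2 (show Fintype.card F % 2 = 1 by omega), true_and]
  refine ⟨fun H => ?_, fun H f hf => H6.El.TenP.ci ?_ hf.cd_two⟩
  · by_contra! h5
    obtain ⟨γ, hγ⟩ := h4.2 h5
    obtain ⟨f, k1, k2, -, k3⟩ := H6.El.exists_pe_dg' (V := Fin n → F) (r := 2)
      (B := Multiset.replicate (n - 1) 1 + {-1}) (γ := γ) (u := 1) (v := -1) (by simp; omega)
      (by simp +contextual [Multiset.mem_replicate, or_imp]) (by simpa using hγ)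
      (by simp [Multiset.mem_replicate]; omega) (by simp) z1.symm
    have k4 : Module.finrank F (LinearMap.ker (f - (γ * 1) • 1)) = n - 1 :=
      (k3 1).trans (by simp [z1.symm])
    exact key f (γ * 1) _ k1 (by simpa using k2) (by rw [k4]; omega) (k4 ▸ h0) H
  rcases hf.cases hr' with ⟨γ, k1, y, e, ν, rfl, k2, -⟩ | ⟨c, s, k1, k2⟩
  swap
  · obtain ⟨A, hA⟩ := H6.El.exists_ty (V := Fin 2 → F) (μ := {Polynomial.X ^ 2 - Polynomial.C c})
      (by simpa using Polynomial.monic_X_pow_sub_C c two_ne_zero) (by simp)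
    have k3 := (hA.aeval_eq_zero_iff (s := Polynomial.X ^ 2 - Polynomial.C c)).2 (by simp)
    rw [H6.El.aeval_X_pow_sub_C, sub_eq_zero] at k3
    refine ⟨LinearEquiv.ofInjectiveEndo A (by
      simpa using H6.El.inj_of_pow (r := 2) (by rintro rfl; exact k1 0 (by simp)) k3 1), 1,
      H6.El.sim_of_irred (X_pow_sub_C_irreducible_of_prime Nat.prime_two k1) ?_
        (k2.aeval_eq_zero_iff.2 fun g hg => by rw [Multiset.eq_of_mem_replicate hg])
        (by simp [Module.finrank_linearMap, hab, mul_comm])⟩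
    rw [H6.El.aeval_X_pow_sub_C]
    refine LinearMap.ext fun X => LinearMap.ext fun w => ?_
    simpa [sq, sub_eq_zero] using LinearMap.congr_fun k3 (X w)
  refine H6.El.TenP.smul ?_ k1
  have k3 := k2.finrank hr'
  have k4 := hf.det
  rw [LinearMap.det_smul, k2.ty.det, k2.eq_replicate hr' hi] at k4
  simp [hi, -map_one, ← Polynomial.C_1] at k3 k4
  obtain ⟨s, hs⟩ : Even (Multiset.card ν) := by
    by_contra k5
    rw [Odd.neg_one_pow (Nat.not_even_iff_odd.1 k5)] at k4
    exact absurd (h4.1 ⟨γ, k4⟩) (by omega)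
  obtain ⟨B, hB⟩ := H6.El.exists_dg (V := Fin b → F)
    (A := Multiset.replicate (e / 2) (1 : F) + Multiset.replicate s (-1)) (by simp; omega)
  have k5 := (hB.pow_eq_iff (r := 2) (c := 1)).2
    (by simp +contextual [Multiset.mem_replicate, or_imp])
  obtain ⟨e', ν', k6⟩ := H6.El.exists_spl (f := LinearMap.lcomp F (Fin 2 → F) B) hr'
    (LinearMap.ext fun X => LinearMap.ext fun w => by
      simpa [sq] using congrArg X (LinearMap.congr_fun k5 w))
  have k7 := H6.El.TenR.finrank_ker (U := Fin 2 → F) (B := B) (H6.El.Sim.refl _)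
    (Polynomial.X - Polynomial.C 1)
  rw [H6.El.aeval_X_sub_C, H6.El.aeval_X_sub_C, hB.finrank_ker, one_smul, k6.finrank_ker hr'] at k7
  obtain rfl : e' = e := by
    simp [Multiset.count_replicate, z1] at k7
    omega
  exact ⟨1, LinearEquiv.ofInjectiveEndo B (by
    simpa using H6.El.inj_of_pow (r := 2) one_ne_zero k5 1),
    k6.sim k2 hr' hi (by simp [Module.finrank_linearMap, hab, mul_comm])⟩

end Cfsg.Agent.S5979
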