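import Cfsg.Statements.S5981
import Cfsg.Agent.H6.El16

set_option autoImplicit false
open scoped MatrixGroups
open Cfsg

namespace Cfsg.Agent.S5981

/-- Elements of prime order of PSL_n(q), q odd, and the subgroups of orthogonal type. Here `T = PSL_n(F)` for a field `F` with `q` elements, `q` odd, `n ≥ 3`; `Q` is a non-degenerate quadratic form on `F^n` (of either type when `n` is even) and `H` is the subgroup of matrices of determinant 1 that preserve `Q` up to a scalar — a subgroup of type O^ε_n(q) (maximality is not assumed); Ω is the set of cosets of `H` in `T`, so an element of `T` of prime order `r` (a matrix `x` of determinant 1 with `x^r` scalar, `x` not scalar) fixes a point of Ω exactly when some conjugate of `x` by a matrix of determinant 1 preserves `Q` up to a scalar. Let `r` be a prime dividing the index of `H`, with `(n, r) ≠ (6, 3)`. Then every element of `T` of order `r` fixes a point of Ω if and only if `r = 2`, or `r ∈ {3, 5}`, `n = r` and `(q − 1)_r = r` (the `r`-part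 of `q − 1` is exactly `r`). The case `(n, r) = (6, 3)` is not covered by this statement. -/
theorem result {F : Type*} [Field F] [Fintype F] {p : ℕ} [Fact p.Prime] [CharP F p] {q : ℕ} (hq : Fintype.card F = q)
    (hodd : Odd q) (n : ℕ) (hn : 3 ≤ n) (Q : (Fin n → F) → F) (hQ : Cfsg.Geo.IsNondegenerateQuadraticForm Q)
    (r : ℕ) [Fact r.Prime] (hgap : ¬ (n = 6 ∧ r = 3))
    (hΩ : r ∣ (Cfsg.Geo.quadSimilarityGroup Q).relIndex (Cfsg.Geo.specialLinear (Fin n) F)) :
    (∀ x ∈ Cfsg.Geo.specialLinear (Fin n) F, (∃ z : F, ((x ^ r : GL (Fin n) F) : Matrix (Fin n) (Fin n) F) = z • (1 : Matrix (Fin n) (Fin n) F)) →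
      (∀ z : F, (x : Matrix (Fin n) (Fin n) F) ≠ z • (1 : Matrix (Fin n) (Fin n) F)) →
      ∃ g ∈ Cfsg.Geo.specialLinear (Fin n) F, g⁻¹ * x * g ∈ Cfsg.Geo.quadSimilarityGroup Q) ↔
    (r = 2 ∨ ((r = 3 ∨ r = 5) ∧ n = r ∧ padicValNat r (q - 1) = 1)) := by
  classical
  subst hq
  have h0 : ringChar F ≠ 2 := fun e => by
    have := FiniteField.even_card_of_char_two e
    obtain ⟨k, hk⟩ := hodd
    omega
  have h2 := Ring.two_ne_zero h0
  obtain ⟨B, h1, hH⟩ := H6.El.o_bridge h2 hQ
  have ht := H6.El.t0_of_odd h0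
  have hn' : Module.finrank F (Fin n → F) = n := by simp
  rw [H6.El.forall_GL_conj_iff]
  by_cases hr2 : r = 2
  · subst hr2
    refine iff_of_true (fun f hf => H6.El.FormP.ci hH ?_ hf.injective hf.cd_two) (Or.inl rfl)
    rcases hf.cases h2 with ⟨γ, k1, y, e, ν, rfl, k2, -⟩ | ⟨c, s, k1, k2⟩
    · exact (H6.El.formP_two h1 ht h2 k2).smul k1
    obtain ⟨g, k3, k4⟩ := H6.El.exists_orth_sq h0 h1 k2.finrank_irr c
    exact ⟨g, c, fun e => k1 0 (by simp [e]), k3, H6.El.sim_of_irred
      (X_pow_sub_C_irreducible_of_prime Nat.prime_two k1)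
      (by rw [H6.El.aeval_X_pow_sub_C, k4, sub_self])
      (k2.aeval_eq_zero_iff.2 fun P hP => (Multiset.eq_of_mem_replicate hP).dvd) rfl⟩
  simp only [hr2, false_or]
  have hr3 : 3 ≤ r := by have := (Fact.out : r.Prime).two_le; omega
  by_cases h3 : (r = 3 ∨ r = 5) ∧ n = r ∧ padicValNat r (Fintype.card F - 1) = 1
  · have h4 := H6.El.ne_zero_of_dvd_pow_sub_one (F := F) (r := r) one_pos
      (by simpa using dvd_of_one_le_padicValNat h3.2.2.ge)
    exact iff_of_true (fun f hf => (H6.El.formP_small h1 ht h4 (hn'.trans h3.2.1) h3.1 h3.2.2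
      (fun _ _ => rfl) hf).ci hH hf.injective (hf.cd h4)) h3
  refine iff_of_false (H6.El.not_forall_ci hH ?_) h3
  by_cases hrp : r = p
  · subst hrp
    exact H6.El.exists_not_jd (k := 1) (by simpa using h1) hr2 one_pos (by omega) (by omega)
  have h4 := H6.El.cast_ne_zero_of_ne (F := F) hrp
  by_cases hi : orderOf ((Fintype.card F : ℕ) : ZMod r) = 1
  · exact H6.El.exists_not_one h1 hi hr2 (by omega) (by rwa [hn']) (by rwa [hn']) fun _ _ => rfl
  have h5 := H6.El.relIndex_dvd_isoG hH
  rw [H6.El.card_GL] at h5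
  exact H6.El.exists_not_o h0 h1 (by omega) h4 hr2 hi hΩ (by rwa [hn'])

end Cfsg.Agent.S5981
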