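import Cfsg.Statements.S5982
import Cfsg.Agent.H6.El16

set_option autoImplicit false
open scoped MatrixGroups
open Cfsg

namespace Cfsg.Agent.S5982

/-- Elements of prime order of PSL_n(q), q = q₀², and the subgroups of unitary type. Here `T = PSL_n(F)` for a field `F` with `q = q₀²` elements (`n ≥ 3`), `f` is a non-degenerate unitary form on `F^n` for the involutory automorphism `x ↦ x^{q₀}`, and `H` is the subgroup of matrices of determinant 1 that preserve `f` up to a scalar — a subgroup of type GU_n(q₀) (maximality is not assumed); Ω is the set of cosets of `H` in `T`, so an element of `T` of prime order `r` (a matrix `x` of determinant 1 with `x^r` scalar, `x` not scalar) fixes a point of Ω exactly when some conjugate of `x` by a matrix of determinant 1 preserves `f` up to a scalar. Let `r` be a prime dividing the index of `H`, with `r = 2` or `r` different from the characteristic `p`, and with `(n, r) ≠ (6, 3)`. Then every element of `T` of order `r` fixes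 a point of Ω if and only if either `r = 2` and (`p = 2` or `(n)_2 ≤ (q − 1)_2`), or `r ∈ {3, 5}`, `n = r` and `(q₀ − 1)_r = r`. (Odd `r = p` and the case `(n, r) = (6, 3)` are not covered by this statement.) -/
theorem result {F : Type*} [Field F] [Fintype F] {p : ℕ} [Fact p.Prime] [CharP F p] {q : ℕ} (hq : Fintype.card F = q)
    (q₀ : ℕ) (hq₀ : q = q₀ ^ 2) (n : ℕ) (hn : 3 ≤ n) (f : (Fin n → F) → (Fin n → F) → F) (hf : Cfsg.Geo.IsUnitaryFormPow q₀ f)
    (r : ℕ) [Fact r.Prime] (hr : r = 2 ∨ r ≠ p) (hgap : ¬ (n = 6 ∧ r = 3))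
    (hΩ : r ∣ (Cfsg.Geo.similarityGroup f).relIndex (Cfsg.Geo.specialLinear (Fin n) F)) :
    (∀ x ∈ Cfsg.Geo.specialLinear (Fin n) F, (∃ z : F, ((x ^ r : GL (Fin n) F) : Matrix (Fin n) (Fin n) F) = z • (1 : Matrix (Fin n) (Fin n) F)) →
      (∀ z : F, (x : Matrix (Fin n) (Fin n) F) ≠ z • (1 : Matrix (Fin n) (Fin n) F)) →
      ∃ g ∈ Cfsg.Geo.specialLinear (Fin n) F, g⁻¹ * x * g ∈ Cfsg.Geo.similarityGroup f) ↔
    ((r = 2 ∧ (p = 2 ∨ padicValNat 2 n ≤ padicValNat 2 (q - 1))) ∨ ((r = 3 ∨ r = 5) ∧ n = r ∧ padicValNat r (q₀ - 1) = 1)) := by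
  classical
  subst hq
  obtain ⟨σ, k, B, hk, hσ, h1, hH⟩ := H6.El.u_bridge p hq₀ hf
  have ht := H6.El.t0_of_unit hq₀ hσ
  have hn' : Module.finrank F (Fin n → F) = n := by simp
  have hr0 : r.Prime := Fact.out
  rw [H6.El.forall_GL_conj_iff]
  by_cases hr2 : r = 2
  · subst hr2
    simp only [true_and, Nat.reduceEqDiff, or_self, false_and, or_false]
    by_cases hp : p = 2
    · subst hp
      refine iff_of_true (fun f hf => H6.El.FormP.ci hH ?_ hf.injective hf.cd_two) (Or.inl rfl)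
      obtain ⟨γ, μ, k1, k2, k3, -⟩ := hf.jd
      have k4 := k2.finrank
      have k5 := H6.El.eq_replicate_two k2.pos k3
      rw [k5] at k2 k4
      simp only [Multiset.sum_add, Multiset.sum_replicate, smul_eq_mul] at k4
      refine (H6.El.hs_unit hq₀ hσ h1 (m := μ.count 2) (by omega)).formP_jd
        (CharTwo.neg_eq 1).symm k1 ?_
      rwa [show Module.finrank F (Fin n → F) - 2 * μ.count 2 = μ.count 1 by omega]
    have h2 := H6.El.cast_ne_zero_of_ne (F := F) (Ne.symm hp)
    have h0 : ringChar F ≠ 2 := by rwa [ringChar.eq F p]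
    have h3 := H6.El.irrEx_iff (H6.El.ord_two h2) (n := n) (by omega)
    have h4 : Fintype.card F % 4 = 1 := by
      have := FiniteField.odd_card_of_char_ne_two h0
      rw [hq₀, ← Nat.odd_iff, Nat.odd_pow_iff two_ne_zero] at this
      obtain ⟨t, rfl⟩ := this
      rw [hq₀, show (2 * t + 1) ^ 2 = 1 + 4 * (t ^ 2 + t) by ring, Nat.add_mul_mod_self_left]
    simp only [h4, implies_true, and_true] at h3
    simp only [hp, false_or]
    have : Nontrivial (Fin n → F) := Module.finrank_pos_iff.1 (by omega : 0 < Module.finrank F _)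
    refine ⟨fun H => ?_, fun H f hf => H6.El.FormP.ci hH ?_ hf.injective hf.cd_two⟩
    · by_contra h5
      obtain ⟨f, c, s, k1, k2, k3⟩ := H6.El.IrrEx.exists_pe (V := Fin n → F) (hn'.symm ▸ h3.2 h5)
      exact H6.El.not_formP_irr hq₀ hσ h1 h0 k2 k3 ((H f k1).formP hH)
    rcases hf.cases h2 with ⟨γ, k1, y, e, ν, rfl, k2, -⟩ | ⟨c, s, k1, k2⟩
    · exact (H6.El.formP_two h1 ht h2 k2).smul k1
    exact absurd H (h3.1 (hn' ▸ hf.irrEx k1 k2))
  simp only [hr2, false_and, false_or] at hr ⊢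
  have h4 := H6.El.cast_ne_zero_of_ne (F := F) hr
  have h5 := H6.El.relIndex_dvd_isoG hH
  rw [H6.El.card_GL] at h5
  obtain ⟨j, k1, k2, k3⟩ := H6.El.exists_of_dvd_u hq₀ hσ h1 h4 hΩ (by rwa [hn'])
  have h6 := H6.El.two_le_of_sq hq₀
  have h7 : Fintype.card F - 1 = (q₀ + 1) * (q₀ - 1) := by rw [hq₀, ← Nat.sq_sub_sq, one_pow]
  have h8 : ¬ r ∣ q₀ + 1 := fun e => hr2 <| by
    rw [← ZMod.natCast_eq_zero_iff] at e
    push_cast at e
    rw [eq_neg_of_add_eq_zero_left e, neg_neg, one_pow] at k3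
    exact (Nat.prime_dvd_prime_iff_eq hr0 Nat.prime_two).1 ((ZMod.natCast_eq_zero_iff _ _).1
      (by push_cast; linear_combination k3))
  have h9 : padicValNat r (Fintype.card F - 1) = padicValNat r (q₀ - 1) := by
    rw [h7, padicValNat.mul (by omega) (by omega), padicValNat.eq_zero_of_not_dvd h8, zero_add]
  rw [← h9]
  by_cases hi : orderOf ((Fintype.card F : ℕ) : ZMod r) = 1
  swap
  · exact iff_of_false (H6.El.not_forall_ci hH (H6.El.exists_not_u hq₀ hk hσ h1 h4 hr2 hi k1 k2 k3))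
      fun h => hi (H6.El.ord_eq_one_iff.2 (dvd_of_one_le_padicValNat h.2.2.ge))
  have h10 : ∀ w : F, w ^ r = 1 → σ w = w := fun w hw => by
    obtain ⟨c, hc⟩ := (hr0.dvd_mul.1 (h7 ▸ H6.El.ord_eq_one_iff.1 hi)).resolve_left h8
    rw [hσ, show q₀ = r * c + 1 by omega, pow_succ, pow_mul, hw, one_pow, one_mul]
  by_cases h3 : (r = 3 ∨ r = 5) ∧ n = r ∧ padicValNat r (Fintype.card F - 1) = 1
  · exact iff_of_true (fun f hf => (H6.El.formP_small h1 ht h4 (hn'.trans h3.2.1) h3.1 h3.2.2
      h10 hf).ci hH hf.injective (hf.cd h4)) h3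
  exact iff_of_false (H6.El.not_forall_ci hH
    (H6.El.exists_not_one h1 hi hr2 (by omega) (by rwa [hn']) (by rwa [hn']) h10)) h3

end Cfsg.Agent.S5982
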