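import Cfsg.Statements.S5983
import Cfsg.Agent.H9.Sp.Re8

set_option autoImplicit false
open scoped MatrixGroups
open Cfsg

namespace Cfsg.Agent.S5983

/-- Elements of prime order of PSp_n(q), q even, and the subgroups of orthogonal type. Here `T = Sp_{2d}(F)` for a field `F` of characteristic 2 with `q` elements (`d ≥ 2`, `(d, q) ≠ (2, 2)`), realised as the invertible matrices preserving the standard alternating form; `Q` is a non-degenerate quadratic form on `F^{2d}` whose polar form is that alternating form, and `H` is the subgroup of `T` preserving `Q` up to a scalar (equivalently preserving `Q`) — a subgroup of type O^±_{2d}(q) (maximality is not assumed); `Q` is of plus type when `F^{2d}` contains a `d`-dimensional subspace on which `Q` vanishes, of minus type otherwise. Ω is the set of cosets of `H` in `T`, so an element of `T` of prime order `r` (`x ∈ T` with `x^r` scalar, `x` not scalar) fixes a point of Ω exactly when some `T`-conjugate of `x` preserves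 `Q`. Let `r` be a prime dividing the index of `H`. Then every element of `T` of order `r` fixes a point of Ω if and only if `r = 2` and either `Q` is of plus type or `d` is odd. -/
theorem result {F : Type*} [Field F] [Fintype F] {p : ℕ} [Fact p.Prime] [CharP F p] {q : ℕ} (hq : Fintype.card F = q)
    (hp : p = 2) (d : ℕ) (hd : 2 ≤ d) (hT : (d, q) ≠ (2, 2)) (Q : (Fin d ⊕ Fin d → F) → F) (hQ : Cfsg.Geo.IsNondegenerateQuadraticForm Q)
    (hQf : ∀ u v, QuadraticMap.polar Q u v = Cfsg.sympForm d F u v)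
    (r : ℕ) [Fact r.Prime]
    (hΩ : r ∣ (Cfsg.Geo.quadSimilarityGroup Q).relIndex (Cfsg.spGL d F)) :
    (∀ x ∈ Cfsg.spGL d F, (∃ z : F, ((x ^ r : GL (Fin d ⊕ Fin d) F) : Matrix (Fin d ⊕ Fin d) (Fin d ⊕ Fin d) F) = z • (1 : Matrix (Fin d ⊕ Fin d) (Fin d ⊕ Fin d) F)) →
      (∀ z : F, (x : Matrix (Fin d ⊕ Fin d) (Fin d ⊕ Fin d) F) ≠ z • (1 : Matrix (Fin d ⊕ Fin d) (Fin d ⊕ Fin d) F)) →
      ∃ g ∈ Cfsg.spGL d F, g⁻¹ * x * g ∈ Cfsg.Geo.quadSimilarityGroup Q) ↔
    (r = 2 ∧ (Cfsg.Geo.IsPlusTypeOn Q ⊤ ∨ Odd d)) := by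
  subst hp
  have hB := H9.Sp.symp_B0 d F
  have hV := H9.Sp.finrank_V (m := d) (F := F)
  have hQ' : H9.Sp.QF (H9.Sp.B0 d F) Q := ⟨hQ.smul, fun u v => by
    rw [H9.Sp.B0_apply, ← hQf, QuadraticMap.polar]; ring⟩
  have : Nontrivial (Fin d ⊕ Fin d → F) := Module.finrank_pos_iff.1 (show 0 < Module.finrank F _ by omega)
  obtain ⟨h1, h2⟩ := H9.Sp.el_iff (r := r) (H := Cfsg.Geo.quadSimilarityGroup Q) (H' := H9.Sp.OQ Q)
    fun g hg => ⟨fun ⟨c, hc⟩ => by
      have hc' : ∀ v, Q (H6.gl0 g v) = c * Q v := hc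
      obtain ⟨x, hx⟩ := exists_ne (0 : Fin d ⊕ Fin d → F)
      obtain ⟨y, hy⟩ := hB.exists_one hx
      have h1 := hc' (x + y)
      rw [map_add, hQ'.add, hQ'.add, hc', hc', (H9.Sp.mem_spGL g).1 hg, hy] at h1
      have : (c : F) = 1 := by linear_combination -h1
      exact fun v => by simpa [this] using hc' v, fun h => ⟨1, fun v => by simpa [H6.gl0_apply] using h v⟩⟩
  rw [h1]
  by_cases hr : r = 2
  · subst hr
    rw [hQ'.el_two_iff hB hV (by omega)]
    simp [Cfsg.Geo.IsPlusTypeOn, Cfsg.Geo.IsTotallySingularQuad]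
  · exact iff_of_false (hQ'.not_el hB hr (h2 ▸ hΩ)) (by simp [hr])

end Cfsg.Agent.S5983
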