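import Cfsg.Statements.S5984
import Cfsg.Agent.H6.U9

set_option autoImplicit false
open scoped MatrixGroups
open Cfsg

namespace Cfsg.Agent.S5984

/-- Elements of prime order of PSU_n(q) and the stabilizers of pairs of complementary totally singular subspaces. Here `T = PSU_n(q)` is realised through `SU_n(q)`, the matrices of determinant 1 over the field `F` with `q²` elements preserving the hermitian form `Σ uᵢ vᵢ^q`, with `n ≥ 4` even; `D` is a pair of complementary subspaces of dimension `n/2` on each of which the form vanishes identically, and `H` is the subgroup of `SU_n(q)` fixing or interchanging the two members — a subgroup of type GL_{n/2}(q²).2 (maximality is not assumed). Ω is the set of cosets of `H`, so an element of `T` of prime order `r` (`x ∈ SU_n(q)` with `x^r` scalar, `x` not scalar) fixes a point of Ω exactly when some `SU_n(q)`-conjugate of `x` lies in `H`. Let `r` be a prime dividing the index of `H`. Then every element of `T` of order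 `r` fixes a point of Ω if and only if `r = 2`, `q` is odd and `(q + 1)_2 ≤ (n)_2` (2-parts). -/
theorem result {F : Type*} [Field F] [Fintype F] {p : ℕ} [Fact p.Prime] [CharP F p] {q : ℕ} (hq : Fintype.card F = q ^ 2)
    (n : ℕ) (hn : 4 ≤ n) (he : Even n) (D : Fin 2 → Submodule F (Fin n → F)) (hD : Cfsg.Geo.IsMDecomposition (n / 2) D)
    (hDs : ∀ i, Cfsg.Geo.IsTotallySingularFor (Cfsg.hermForm n F q) (D i))
    (r : ℕ) [Fact r.Prime]
    (hΩ : r ∣ (Cfsg.Geo.decompositionStabilizer D).relIndex (Cfsg.GU n F q ⊓ Cfsg.Geo.specialLinear (Fin n) F)) :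
    (∀ x ∈ Cfsg.GU n F q ⊓ Cfsg.Geo.specialLinear (Fin n) F, (∃ z : F, ((x ^ r : GL (Fin n) F) : Matrix (Fin n) (Fin n) F) = z • (1 : Matrix (Fin n) (Fin n) F)) →
      (∀ z : F, (x : Matrix (Fin n) (Fin n) F) ≠ z • (1 : Matrix (Fin n) (Fin n) F)) →
      ∃ g ∈ Cfsg.GU n F q ⊓ Cfsg.Geo.specialLinear (Fin n) F, g⁻¹ * x * g ∈ Cfsg.Geo.decompositionStabilizer D) ↔
    (r = 2 ∧ Odd q ∧ padicValNat 2 (q + 1) ≤ padicValNat 2 n) := by
  obtain ⟨σ, B, hσ, h, hB⟩ := H6.El.herm_bridge hq n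
  obtain ⟨m, rfl⟩ := he.two_dvd
  have hn' : Module.finrank F (Fin (2 * m) → F) = 2 * m := by simp
  have : NeZero (2 * m) := ⟨by omega⟩
  have h1 := H6.El.pr_of_dec hD hB hDs
  have h2 := H6.El.exists_ne_of_unit hq hσ
  refine Iff.trans ?_ ((H6.El.forall_ps_iff (p := p) hq hσ h hn' (by omega) fun hrp => ?_).trans
    (by rw [hn']))
  · simp only [H6.El.conj_iff_ps hD hB h h1 h2]
    simp only [Subgroup.mem_inf, H6.El.mem_GU_iff hB, H6.gl0_coe]
    refine ⟨fun H f k1 k2 => ?_, fun H x k1 k2 k3 => H _ k1.1 (H6.El.pe_toLin'.2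
      ⟨congrArg Units.val k1.2, by simpa using k2, k3⟩)⟩
    obtain ⟨g, rfl⟩ := H6.El.exists_gl0 k2.injective
    rw [H6.gl0_coe] at k1 k2 ⊢
    obtain ⟨k3, k4, k5⟩ := H6.El.pe_toLin'.1 k2
    exact H g ⟨k1, Units.ext k3⟩ (by simpa using k4) k5
  have h3 := H6.El.relIndex_pair hD hB h h1
  obtain ⟨E, hE⟩ := H6.El.card_gu_two hq hσ h hn'
  rw [hE, H6.El.card_equiv, hD.finrank_eq, Nat.mul_div_cancel_left _ two_pos] at h3
  obtain ⟨j, k1, k2⟩ := ((Fact.out : r.Prime).prime.dvd_finsetProd_iff _).1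
    (H6.El.dvd_aux Fact.out (H6.El.qP_pos Fintype.one_lt_card m) h3 hΩ fun e =>
      H6.El.not_dvd_card (H6.El.cast_ne_zero_of_ne hrp) (hq ▸ e.pow two_ne_zero))
  exact ⟨j, Finset.mem_range.1 k1, k2⟩

end Cfsg.Agent.S5984
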