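import Cfsg.Statements.S5997
import Cfsg.Agent.H6.X4

set_option autoImplicit false
open scoped MatrixGroups
open Cfsg

namespace Cfsg.Agent.S5997

/-- Elements of prime order of PSL_2(p) and the normalizer of a quaternion subgroup. Here `T = PSL_2(F)` for the field `F` with `p` elements, `p ≥ 5` prime; `R` is a subgroup of GL_2(F) isomorphic to the quaternion group of order 8 (an absolutely irreducible 2-group of symplectic type), and `H` is the subgroup of matrices of determinant 1 normalizing `R` — a subgroup of type 2^{1+2}.O₂⁻(2), isomorphic modulo scalars to A₄ or S₄ (maximality is not assumed). Ω is the set of cosets of `H` in `T`, so an element of `T` of prime order `r` (a matrix `x` of determinant 1 with `x^r` scalar, `x` not scalar) fixes a point of Ω exactly when some conjugate of `x` by a matrix of determinant 1 normalizes `R`. Let `r` be a prime dividing the index of `H`. Then every element of `T` of order `r` fixes a point of Ω if and only if `r = 2` or `r =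 3`. -/
theorem result {F : Type*} [Field F] [Fintype F] {p : ℕ} [Fact p.Prime] [CharP F p] (hF : Fintype.card F = p) (hp : 5 ≤ p)
    (R : Subgroup (GL (Fin 2) F)) (hR : Nonempty (↥R ≃* QuaternionGroup 2))
    (r : ℕ) [Fact r.Prime]
    (hΩ : r ∣ (Cfsg.Geo.subgroupNormalizer R).relIndex (Cfsg.Geo.specialLinear (Fin 2) F)) :
    (∀ x ∈ Cfsg.Geo.specialLinear (Fin 2) F, (∃ z : F, ((x ^ r : GL (Fin 2) F) : Matrix (Fin 2) (Fin 2) F) = z • (1 : Matrix (Fin 2) (Fin 2) F)) →
      (∀ z : F, (x : Matrix (Fin 2) (Fin 2) F) ≠ z • (1 : Matrix (Fin 2) (Fin 2) F)) →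
      ∃ g ∈ Cfsg.Geo.specialLinear (Fin 2) F, g⁻¹ * x * g ∈ Cfsg.Geo.subgroupNormalizer R) ↔ (r = 2 ∨ r = 3) := by
  obtain ⟨e⟩ := hR
  have hn : Module.finrank F (Fin 2 → F) = 2 := by simp
  have h2 : ((2 : ℕ) : F) ≠ 0 := H6.El.cast_ne_zero_of_ne (p := p) (by omega)
  have h3 : ((3 : ℕ) : F) ≠ 0 := H6.El.cast_ne_zero_of_ne (p := p) (by omega)
  obtain ⟨h, h8, hz, a, ha, b, hb, k1, k2, k3⟩ :=
    H6.El.q8_data H6.El.rho0_inj (fun _ => H6.El.exists_gl0) hn h2 e
  rw [H6.El.forall_GL_conj_iff]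
  refine ⟨fun H => by_contra fun k => H6.El.not_forall_ci_of hΩ ?_ (fun y =>
    h.not_pe (p := 2) h8 hz (fun e => k (Or.inl e)) fun e => k (Or.inr
      ((Nat.prime_dvd_prime_iff_eq Fact.out Nat.prime_three).1 e))) H, ?_⟩
  · exact (Nat.coprime_primes Fact.out Nat.prime_two).2 fun e => k (Or.inl e)
  rintro (rfl | rfl) f k
  · obtain ⟨y, k4, k5⟩ := H6.El.q8_two hn h2 ha k1 k3 k
    exact k4.ci k5 k h2
  · obtain ⟨y, k4, k5⟩ := H6.El.q8_three h hn h2 h3 ha hb k1 k2 k3 k
    exact k4.ci k5 k h3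

end Cfsg.Agent.S5997
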