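import Cfsg.Statements.S5998
import Cfsg.Agent.H6.X4

set_option autoImplicit false
open scoped MatrixGroups
open Cfsg

namespace Cfsg.Agent.S5998

/-- Elements of prime order of PSL_3(p), p ≡ 1 (mod 3), and the normalizer of an extraspecial subgroup of order 27. Here `T = PSL_3(F)` for the field `F` with `p` elements, `p` a prime with `p ≡ 1 (mod 3)`; `R` is a non-abelian subgroup of GL_3(F) of order 27 and exponent 3 (an extraspecial group 3^{1+2}, acting absolutely irreducibly), and `H` is the subgroup of matrices of determinant 1 normalizing `R` — a subgroup of type 3^{1+2}.Sp₂(3) (maximality is not assumed). Ω is the set of cosets of `H` in `T`, so an element of `T` of prime order `r` (a matrix `x` of determinant 1 with `x^r` scalar, `x` not scalar) fixes a point of Ω exactly when some conjugate of `x` by a matrix of determinant 1 normalizes `R`. Let `r` be a prime dividing the index of `H`. Then every element of `T` of order `r` fixes a point of Ω if and only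 if `r = 2`, or `r = 3` and `p ≡ 1 (mod 9)`. -/
theorem result {F : Type*} [Field F] [Fintype F] {p : ℕ} [Fact p.Prime] [CharP F p] (hF : Fintype.card F = p) (hp3 : p % 3 = 1)
    (R : Subgroup (GL (Fin 3) F)) (hR : Nat.card R = 27) (hRe : Monoid.exponent R = 3) (hRna : ¬ IsMulCommutative R)
    (r : ℕ) [Fact r.Prime]
    (hΩ : r ∣ (Cfsg.Geo.subgroupNormalizer R).relIndex (Cfsg.Geo.specialLinear (Fin 3) F)) :
    (∀ x ∈ Cfsg.Geo.specialLinear (Fin 3) F, (∃ z : F, ((x ^ r : GL (Fin 3) F) : Matrix (Fin 3) (Fin 3) F) = z • (1 : Matrix (Fin 3) (Fin 3) F)) →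
      (∀ z : F, (x : Matrix (Fin 3) (Fin 3) F) ≠ z • (1 : Matrix (Fin 3) (Fin 3) F)) →
      ∃ g ∈ Cfsg.Geo.specialLinear (Fin 3) F, g⁻¹ * x * g ∈ Cfsg.Geo.subgroupNormalizer R) ↔ (r = 2 ∨ (r = 3 ∧ p % 9 = 1)) := by
  have hn : Module.finrank F (Fin 3 → F) = 3 := by simp
  have h2 : ((2 : ℕ) : F) ≠ 0 := H6.El.cast_ne_zero_of_ne (p := p) (by omega)
  have h3 : ((3 : ℕ) : F) ≠ 0 := H6.El.cast_ne_zero_of_ne (p := p) (by omega)
  have h1 : 3 ∣ Fintype.card F - 1 := by omega
  obtain ⟨hz, a, b, z, ω, h⟩ :=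
    H6.El.exists_h3 H6.El.rho0_inj (fun _ => H6.El.exists_gl0) hn h1 hR hRe hRna
  rw [H6.El.forall_GL_conj_iff]
  refine ⟨fun H => by_contra fun k => ?_, ?_⟩
  · by_cases hr : r = 3
    · subst hr
      have k1 := mul_dvd_mul hΩ (Subgroup.card_dvd_of_le (le_inf Subgroup.le_normalizer
        fun x hx => Units.ext (by simpa [H6.El.rho0, H6.gl0_coe] using h.det x hx) :
          R ≤ Geo.subgroupNormalizer R ⊓ Geo.specialLinear (Fin 3) F))
      have := (Fact.out : p.Prime).pos
      rw [H6.El.relIndex_mul_card, H6.El.card_SL, hR, hF, ← ZMod.natCast_eq_zero_iff] at k1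
      simp only [Finset.sum_range_succ, Finset.prod_range_succ, Finset.range_zero, Finset.sum_empty,
        Finset.prod_empty, Nat.cast_mul, Nat.cast_sub (Nat.one_le_pow _ _ this)] at k1
      refine (by decide +kernel : ∀ x : ZMod 81, x.val % 3 = 1 → x.val % 9 ≠ 1 →
        x ^ 3 * (1 * (x ^ 2 - 1) * (x ^ 3 - 1)) ≠ 0) p ?_ ?_ (by simpa using k1) <;>
        rw [ZMod.val_natCast] <;> omega
    · exact H6.El.not_forall_ci_of hΩ ((Nat.coprime_primes Fact.out Nat.prime_three).2 hr) (fun y =>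
        h.xs.not_pe (p := 3) hR hz.symm.dvd hr fun e => k (Or.inl
          ((Nat.prime_dvd_prime_iff_eq Fact.out Nat.prime_two).1
            ((Fact.out : r.Prime).dvd_of_dvd_pow (n := 3) e)))) H
  rintro (rfl | ⟨rfl, -⟩) f k
  · obtain ⟨y, γ, k1, k2, -, k3⟩ := h.two h2 h3 hn k
    exact (h.xs.smul k2 k1).ci k3 k h2
  · rcases k.cases h3 with ⟨γ, k1, y, e, ν, rfl, k2, -⟩ | ⟨c, s, k1, k2⟩
    · obtain ⟨y, k3, k4⟩ := h.three h1 hn k2.pow
      exact (h.xs.smul k3 k1).ci (k4.smul γ) k h3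
    · exact absurd (hn ▸ k.irrEx k1 k2) H6.El.not_irrEx_three

end Cfsg.Agent.S5998
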