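import Cfsg.Statements.S5999
import Cfsg.Agent.H6.X4

set_option autoImplicit false
open scoped MatrixGroups
open Cfsg

namespace Cfsg.Agent.S5999

/-- Elements of prime order of PSU_3(p), p ≡ 2 (mod 3), and the normalizer of an extraspecial subgroup of order 27. Here `T = PSU_3(p)` for a prime `p ≥ 5` with `p ≡ 2 (mod 3)`, realised through `SU_3(p)`, the matrices of determinant 1 over the field `F` with `p²` elements preserving the hermitian form `Σ uᵢvᵢ^p`; `R` is a non-abelian subgroup of order 27 and exponent 3 of the full unitary group of that form (an extraspecial group 3^{1+2}, acting absolutely irreducibly), and `H` is the subgroup of `SU_3(p)` normalizing `R` — a subgroup of type 3^{1+2}.Sp₂(3) (maximality is not assumed). Ω is the set of cosets of `H`, so an element of `T` of prime order `r` (`x ∈ SU_3(p)` with `x^r` scalar, `x` not scalar) fixes a point of Ω exactly when some `SU_3(p)`-conjugate of `x` normalizes `R`. Let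 `r` be a prime dividing the index of `H`. Then every element of `T` of order `r` fixes a point of Ω if and only if `r = 2`, or `r = 3` and `p ≡ 8 (mod 9)`. -/
theorem result {F : Type*} [Field F] [Fintype F] {p : ℕ} [Fact p.Prime] [CharP F p] (hF : Fintype.card F = p ^ 2) (hp : 5 ≤ p) (hp3 : p % 3 = 2)
    (R : Subgroup (GL (Fin 3) F)) (hRU : R ≤ Cfsg.GU 3 F p) (hR : Nat.card R = 27) (hRe : Monoid.exponent R = 3) (hRna : ¬ IsMulCommutative R)
    (r : ℕ) [Fact r.Prime]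
    (hΩ : r ∣ (Cfsg.Geo.subgroupNormalizer R).relIndex (Cfsg.GU 3 F p ⊓ Cfsg.Geo.specialLinear (Fin 3) F)) :
    (∀ x ∈ Cfsg.GU 3 F p ⊓ Cfsg.Geo.specialLinear (Fin 3) F, (∃ z : F, ((x ^ r : GL (Fin 3) F) : Matrix (Fin 3) (Fin 3) F) = z • (1 : Matrix (Fin 3) (Fin 3) F)) →
      (∀ z : F, (x : Matrix (Fin 3) (Fin 3) F) ≠ z • (1 : Matrix (Fin 3) (Fin 3) F)) →
      ∃ g ∈ Cfsg.GU 3 F p ⊓ Cfsg.Geo.specialLinear (Fin 3) F, g⁻¹ * x * g ∈ Cfsg.Geo.subgroupNormalizer R) ↔ (r = 2 ∨ (r = 3 ∧ p % 9 = 8)) := by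
  obtain ⟨σ, B, hσ, hB, hB'⟩ := H6.El.herm_bridge hF 3
  have hn : Module.finrank F (Fin 3 → F) = 3 := by simp
  have h2 : ((2 : ℕ) : F) ≠ 0 := H6.El.cast_ne_zero_of_ne (p := p) (by omega)
  have h3 : ((3 : ℕ) : F) ≠ 0 := H6.El.cast_ne_zero_of_ne (p := p) (by omega)
  have h1 : 3 ∣ Fintype.card F - 1 := by
    rw [hF, ← one_pow 2, Nat.sq_sub_sq]
    exact Dvd.dvd.mul_right (by omega) _
  obtain ⟨hz, a, b, z, ω, h⟩ :=
    H6.El.exists_h3 H6.El.rho0_inj (fun _ => H6.El.exists_gl0) hn h1 hR hRe hRna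
  have h4 := fun x hx => (H6.El.mem_GU_iff hB' x).1 (hRU hx)
  refine H6.El.forall_GU_nr_iff hB' hB (H6.El.exists_ne_of_unit hF hσ) R ?_ fun k => ?_
  · rintro (rfl | ⟨rfl, -⟩)
    · refine ⟨h2, fun f hf k => ?_⟩
      obtain ⟨y, γ, k1, k2, k3, k4⟩ := h.two h2 h3 hn k
      obtain ⟨μ, k5⟩ := h.xs.sml hB h4 k2
      replace k5 := (H6.El.sml_one_of_inv h2 hB k5 k3 (by omega)).smul γ
      refine ⟨_, h.xs.smul k2 k1, ?_, k4⟩
      obtain ⟨c, hc⟩ := k.pow
      have k6 := (k5.pow_eq hB ((k4.pow 2).eq_smul hc)).trans (hf.pow_eq hB hc).symm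
      have k7 := k4.det_eq.trans k.det
      rw [LinearMap.det_smul, hn, k3.det] at k7
      have k8 := congrArg σ k7
      simp only [Multiset.prod_add, Multiset.prod_replicate, one_pow, pow_one, one_mul, map_mul,
        map_neg, map_one, map_pow, mul_one] at k6 k7 k8
      convert k5
      linear_combination γ * σ γ * k6 - σ γ ^ 3 * -1 * k7 - k8
    · refine ⟨h3, fun f hf k => ?_⟩
      rcases H6.El.ucases_odd hB hf k h3 (by omega) with ⟨γ, k1, y, e, ν, -, rfl, k2, -⟩ | ⟨c, s, -, k1, k2⟩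
      · obtain ⟨y, k3, k4⟩ := h.three h1 hn k2.pow
        obtain ⟨μ, k5⟩ := h.xs.sml hB h4 k3
        refine ⟨_, h.xs.smul k3 (left_ne_zero_of_mul_eq_one k1), ?_, k4.smul γ⟩
        simpa [k1] using (H6.El.sml_one_of_pow (r := 3) hF hσ hB k5 (by
          simpa using (k4.pow 3).eq_smul (k2.pow.trans (one_smul F _).symm)) (by omega)).smul γ
      · exact absurd (hn ▸ k.irrEx k1 k2) H6.El.not_irrEx_three
  by_cases hr : r = 3
  · subst hr
    have k1 := mul_dvd_mul hΩ (Subgroup.card_dvd_of_le (le_inf Subgroup.le_normalizer (le_inf hRU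
      fun x hx => Units.ext (by simpa [H6.El.rho0, H6.gl0_coe] using h.det x hx)) :
        R ≤ Geo.subgroupNormalizer R ⊓ (GU 3 F p ⊓ Geo.specialLinear (Fin 3) F)))
    obtain ⟨g, k2, k3⟩ := H6.El.exists_isom_dg hB (H6.El.t0_of_unit hF hσ) (A := {ω, 1, 1}) (by simp)
      (by
        obtain ⟨t, ht⟩ : 3 ∣ p + 1 := by omega
        simp [hσ, ← pow_succ', ht, pow_mul, h.cube])
    obtain ⟨g, rfl⟩ := H6.El.exists_gl0 (k2.injective hB one_ne_zero)
    let φ := (Matrix.GeneralLinearGroup.det : GL (Fin 3) F →* Fˣ).comp (GU 3 F p).subtype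
    have k4 : orderOf (φ ⟨g, (H6.El.mem_GU_iff hB' g).2 k2⟩) = 3 := by
      rw [← orderOf_units, show (φ _ : F) = ω by simpa [φ, H6.gl0_coe] using k3.det]
      exact orderOf_eq_prime h.cube h.ne
    have k5 := φ.ker.card_mul_index
    rw [Subgroup.index_ker, show Nat.card φ.ker = Nat.card (GU 3 F p ⊓ Geo.specialLinear (Fin 3) F :
      Subgroup _) from Nat.card_congr ((MulEquiv.subgroupCongr (Subgroup.inf_subgroupOf_left
        (Geo.specialLinear (Fin 3) F) (GU 3 F p)).symm).trans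
        (Subgroup.subgroupOfEquivOfLe inf_le_left)).toEquiv, Nat.card_congr
      (H6.gl0.toEquiv.subtypeEquiv (q := (· ∈ H6.El.isoG B)) fun g => (H6.El.mem_GU_iff hB' g).trans
        (by simp only [H6.El.Sml, one_mul]; rfl))] at k5
    rw [H6.El.relIndex_mul_card, hR] at k1
    have k6 := mul_dvd_mul k1 (k4 ▸ φ.range.orderOf_dvd_natCard ⟨_, rfl⟩)
    rw [k5, ← Int.natCast_dvd_natCast, (H6.El.card_gu hF hσ hB hn).2,
      ← ZMod.intCast_zmod_eq_zero_iff_dvd] at k6
    simp only [Finset.sum_range_succ, Finset.prod_range_succ, Finset.range_zero, Finset.sum_empty,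
      Finset.prod_empty] at k6
    refine absurd (by simpa using k6) ((by decide +kernel : ∀ x : ZMod 243, x.val % 3 = 2 →
      x.val % 9 ≠ 8 → x ^ 3 * ((x + 1) * (x ^ 2 - 1) * (x ^ 3 + 1)) ≠ 0) p ?_ ?_) <;>
      rw [ZMod.val_natCast] <;> omega
  · obtain ⟨x, k1, k2⟩ := H6.El.exists_pe_of_dvd inf_le_right hΩ
      ((Nat.coprime_primes Fact.out Nat.prime_three).2 hr)
    exact ⟨_, (H6.El.mem_GU_iff hB' x).1 k1.1, k2, fun y k3 k4 => h.xs.not_pe (p := 3) hR hz.symm.dvd hr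
      (fun e => k (Or.inl ((Nat.prime_dvd_prime_iff_eq Fact.out Nat.prime_two).1
        ((Fact.out : r.Prime).dvd_of_dvd_pow (n := 3) e)))) k3 (k2.of_sim k4)⟩

end Cfsg.Agent.S5999
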