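import Cfsg.Statements.S6000
import Cfsg.Agent.H6.X5

set_option autoImplicit false
open scoped MatrixGroups
open Cfsg

namespace Cfsg.Agent.S6000

/-- Elements of prime order of PSL_4(p), p ≡ 1 (mod 4), and the normalizer of a 2-group of symplectic type of order 2⁶. Here `T = PSL_4(F)` for the field `F` with `p` elements, `p` a prime with `p ≡ 1 (mod 4)`; `R` is an absolutely irreducible subgroup of GL_4(F) of order 2⁶ that is a 2-group of symplectic type of exponent 4 with centre of order 4 (the central product of the scalars of order 4 with an extraspecial group 2^{1+4}), and `H` is the subgroup of matrices of determinant 1 normalizing `R` — a subgroup of type 2⁴.Sp₄(2) (maximality is not assumed). Ω is the set of cosets of `H` in `T`, so an element of `T` of prime order `r` (a matrix `x` of determinant 1 with `x^r` scalar, `x` not scalar) fixes a point of Ω exactly when some conjugate of `x` by a matrix of determinant 1 normalizes `R`. Let `r` be a prime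 dividing the index of `H`. Then every element of `T` of order `r` fixes a point of Ω if and only if `r = 2`, or `r = 3` and `p ≡ 2 (mod 3)`, or `r = 5` and `p ≡ ±2 (mod 5)` (`p` has multiplicative order 4 modulo 5). -/
theorem result {F : Type*} [Field F] [Fintype F] {p : ℕ} [Fact p.Prime] [CharP F p] (hF : Fintype.card F = p) (hp4 : p % 4 = 1)
    (R : Subgroup (GL (Fin 4) F)) (hR : Cfsg.Geo.IsLinearSymplecticTypeData 2 R) (hR6 : Nat.card R = 2 ^ 6)
    (r : ℕ) [Fact r.Prime]
    (hΩ : r ∣ (Cfsg.Geo.subgroupNormalizer R).relIndex (Cfsg.Geo.specialLinear (Fin 4) F)) :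
    (∀ x ∈ Cfsg.Geo.specialLinear (Fin 4) F, (∃ z : F, ((x ^ r : GL (Fin 4) F) : Matrix (Fin 4) (Fin 4) F) = z • (1 : Matrix (Fin 4) (Fin 4) F)) →
      (∀ z : F, (x : Matrix (Fin 4) (Fin 4) F) ≠ z • (1 : Matrix (Fin 4) (Fin 4) F)) →
      ∃ g ∈ Cfsg.Geo.specialLinear (Fin 4) F, g⁻¹ * x * g ∈ Cfsg.Geo.subgroupNormalizer R) ↔ (r = 2 ∨ (r = 3 ∧ p % 3 = 2) ∨ (r = 5 ∧ orderOf (p : ZMod 5) = 4)) := by
  have hn : Module.finrank F (Fin 4 → F) = 4 := by simp
  have h2 : ((2 : ℕ) : F) ≠ 0 := H6.El.cast_ne_zero_of_ne (p := p) (by omega)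
  have hp := (Fact.out : p.Prime)
  have hZ : Nat.card (Subgroup.center R) = 4 := by
    obtain ⟨_, _, -, -, k | k | k⟩ := hR.field
    · exact absurd k.1 (by decide)
    · exact k.2.2.1
    · simpa using k.2.2.1
  obtain ⟨z, a, b, c, d, ι, h⟩ := H6.El.exists_e64' hR.symplecticType hR.absIrred hR6 hZ
  have h0 : r ≠ 2 → (r ∣ p - 1 ∨ r ∣ p) → ¬ ∀ f, H6.El.PE r f → H6.El.CI (Geo.subgroupNormalizer R) f :=
    fun k1 k2 H => by
      obtain ⟨f, γ, k3, k4⟩ := H6.El.exists_pe_rank_one (F := F) k1 hn (k2.imp (hF ▸ ·) fun e => by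
        rwa [(Nat.prime_dvd_prime_iff_eq Fact.out hp).1 e])
      obtain ⟨y, k5, k6⟩ := (H f k3).nr
      exact h.xs.not_sim h2 k3 k1 hn k4 k5 k6
  rw [H6.El.forall_GL_conj_iff]
  refine ⟨fun H => by_contra fun k => ?_, ?_⟩
  · have hr2 : r ≠ 2 := fun e => k (Or.inl e)
    by_cases hr3 : r = 3
    · subst hr3
      exact h0 hr2 (by omega) H
    by_cases hr5 : r = 5
    · subst hr5
      rcases H6.El.ord_five p with e | e | e | e
      · exact k (by simp [e.1])
      · exact h0 hr2 (by omega) H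
      · exact h0 hr2 (by omega) H
      · have h5 : ((5 : ℕ) : F) ≠ 0 := H6.El.cast_ne_zero_of_ne (p := p) (by omega)
        obtain ⟨f, π, -, -, -, k1, k2⟩ := H6.El.exists_pe_min (V := Fin 4 → F) h5 (by rw [hF]; omega)
          (by rw [hF]; omega)
        obtain ⟨y, k5, k6⟩ := (H f k2).nr
        exact h.not_five h2 h5 hn (by simpa [hF, e.2] using k1) k2 k5 k6
    exact H6.El.not_forall_ci_of hΩ (((Nat.coprime_primes Fact.out Nat.prime_two).2 hr2).pow_right 2)
      (fun y => h.not_pe hr2 hr3 hr5) H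
  rintro (rfl | ⟨rfl, e⟩ | ⟨rfl, e⟩) f k
  · rcases k.cases h2 with ⟨γ, k1, y, e, ν, rfl, k2, -⟩ | ⟨c, s, k1, k2⟩
    · obtain ⟨w, k3, k4⟩ := h.two (σ := RingHom.id F) (B := 0) h2 hn (by rw [← sq, k2.pow])
        fun c hc => k.ns (γ * c) (by rw [hc, smul_smul])
      exact (h.xs.smul k3.1 k1).ci (k4.smul γ) k h2
    · refine absurd ⟨?_, fun _ _ => hF ▸ hp4⟩
        ((H6.El.irrEx_iff (H6.El.ord_two h2) (by simp)).1 (k.irrEx k1 k2))
      have := hp.two_le
      rw [hn, hF, show padicValNat 2 4 = 2 from padicValNat.prime_pow 2,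
        ← padicValNat_dvd_iff_le (by omega)]
      omega
  · have h3 : ((3 : ℕ) : F) ≠ 0 := H6.El.cast_ne_zero_of_ne (p := p) (by omega)
    have k0 : orderOf ((Fintype.card F : ℕ) : ZMod 3) = 3 - 1 := by
      rw [hF, ← ZMod.natCast_mod, e]; exact orderOf_eq_prime (p := 2) (by decide +revert) (by decide +revert)
    obtain ⟨γ, k1, y, e, ν, rfl, k2, k3⟩ := k.spl h3 (by omega)
    obtain ⟨w, e', ν', k4, k5, k6, k7⟩ := h.three (σ := RingHom.id F) (B := 0) h2 h3 hn (e = 0)
    have k8 := k2.finrank h3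
    have k9 := k5.finrank h3
    have := Multiset.card_pos.2 k3
    have := Multiset.card_pos.2 k6
    rw [k0] at k8 k9
    obtain rfl : e = e' := by omega
    exact (h.xs.smul k4.1 k1).ci ((k5.sim k2 h3 k0 rfl).smul γ) k h3
  · have h5 : ((5 : ℕ) : F) ≠ 0 := H6.El.cast_ne_zero_of_ne (p := p) (by
      rintro rfl; simp [-Nat.cast_ofNat] at e)
    have k0 : orderOf ((Fintype.card F : ℕ) : ZMod 5) = 5 - 1 := hF ▸ e
    obtain ⟨γ, k1, y, e, ν, rfl, k2, k3⟩ := k.spl h5 (by omega)
    obtain ⟨w, ν', k4, k5⟩ := h.five (σ := RingHom.id F) (B := 0) h2 h5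
    have k8 := k2.finrank h5
    have := Multiset.card_pos.2 k3
    rw [k0] at k8
    obtain rfl : e = 0 := by omega
    exact (h.xs.smul k4.1 k1).ci ((k5.sim k2 h5 k0 rfl).smul γ) k h5

end Cfsg.Agent.S6000
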