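import Cfsg.Statements.S6001
import Cfsg.Agent.H6.X5

set_option autoImplicit false
open scoped MatrixGroups
open Cfsg

namespace Cfsg.Agent.S6001

/-- Elements of prime order of PSU_4(p), p ≡ 3 (mod 4), and the normalizer of a 2-group of symplectic type of order 2⁶. Here `T = PSU_4(p)` for a prime `p ≡ 3 (mod 4)`, realised through `SU_4(p)`, the matrices of determinant 1 over the field `F` with `p²` elements preserving the hermitian form `f = Σ uᵢvᵢ^p`; `R` is an absolutely irreducible subgroup of the full unitary group of `f` of order 2⁶ that is a 2-group of symplectic type of exponent 4 with centre of order 4, and `H` is the subgroup of `SU_4(p)` normalizing `R` — a subgroup of type 2⁴.Sp₄(2) (maximality is not assumed). Ω is the set of cosets of `H`, so an element of `T` of prime order `r` (`x ∈ SU_4(p)` with `x^r` scalar, `x` not scalar) fixes a point of Ω exactly when some `SU_4(p)`-conjugate of `x` normalizes `R`. Let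 `r` be a prime dividing the index of `H`. Then every element of `T` of order `r` fixes a point of Ω if and only if `r = 2`, or `r = 3` and `p ≡ 1 (mod 3)`, or `r = 5` and `p ≡ ±2 (mod 5)` (`p` has multiplicative order 4 modulo 5). -/
theorem result {F : Type*} [Field F] [Fintype F] {p : ℕ} [Fact p.Prime] [CharP F p] (hF : Fintype.card F = p ^ 2) (hp4 : p % 4 = 3)
    (R : Subgroup (GL (Fin 4) F)) (hRs : Cfsg.Geo.IsSymplecticTypeGroup 2 R) (hRi : Cfsg.Geo.ActsAbsolutelyIrreducibly (Cfsg.Geo.matrixSet R))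
    (hRU : R ≤ Cfsg.GU 4 F p) (hR6 : Nat.card R = 2 ^ 6) (hRZ : Nat.card (Subgroup.center R) = 4)
    (r : ℕ) [Fact r.Prime]
    (hΩ : r ∣ (Cfsg.Geo.subgroupNormalizer R).relIndex (Cfsg.GU 4 F p ⊓ Cfsg.Geo.specialLinear (Fin 4) F)) :
    (∀ x ∈ Cfsg.GU 4 F p ⊓ Cfsg.Geo.specialLinear (Fin 4) F, (∃ z : F, ((x ^ r : GL (Fin 4) F) : Matrix (Fin 4) (Fin 4) F) = z • (1 : Matrix (Fin 4) (Fin 4) F)) →
      (∀ z : F, (x : Matrix (Fin 4) (Fin 4) F) ≠ z • (1 : Matrix (Fin 4) (Fin 4) F)) →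
      ∃ g ∈ Cfsg.GU 4 F p ⊓ Cfsg.Geo.specialLinear (Fin 4) F, g⁻¹ * x * g ∈ Cfsg.Geo.subgroupNormalizer R) ↔ (r = 2 ∨ (r = 3 ∧ p % 3 = 1) ∨ (r = 5 ∧ orderOf (p : ZMod 5) = 4)) := by
  obtain ⟨σ, B, hσ, hB, hB'⟩ := H6.El.herm_bridge hF 4
  have hn : Module.finrank F (Fin 4 → F) = 4 := by simp
  have h2 : ((2 : ℕ) : F) ≠ 0 := H6.El.cast_ne_zero_of_ne (p := p) (by omega)
  have h2' : ringChar F ≠ 2 := by rw [ringChar.eq F p]; omega
  have hp := (Fact.out : p.Prime)
  obtain ⟨z, a, b, c, d, ι, h⟩ := H6.El.exists_e64' hRs hRi hR6 hRZ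
  have h4 := fun x hx => (H6.El.mem_GU_iff hB' x).1 (hRU hx)
  have h1 : ∀ {γ : F} {w y : Module.End F (Fin 4 → F)}, γ * σ γ = 1 → H6.El.NI H6.El.rho0 R B w →
      H6.El.Sim w y → ∃ u, H6.El.NR H6.El.rho0 R u ∧ H6.El.Sml B u 1 ∧ H6.El.Sim u (γ • y) :=
    fun {γ _ _} k1 k2 k3 => ⟨_, h.xs.smul k2.1 (left_ne_zero_of_mul_eq_one k1),
      by simpa [k1] using (k2.2 h4).smul γ, k3.smul γ⟩
  refine H6.El.forall_GU_nr_iff hB' hB (H6.El.exists_ne_of_unit hF hσ) R ?_ fun k => ?_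
  · rintro (rfl | ⟨rfl, e⟩ | ⟨rfl, e⟩)
    · refine ⟨h2, fun f hf k => ?_⟩
      rcases H6.El.ucases_two hF hσ hB hf k h2' with ⟨γ, k1, y, e, ν, -, rfl, k2, -⟩ | ⟨γ, s, k1, k2⟩
      · obtain ⟨w, k3, k4⟩ := h.two (B := B) h2 hn (by rw [← sq, k2.pow])
          fun c hc => k.ns (γ * c) (by rw [hc, smul_smul])
        exact h1 k1 k3 k4
      · refine absurd ⟨?_, hp4⟩ (H6.El.not_cond_of_neg hσ h2' k k1 k2)
        rw [hn, show padicValNat 2 4 = 2 from padicValNat.prime_pow 2,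
          ← padicValNat_dvd_iff_le (by omega)]
        omega
    · have h3 : ((3 : ℕ) : F) ≠ 0 := H6.El.cast_ne_zero_of_ne (p := p) (by omega)
      have k0 : orderOf (-(p : ZMod 3)) = 2 := by
        rw [← ZMod.natCast_mod, e]; exact orderOf_eq_prime (by decide +revert) (by decide +revert)
      have l0 : orderOf ((Fintype.card F : ℕ) : ZMod 3) = 1 := by
        rw [hF, Nat.cast_pow, ← ZMod.natCast_mod, e]; simp
      refine ⟨h3, fun f hf k => ?_⟩
      rcases H6.El.ucases_odd hB hf k h3 (by omega) with ⟨γ, k1, y, e, ν, l1, rfl, k2, k3⟩ | ⟨c, s, k1, k2, -⟩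
      · obtain ⟨w, e', ν', k4, k5, k6, k7⟩ := h.three (B := B) h2 h3 hn (e = 0)
        have k8 := k2.finrank h3
        have k9 := k5.finrank h3
        obtain ⟨s, l2, -⟩ := H6.El.US.spl_c (S := hB.us l1) hF hσ h3 k2
        obtain ⟨s', l3, -⟩ := H6.El.US.spl_c (S := hB.us (k4.2 h4)) hF hσ h3 k5
        have := Multiset.card_pos.2 k3
        have := Multiset.card_pos.2 k6
        rw [k0] at l2 l3
        rw [l2] at k8
        rw [l3] at k9
        rw [l0] at l2 l3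
        obtain rfl : e = e' := by omega
        exact h1 k1 k4 (k5.sim_u hF hσ hB h3 (by rw [k0]; decide) (by rw [l0]) (k4.2 h4) l1 k2)
      · exact absurd (k0.symm.trans (H6.El.c_eq_one_of_irr hσ k1 k2)) (by decide)
    · have h5 : ((5 : ℕ) : F) ≠ 0 := H6.El.cast_ne_zero_of_ne (p := p) (by omega)
      obtain ⟨-, l0, k0⟩ := (H6.El.ord_five p).resolve_right (by
        rw [← ZMod.natCast_mod] at e
        rintro (e' | ⟨e', -⟩ | ⟨e', e''⟩)
        · simp [e'] at e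
        · simp [e'] at e
        · rw [ZMod.natCast_mod] at e; omega)
      rw [← hF] at l0
      refine ⟨h5, fun f hf k => ?_⟩
      rcases H6.El.ucases_odd hB hf k h5 (by omega) with ⟨γ, k1, y, e, ν, l1, rfl, k2, k3⟩ | ⟨c, s, k1, k2, -⟩
      · obtain ⟨w, ν', k4, k5⟩ := h.five (B := B) h2 h5
        have k8 := k2.finrank h5
        obtain ⟨s, l2, -⟩ := H6.El.US.spl_c (S := hB.us l1) hF hσ h5 k2
        have := Multiset.card_pos.2 k3
        rw [k0, l0] at l2
        rw [l0] at k8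
        obtain rfl : e = 0 := by omega
        exact h1 k1 k4 (k5.sim_u hF hσ hB h5 (by rw [k0]; decide) (by rw [l0]) (k4.2 h4) l1 k2)
      · exact absurd (k0.symm.trans (H6.El.c_eq_one_of_irr hσ k1 k2)) (by decide)
  have hr2 : r ≠ 2 := fun e => k (Or.inl e)
  have h0 : (r ∣ p + 1 ∨ r ∣ p) → ∃ f, H6.El.Sml B f 1 ∧ H6.El.PE r f ∧
      ∀ y, H6.El.NR H6.El.rho0 R y → ¬ H6.El.Sim y f := fun k2 => by
    obtain ⟨f, γ, k3, k4, k5⟩ := H6.El.exists_upe_rank_one hF hσ hB hr2 hn (k2.imp_right fun e => by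
      rwa [(Nat.prime_dvd_prime_iff_eq Fact.out hp).1 e])
    exact ⟨f, k3, k4, fun y => h.xs.not_sim h2 k4 hr2 hn k5⟩
  by_cases hr3 : r = 3
  · subst hr3
    exact h0 (by omega)
  by_cases hr5 : r = 5
  · subst hr5
    rcases H6.El.ord_five p with e | e | e | e
    · exact absurd (by simp [e.1]) k
    · exact h0 (by omega)
    · have h5 : ((5 : ℕ) : F) ≠ 0 := H6.El.cast_ne_zero_of_ne (p := p) (by omega)
      obtain ⟨f, ν, k1, k2⟩ := H6.El.exists_spl_u (e := 2) (s := 1) hF hσ hB h5 (by omega)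
      have k3 := H6.El.upe_of_spl hB k1 h5 k2 (by rintro rfl; simpa using k2.finrank h5)
        (H6.El.eq_one_of_c hσ (by omega))
      exact ⟨f, k1, k3, fun y => h.not_five h2 h5 hn k2 k3⟩
    · exact h0 (by omega)
  obtain ⟨x, k1, k2⟩ := H6.El.exists_pe_of_dvd inf_le_right hΩ
    (((Nat.coprime_primes Fact.out Nat.prime_two).2 hr2).pow_right 2)
  exact ⟨_, (H6.El.mem_GU_iff hB' x).1 k1.1, k2, fun y k3 k4 => h.not_pe hr2 hr3 hr5 k3 (k2.of_sim k4)⟩

end Cfsg.Agent.S6001
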